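import Cfsg.Agent.Lib.H17.TCSV.Chk
set_option autoImplicit false
set_option maxRecDepth 100000
set_option linter.all false
namespace H17.TCSV
open H35.TC
section
variable {G : Type} [Group G] {g : Lt → G} {H : Subgroup G}
/-- the points of the nodes -/
noncomputable def cP (g : Lt → G) (H : Subgroup G) : ℕ → G ⧸ H := cc (fa g) lt P ((1 : G) : G ⧸ H)
theorem dp_a_0_s (hinv : ∀ x, g (inv x) = (g x)⁻¹) (hr : ∀ r ∈ rels, (r.map g).prod = 1) (hH : ∀ r ∈ subs, (r.map g).prod ∈ H)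
    (j u : ℕ) (hu : u < M) (h : dp_a_0 j u = true) : Good (fa g) T MG M (cP g H) Lt.a u := by
  unfold dp_a_0 at h
  rcases brec_true h with h | h
  · exact lS_good (T := T) (x := Lt.a) (by decide) hu [Lt.d, Lt.a, Lt.d] (hole_rel hinv hr (by decide +kernel)) h
  · exact lS_good (T := T) (x := Lt.a) (by decide) hu [Lt.c, Lt.a, Lt.c] (hole_rel hinv hr (by decide +kernel)) h
theorem dp_a_1_s (hinv : ∀ x, g (inv x) = (g x)⁻¹) (hr : ∀ r ∈ rels, (r.map g).prod = 1) (hH : ∀ r ∈ subs, (r.map g).prod ∈ H)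
    (j u : ℕ) (hu : u < M) (h : dp_a_1 j u = true) : Good (fa g) T MG M (cP g H) Lt.a u := by
  unfold dp_a_1 at h
  rcases brec_true h with h | h
  · exact lS_good (T := T) (x := Lt.a) (by decide) hu [Lt.f, Lt.a, Lt.f] (hole_rel hinv hr (by decide +kernel)) h
  · exact dp_a_0_s hinv hr hH j u hu h
theorem dp_a_2_s (hinv : ∀ x, g (inv x) = (g x)⁻¹) (hr : ∀ r ∈ rels, (r.map g).prod = 1) (hH : ∀ r ∈ subs, (r.map g).prod ∈ H)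
    (j u : ℕ) (hu : u < M) (h : dp_a_2 j u = true) : Good (fa g) T MG M (cP g H) Lt.a u := by
  unfold dp_a_2 at h
  rcases brec_true h with h | h
  · exact lS_good (T := T) (x := Lt.a) (by decide) hu [Lt.b, Lt.a, Lt.b, Lt.a, Lt.b, Lt.a, Lt.b, Lt.a, Lt.b] (hole_rel hinv hr (by decide +kernel)) h
  · exact lS_good (T := T) (x := Lt.a) (by decide) hu [Lt.v, Lt.f, Lt.b, Lt.c, Lt.d, Lt.c, Lt.b, Lt.f, Lt.a, Lt.b, Lt.c, Lt.d, Lt.f, Lt.b, Lt.c, Lt.d, Lt.c, Lt.b, Lt.f, Lt.v, Lt.d, Lt.c, Lt.b] (hole_rel hinv hr (by decide +kernel)) h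
theorem dp_a_3_s (hinv : ∀ x, g (inv x) = (g x)⁻¹) (hr : ∀ r ∈ rels, (r.map g).prod = 1) (hH : ∀ r ∈ subs, (r.map g).prod ∈ H)
    (j u : ℕ) (hu : u < M) (h : dp_a_3 j u = true) : Good (fa g) T MG M (cP g H) Lt.a u := by
  unfold dp_a_3 at h
  rcases brec_true h with h | h
  · exact lS_good (T := T) (x := Lt.a) (by decide) hu [Lt.e, Lt.a, Lt.e] (hole_rel hinv hr (by decide +kernel)) h
  · exact dp_a_2_s hinv hr hH j u hu h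
theorem dp_a_4_s (hinv : ∀ x, g (inv x) = (g x)⁻¹) (hr : ∀ r ∈ rels, (r.map g).prod = 1) (hH : ∀ r ∈ subs, (r.map g).prod ∈ H)
    (j u : ℕ) (hu : u < M) (h : dp_a_4 j u = true) : Good (fa g) T MG M (cP g H) Lt.a u := by
  unfold dp_a_4 at h
  rcases brec_true h with h | h
  · exact lS_good (T := T) (x := Lt.a) (by decide) hu [Lt.d, Lt.c, Lt.d, Lt.c, Lt.d, Lt.c, Lt.d, Lt.c] (hole_rel hinv hr (by decide +kernel)) h
  · exact lS_good (T := T) (x := Lt.a) (by decide) hu [Lt.c, Lt.d, Lt.c, Lt.d, Lt.c, Lt.d, Lt.c, Lt.d] (hole_rel hinv hr (by decide +kernel)) h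
theorem dp_a_5_s (hinv : ∀ x, g (inv x) = (g x)⁻¹) (hr : ∀ r ∈ rels, (r.map g).prod = 1) (hH : ∀ r ∈ subs, (r.map g).prod ∈ H)
    (j u : ℕ) (hu : u < M) (h : dp_a_5 j u = true) : Good (fa g) T MG M (cP g H) Lt.a u := by
  unfold dp_a_5 at h
  rcases brec_true h with h | h
  · exact lS_good (T := T) (x := Lt.a) (by decide) hu [Lt.b, Lt.c, Lt.d, Lt.v, Lt.f, Lt.b, Lt.c, Lt.d, Lt.c, Lt.b, Lt.f, Lt.d, Lt.c, Lt.b, Lt.a, Lt.f, Lt.b, Lt.c, Lt.d, Lt.c, Lt.b, Lt.f, Lt.v] (hole_rel hinv hr (by decide +kernel)) h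
  · exact lF_good (T := T) (x := Lt.a) (by decide) [Lt.b, Lt.a, Lt.b, Lt.a, Lt.b, Lt.a, Lt.b, Lt.a, Lt.b] (hole_rel hinv hr (by decide +kernel)) h
theorem dp_a_6_s (hinv : ∀ x, g (inv x) = (g x)⁻¹) (hr : ∀ r ∈ rels, (r.map g).prod = 1) (hH : ∀ r ∈ subs, (r.map g).prod ∈ H)
    (j u : ℕ) (hu : u < M) (h : dp_a_6 j u = true) : Good (fa g) T MG M (cP g H) Lt.a u := by
  unfold dp_a_6 at h
  rcases brec_true h with h | h
  · exact lS_good (T := T) (x := Lt.a) (by decide) hu [Lt.f, Lt.c, Lt.b, Lt.a, Lt.f, Lt.c, Lt.b, Lt.a, Lt.f, Lt.c, Lt.b, Lt.a, Lt.f, Lt.c, Lt.b, Lt.a, Lt.f, Lt.c, Lt.b] (hole_rel hinv hr (by decide +kernel)) h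
  · exact lS_good (T := T) (x := Lt.a) (by decide) hu [Lt.b, Lt.c, Lt.f, Lt.a, Lt.b, Lt.c, Lt.f, Lt.a, Lt.b, Lt.c, Lt.f, Lt.a, Lt.b, Lt.c, Lt.f, Lt.a, Lt.b, Lt.c, Lt.f] (hole_rel hinv hr (by decide +kernel)) h
theorem dp_a_7_s (hinv : ∀ x, g (inv x) = (g x)⁻¹) (hr : ∀ r ∈ rels, (r.map g).prod = 1) (hH : ∀ r ∈ subs, (r.map g).prod ∈ H)
    (j u : ℕ) (hu : u < M) (h : dp_a_7 j u = true) : Good (fa g) T MG M (cP g H) Lt.a u := by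
  unfold dp_a_7 at h
  rcases brec_true h with h | h
  · exact lS_good (T := T) (x := Lt.a) (by decide) hu [Lt.b, Lt.c, Lt.d, Lt.f, Lt.b, Lt.c, Lt.d, Lt.c, Lt.b, Lt.f, Lt.v, Lt.d, Lt.c, Lt.b, Lt.a, Lt.v, Lt.f, Lt.b, Lt.c, Lt.d, Lt.c, Lt.b, Lt.f] (hole_rel hinv hr (by decide +kernel)) h
  · exact lS_good (T := T) (x := Lt.a) (by decide) hu [Lt.f, Lt.b, Lt.c, Lt.d, Lt.c, Lt.b, Lt.f, Lt.v, Lt.a, Lt.b, Lt.c, Lt.d, Lt.v, Lt.f, Lt.b, Lt.c, Lt.d, Lt.c, Lt.b, Lt.f, Lt.d, Lt.c, Lt.b] (hole_rel hinv hr (by decide +kernel)) h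
theorem dp_a_8_s (hinv : ∀ x, g (inv x) = (g x)⁻¹) (hr : ∀ r ∈ rels, (r.map g).prod = 1) (hH : ∀ r ∈ subs, (r.map g).prod ∈ H)
    (j u : ℕ) (hu : u < M) (h : dp_a_8 j u = true) : Good (fa g) T MG M (cP g H) Lt.a u := by
  unfold dp_a_8 at h
  rcases brec_true h with h | h
  · exact lH_good (T := T) (x := Lt.a) (by decide) [] [] (by rw [show cP g H 0 = _ from cc_zero]; exact sub_rel hinv (hH _ (by decide))) h
  · exact dp_a_7_s hinv hr hH j u hu h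
theorem dp_a_9_s (hinv : ∀ x, g (inv x) = (g x)⁻¹) (hr : ∀ r ∈ rels, (r.map g).prod = 1) (hH : ∀ r ∈ subs, (r.map g).prod ∈ H)
    (j u : ℕ) (hu : u < M) (h : dp_a_9 j u = true) : Good (fa g) T MG M (cP g H) Lt.a u := by
  unfold dp_a_9 at h
  rcases brec_true h with h | h
  · exact dp_a_6_s hinv hr hH j u hu h
  · exact dp_a_8_s hinv hr hH j u hu h
theorem dp_a_10_s (hinv : ∀ x, g (inv x) = (g x)⁻¹) (hr : ∀ r ∈ rels, (r.map g).prod = 1) (hH : ∀ r ∈ subs, (r.map g).prod ∈ H)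
    (j u : ℕ) (hu : u < M) (h : dp_a_10 j u = true) : Good (fa g) T MG M (cP g H) Lt.a u := by
  unfold dp_a_10 at h
  rcases brec_true h with h | h
  · exact lF_good (T := T) (x := Lt.a) (by decide) [Lt.c, Lt.d, Lt.c, Lt.d, Lt.c, Lt.d, Lt.c, Lt.d] (hole_rel hinv hr (by decide +kernel)) h
  · exact dp_a_9_s hinv hr hH j u hu h
theorem dp_a_11_s (hinv : ∀ x, g (inv x) = (g x)⁻¹) (hr : ∀ r ∈ rels, (r.map g).prod = 1) (hH : ∀ r ∈ subs, (r.map g).prod ∈ H)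
    (j u : ℕ) (hu : u < M) (h : dp_a_11 j u = true) : Good (fa g) T MG M (cP g H) Lt.a u := by
  unfold dp_a_11 at h
  rcases brec_true h with h | h
  · exact lF_good (T := T) (x := Lt.a) (by decide) [Lt.d, Lt.c, Lt.d, Lt.c, Lt.d, Lt.c, Lt.d, Lt.c] (hole_rel hinv hr (by decide +kernel)) h
  · exact dp_a_10_s hinv hr hH j u hu h
theorem dp_a_12_s (hinv : ∀ x, g (inv x) = (g x)⁻¹) (hr : ∀ r ∈ rels, (r.map g).prod = 1) (hH : ∀ r ∈ subs, (r.map g).prod ∈ H)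
    (j u : ℕ) (hu : u < M) (h : dp_a_12 j u = true) : Good (fa g) T MG M (cP g H) Lt.a u := by
  unfold dp_a_12 at h
  rcases brec_true h with h | h
  · exact dp_a_5_s hinv hr hH j u hu h
  · exact dp_a_11_s hinv hr hH j u hu h
theorem dp_a_13_s (hinv : ∀ x, g (inv x) = (g x)⁻¹) (hr : ∀ r ∈ rels, (r.map g).prod = 1) (hH : ∀ r ∈ subs, (r.map g).prod ∈ H)
    (j u : ℕ) (hu : u < M) (h : dp_a_13 j u = true) : Good (fa g) T MG M (cP g H) Lt.a u := by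
  unfold dp_a_13 at h
  rcases brec_true h with h | h
  · exact dp_a_4_s hinv hr hH j u hu h
  · exact dp_a_12_s hinv hr hH j u hu h
theorem dp_a_14_s (hinv : ∀ x, g (inv x) = (g x)⁻¹) (hr : ∀ r ∈ rels, (r.map g).prod = 1) (hH : ∀ r ∈ subs, (r.map g).prod ∈ H)
    (j u : ℕ) (hu : u < M) (h : dp_a_14 j u = true) : Good (fa g) T MG M (cP g H) Lt.a u := by
  unfold dp_a_14 at h
  rcases brec_true h with h | h
  · exact dp_a_3_s hinv hr hH j u hu h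
  · exact dp_a_13_s hinv hr hH j u hu h
theorem dp_a_15_s (hinv : ∀ x, g (inv x) = (g x)⁻¹) (hr : ∀ r ∈ rels, (r.map g).prod = 1) (hH : ∀ r ∈ subs, (r.map g).prod ∈ H)
    (j u : ℕ) (hu : u < M) (h : dp_a_15 j u = true) : Good (fa g) T MG M (cP g H) Lt.a u := by
  unfold dp_a_15 at h
  rcases brec_true h with h | h
  · exact dp_a_1_s hinv hr hH j u hu h
  · exact dp_a_14_s hinv hr hH j u hu h
theorem dp_a_16_s (hinv : ∀ x, g (inv x) = (g x)⁻¹) (hr : ∀ r ∈ rels, (r.map g).prod = 1) (hH : ∀ r ∈ subs, (r.map g).prod ∈ H)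
    (j u : ℕ) (hu : u < M) (h : dp_a_16 j u = true) : Good (fa g) T MG M (cP g H) Lt.a u := by
  unfold dp_a_16 at h
  rcases brec_true h with h | h
  · exact lS_good (T := T) (x := Lt.a) (by decide) hu [Lt.a] (hole_rel hinv hr (by decide +kernel)) h
  · exact dp_a_15_s hinv hr hH j u hu h
theorem dp_a_17_s (hinv : ∀ x, g (inv x) = (g x)⁻¹) (hr : ∀ r ∈ rels, (r.map g).prod = 1) (hH : ∀ r ∈ subs, (r.map g).prod ∈ H)
    (j u : ℕ) (hu : u < M) (h : dp_a_17 j u = true) : Good (fa g) T MG M (cP g H) Lt.a u := by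
  unfold dp_a_17 at h
  rcases brec_true h with h | h
  · exact lF3_good (T := T) (x := Lt.a) (by decide) .e .a .e (hole_rel hinv hr (by decide +kernel)) h
  · exact dp_a_16_s hinv hr hH j u hu h
theorem dp_a_18_s (hinv : ∀ x, g (inv x) = (g x)⁻¹) (hr : ∀ r ∈ rels, (r.map g).prod = 1) (hH : ∀ r ∈ subs, (r.map g).prod ∈ H)
    (j u : ℕ) (hu : u < M) (h : dp_a_18 j u = true) : Good (fa g) T MG M (cP g H) Lt.a u := by
  unfold dp_a_18 at h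
  rcases brec_true h with h | h
  · rcases brec_true h with h | h
    · exact lF3_good (T := T) (x := Lt.a) (by decide) .d .a .d (hole_rel hinv hr (by decide +kernel)) h
    · exact lF3_good (T := T) (x := Lt.a) (by decide) .c .a .c (hole_rel hinv hr (by decide +kernel)) h
  · exact dp_a_17_s hinv hr hH j u hu h
theorem snd_a (hinv : ∀ x, g (inv x) = (g x)⁻¹) (hr : ∀ r ∈ rels, (r.map g).prod = 1) (hH : ∀ r ∈ subs, (r.map g).prod ∈ H)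
    (j u : ℕ) (hu : u < M) (h : disp_a j u = true) : Good (fa g) T MG M (cP g H) Lt.a u := by
  unfold disp_a at h
  rcases brec_true h with h | h
  · rcases brec_true h with h | h
    · exact lF1_good (T := T) (x := Lt.a) (by decide) .a (hole_rel hinv hr (by decide +kernel)) h
    · exact lDef_good (T := T) (x := Lt.a) (by decide) rfl h
  · rcases brec_true h with h | h
    · rcases brec_true h with h | h
      · exact lPar_good (T := T) (x := Lt.a) (x' := Lt.a) (by decide) rfl (inv_rel hinv _ _ rfl) h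
      · exact lF3_good (T := T) (x := Lt.a) (by decide) .f .a .f (hole_rel hinv hr (by decide +kernel)) h
    · exact dp_a_18_s hinv hr hH j u hu h
theorem snc_a (hinv : ∀ x, g (inv x) = (g x)⁻¹) (hr : ∀ r ∈ rels, (r.map g).prod = 1) (hH : ∀ r ∈ subs, (r.map g).prod ∈ H)
    (j u : ℕ) (hu : u < M) (h : chk_a j u = true) : (T Lt.a u < A ∧ Good (fa g) T MG M (cP g H) Lt.a u) ∨ (A ≤ T Lt.a u ∧ MG u < A) := by
  unfold chk_a at h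
  cases hb : Nat.ble A (T_a u) with
  | true => rw [hb] at h; exact Or.inr ⟨le_of_ble hb, le_of_ble h⟩
  | false => rw [hb] at h; exact Or.inl ⟨lt_of_ble_false hb, snd_a hinv hr hH j u hu h⟩
theorem dp_b_0_s (hinv : ∀ x, g (inv x) = (g x)⁻¹) (hr : ∀ r ∈ rels, (r.map g).prod = 1) (hH : ∀ r ∈ subs, (r.map g).prod ∈ H)
    (j u : ℕ) (hu : u < M) (h : dp_b_0 j u = true) : Good (fa g) T MG M (cP g H) Lt.b u := by
  unfold dp_b_0 at h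
  rcases brec_true h with h | h
  · exact lF_good (T := T) (x := Lt.b) (by decide) [Lt.c, Lt.b, Lt.c, Lt.b, Lt.c] (hole_rel hinv hr (by decide +kernel)) h
  · exact lS_good (T := T) (x := Lt.b) (by decide) hu [Lt.d, Lt.b, Lt.d] (hole_rel hinv hr (by decide +kernel)) h
theorem dp_b_1_s (hinv : ∀ x, g (inv x) = (g x)⁻¹) (hr : ∀ r ∈ rels, (r.map g).prod = 1) (hH : ∀ r ∈ subs, (r.map g).prod ∈ H)
    (j u : ℕ) (hu : u < M) (h : dp_b_1 j u = true) : Good (fa g) T MG M (cP g H) Lt.b u := by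
  unfold dp_b_1 at h
  rcases brec_true h with h | h
  · exact lS_good (T := T) (x := Lt.b) (by decide) hu [Lt.v, Lt.f, Lt.b, Lt.c, Lt.d, Lt.c, Lt.b, Lt.f, Lt.b, Lt.f, Lt.b, Lt.c, Lt.d, Lt.c, Lt.b, Lt.f, Lt.v] (hole_rel hinv hr (by decide +kernel)) h
  · exact dp_b_0_s hinv hr hH j u hu h
theorem dp_b_2_s (hinv : ∀ x, g (inv x) = (g x)⁻¹) (hr : ∀ r ∈ rels, (r.map g).prod = 1) (hH : ∀ r ∈ subs, (r.map g).prod ∈ H)
    (j u : ℕ) (hu : u < M) (h : dp_b_2 j u = true) : Good (fa g) T MG M (cP g H) Lt.b u := by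
  unfold dp_b_2 at h
  rcases brec_true h with h | h
  · exact lS_good (T := T) (x := Lt.b) (by decide) hu [Lt.e, Lt.b, Lt.e] (hole_rel hinv hr (by decide +kernel)) h
  · exact lS_good (T := T) (x := Lt.b) (by decide) hu [Lt.c, Lt.b, Lt.c, Lt.b, Lt.c] (hole_rel hinv hr (by decide +kernel)) h
theorem dp_b_3_s (hinv : ∀ x, g (inv x) = (g x)⁻¹) (hr : ∀ r ∈ rels, (r.map g).prod = 1) (hH : ∀ r ∈ subs, (r.map g).prod ∈ H)
    (j u : ℕ) (hu : u < M) (h : dp_b_3 j u = true) : Good (fa g) T MG M (cP g H) Lt.b u := by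
  unfold dp_b_3 at h
  rcases brec_true h with h | h
  · exact lF_good (T := T) (x := Lt.b) (by decide) [Lt.f, Lt.b, Lt.f, Lt.b, Lt.f] (hole_rel hinv hr (by decide +kernel)) h
  · exact lS_good (T := T) (x := Lt.b) (by decide) hu [Lt.a, Lt.b, Lt.a, Lt.b, Lt.a, Lt.b, Lt.a, Lt.b, Lt.a] (hole_rel hinv hr (by decide +kernel)) h
theorem dp_b_4_s (hinv : ∀ x, g (inv x) = (g x)⁻¹) (hr : ∀ r ∈ rels, (r.map g).prod = 1) (hH : ∀ r ∈ subs, (r.map g).prod ∈ H)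
    (j u : ℕ) (hu : u < M) (h : dp_b_4 j u = true) : Good (fa g) T MG M (cP g H) Lt.b u := by
  unfold dp_b_4 at h
  rcases brec_true h with h | h
  · exact lF_good (T := T) (x := Lt.b) (by decide) [Lt.v, Lt.f, Lt.b, Lt.c, Lt.d, Lt.c, Lt.b, Lt.f, Lt.b, Lt.f, Lt.b, Lt.c, Lt.d, Lt.c, Lt.b, Lt.f, Lt.v] (hole_rel hinv hr (by decide +kernel)) h
  · exact dp_b_3_s hinv hr hH j u hu h
theorem dp_b_5_s (hinv : ∀ x, g (inv x) = (g x)⁻¹) (hr : ∀ r ∈ rels, (r.map g).prod = 1) (hH : ∀ r ∈ subs, (r.map g).prod ∈ H)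
    (j u : ℕ) (hu : u < M) (h : dp_b_5 j u = true) : Good (fa g) T MG M (cP g H) Lt.b u := by
  unfold dp_b_5 at h
  rcases brec_true h with h | h
  · exact lF_good (T := T) (x := Lt.b) (by decide) [Lt.a, Lt.b, Lt.a, Lt.b, Lt.a, Lt.b, Lt.a, Lt.b, Lt.a] (hole_rel hinv hr (by decide +kernel)) h
  · exact lS_good (T := T) (x := Lt.b) (by decide) hu [Lt.c, Lt.d, Lt.v, Lt.f, Lt.b, Lt.c, Lt.d, Lt.c, Lt.b, Lt.f, Lt.d, Lt.c, Lt.b, Lt.a, Lt.f, Lt.b, Lt.c, Lt.d, Lt.c, Lt.b, Lt.f, Lt.v, Lt.a] (hole_rel hinv hr (by decide +kernel)) h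
theorem dp_b_6_s (hinv : ∀ x, g (inv x) = (g x)⁻¹) (hr : ∀ r ∈ rels, (r.map g).prod = 1) (hH : ∀ r ∈ subs, (r.map g).prod ∈ H)
    (j u : ℕ) (hu : u < M) (h : dp_b_6 j u = true) : Good (fa g) T MG M (cP g H) Lt.b u := by
  unfold dp_b_6 at h
  rcases brec_true h with h | h
  · exact lS_good (T := T) (x := Lt.b) (by decide) hu [Lt.a, Lt.v, Lt.f, Lt.b, Lt.c, Lt.d, Lt.c, Lt.b, Lt.f, Lt.a, Lt.b, Lt.c, Lt.d, Lt.f, Lt.b, Lt.c, Lt.d, Lt.c, Lt.b, Lt.f, Lt.v, Lt.d, Lt.c] (hole_rel hinv hr (by decide +kernel)) h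
  · exact dp_b_5_s hinv hr hH j u hu h
theorem dp_b_7_s (hinv : ∀ x, g (inv x) = (g x)⁻¹) (hr : ∀ r ∈ rels, (r.map g).prod = 1) (hH : ∀ r ∈ subs, (r.map g).prod ∈ H)
    (j u : ℕ) (hu : u < M) (h : dp_b_7 j u = true) : Good (fa g) T MG M (cP g H) Lt.b u := by
  unfold dp_b_7 at h
  rcases brec_true h with h | h
  · exact lS_good (T := T) (x := Lt.b) (by decide) hu [Lt.f, Lt.v, Lt.d, Lt.c, Lt.b, Lt.a, Lt.v, Lt.f, Lt.b, Lt.c, Lt.d, Lt.c, Lt.b, Lt.f, Lt.a, Lt.b, Lt.c, Lt.d, Lt.f, Lt.b, Lt.c, Lt.d, Lt.c] (hole_rel hinv hr (by decide +kernel)) h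
  · exact lS_good (T := T) (x := Lt.b) (by decide) hu [Lt.f, Lt.v, Lt.b, Lt.v, Lt.f, Lt.b, Lt.c, Lt.d, Lt.c, Lt.b, Lt.f, Lt.b, Lt.f, Lt.b, Lt.c, Lt.d, Lt.c] (hole_rel hinv hr (by decide +kernel)) h
theorem dp_b_8_s (hinv : ∀ x, g (inv x) = (g x)⁻¹) (hr : ∀ r ∈ rels, (r.map g).prod = 1) (hH : ∀ r ∈ subs, (r.map g).prod ∈ H)
    (j u : ℕ) (hu : u < M) (h : dp_b_8 j u = true) : Good (fa g) T MG M (cP g H) Lt.b u := by
  unfold dp_b_8 at h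
  rcases brec_true h with h | h
  · exact lS_good (T := T) (x := Lt.b) (by decide) hu [Lt.f, Lt.b, Lt.f, Lt.b, Lt.f] (hole_rel hinv hr (by decide +kernel)) h
  · exact dp_b_7_s hinv hr hH j u hu h
theorem dp_b_9_s (hinv : ∀ x, g (inv x) = (g x)⁻¹) (hr : ∀ r ∈ rels, (r.map g).prod = 1) (hH : ∀ r ∈ subs, (r.map g).prod ∈ H)
    (j u : ℕ) (hu : u < M) (h : dp_b_9 j u = true) : Good (fa g) T MG M (cP g H) Lt.b u := by
  unfold dp_b_9 at h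
  rcases brec_true h with h | h
  · exact lS_good (T := T) (x := Lt.b) (by decide) hu [Lt.c, Lt.d, Lt.c, Lt.b, Lt.f, Lt.b, Lt.f, Lt.b, Lt.c, Lt.d, Lt.c, Lt.b, Lt.f, Lt.v, Lt.b, Lt.v, Lt.f] (hole_rel hinv hr (by decide +kernel)) h
  · exact lS_good (T := T) (x := Lt.b) (by decide) hu [Lt.c, Lt.f, Lt.a, Lt.b, Lt.c, Lt.f, Lt.a, Lt.b, Lt.c, Lt.f, Lt.a, Lt.b, Lt.c, Lt.f, Lt.a, Lt.b, Lt.c, Lt.f, Lt.a] (hole_rel hinv hr (by decide +kernel)) h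
theorem dp_b_10_s (hinv : ∀ x, g (inv x) = (g x)⁻¹) (hr : ∀ r ∈ rels, (r.map g).prod = 1) (hH : ∀ r ∈ subs, (r.map g).prod ∈ H)
    (j u : ℕ) (hu : u < M) (h : dp_b_10 j u = true) : Good (fa g) T MG M (cP g H) Lt.b u := by
  unfold dp_b_10 at h
  rcases brec_true h with h | h
  · exact lS_good (T := T) (x := Lt.b) (by decide) hu [Lt.f, Lt.b, Lt.c, Lt.d, Lt.c, Lt.b, Lt.f, Lt.v, Lt.b, Lt.v, Lt.f, Lt.b, Lt.c, Lt.d, Lt.c, Lt.b, Lt.f] (hole_rel hinv hr (by decide +kernel)) h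
  · exact lS_good (T := T) (x := Lt.b) (by decide) hu [Lt.f, Lt.v, Lt.c, Lt.v, Lt.f, Lt.b, Lt.c, Lt.d, Lt.c, Lt.b, Lt.f, Lt.c, Lt.f, Lt.b, Lt.c, Lt.d, Lt.c] (hole_rel hinv hr (by decide +kernel)) h
theorem dp_b_11_s (hinv : ∀ x, g (inv x) = (g x)⁻¹) (hr : ∀ r ∈ rels, (r.map g).prod = 1) (hH : ∀ r ∈ subs, (r.map g).prod ∈ H)
    (j u : ℕ) (hu : u < M) (h : dp_b_11 j u = true) : Good (fa g) T MG M (cP g H) Lt.b u := by
  unfold dp_b_11 at h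
  rcases brec_true h with h | h
  · exact dp_b_9_s hinv hr hH j u hu h
  · exact dp_b_10_s hinv hr hH j u hu h
theorem dp_b_12_s (hinv : ∀ x, g (inv x) = (g x)⁻¹) (hr : ∀ r ∈ rels, (r.map g).prod = 1) (hH : ∀ r ∈ subs, (r.map g).prod ∈ H)
    (j u : ℕ) (hu : u < M) (h : dp_b_12 j u = true) : Good (fa g) T MG M (cP g H) Lt.b u := by
  unfold dp_b_12 at h
  rcases brec_true h with h | h
  · exact lS_good (T := T) (x := Lt.b) (by decide) hu [Lt.f, Lt.v, Lt.a, Lt.b, Lt.c, Lt.d, Lt.v, Lt.f, Lt.b, Lt.c, Lt.d, Lt.c, Lt.b, Lt.f, Lt.d, Lt.c, Lt.b, Lt.a, Lt.f, Lt.b, Lt.c, Lt.d, Lt.c] (hole_rel hinv hr (by decide +kernel)) h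
  · exact lS_good (T := T) (x := Lt.b) (by decide) hu [Lt.c, Lt.d, Lt.c, Lt.b, Lt.f, Lt.d, Lt.c, Lt.b, Lt.a, Lt.f, Lt.b, Lt.c, Lt.d, Lt.c, Lt.b, Lt.f, Lt.v, Lt.a, Lt.b, Lt.c, Lt.d, Lt.v, Lt.f] (hole_rel hinv hr (by decide +kernel)) h
theorem dp_b_13_s (hinv : ∀ x, g (inv x) = (g x)⁻¹) (hr : ∀ r ∈ rels, (r.map g).prod = 1) (hH : ∀ r ∈ subs, (r.map g).prod ∈ H)
    (j u : ℕ) (hu : u < M) (h : dp_b_13 j u = true) : Good (fa g) T MG M (cP g H) Lt.b u := by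
  unfold dp_b_13 at h
  rcases brec_true h with h | h
  · exact lS_good (T := T) (x := Lt.b) (by decide) hu [Lt.c, Lt.d, Lt.c, Lt.b, Lt.f, Lt.c, Lt.f, Lt.b, Lt.c, Lt.d, Lt.c, Lt.b, Lt.f, Lt.v, Lt.c, Lt.v, Lt.f] (hole_rel hinv hr (by decide +kernel)) h
  · exact dp_b_12_s hinv hr hH j u hu h
theorem dp_b_14_s (hinv : ∀ x, g (inv x) = (g x)⁻¹) (hr : ∀ r ∈ rels, (r.map g).prod = 1) (hH : ∀ r ∈ subs, (r.map g).prod ∈ H)
    (j u : ℕ) (hu : u < M) (h : dp_b_14 j u = true) : Good (fa g) T MG M (cP g H) Lt.b u := by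
  unfold dp_b_14 at h
  rcases brec_true h with h | h
  · exact lH_good (T := T) (x := Lt.b) (by decide) [] [] (by rw [show cP g H 0 = _ from cc_zero]; exact sub_rel hinv (hH _ (by decide))) h
  · exact lF_good (T := T) (x := Lt.b) (by decide) [Lt.f, Lt.b, Lt.c, Lt.d, Lt.c, Lt.b, Lt.f, Lt.v, Lt.b, Lt.v, Lt.f, Lt.b, Lt.c, Lt.d, Lt.c, Lt.b, Lt.f] (hole_rel hinv hr (by decide +kernel)) h
theorem dp_b_15_s (hinv : ∀ x, g (inv x) = (g x)⁻¹) (hr : ∀ r ∈ rels, (r.map g).prod = 1) (hH : ∀ r ∈ subs, (r.map g).prod ∈ H)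
    (j u : ℕ) (hu : u < M) (h : dp_b_15 j u = true) : Good (fa g) T MG M (cP g H) Lt.b u := by
  unfold dp_b_15 at h
  rcases brec_true h with h | h
  · exact lS_good (T := T) (x := Lt.b) (by decide) hu [Lt.c, Lt.d, Lt.c, Lt.b, Lt.f, Lt.e, Lt.f, Lt.b, Lt.c, Lt.d, Lt.c, Lt.b, Lt.f, Lt.v, Lt.e, Lt.f, Lt.b, Lt.c, Lt.d, Lt.c, Lt.b, Lt.e, Lt.f, Lt.v, Lt.f] (hole_rel hinv hr (by decide +kernel)) h
  · exact lS_good (T := T) (x := Lt.b) (by decide) hu [Lt.f, Lt.v, Lt.f, Lt.b, Lt.c, Lt.d, Lt.c, Lt.b, Lt.f, Lt.v, Lt.f, Lt.b, Lt.c, Lt.d, Lt.c, Lt.b, Lt.f, Lt.v, Lt.f, Lt.b, Lt.c, Lt.d, Lt.c] (hole_rel hinv hr (by decide +kernel)) h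
theorem dp_b_16_s (hinv : ∀ x, g (inv x) = (g x)⁻¹) (hr : ∀ r ∈ rels, (r.map g).prod = 1) (hH : ∀ r ∈ subs, (r.map g).prod ∈ H)
    (j u : ℕ) (hu : u < M) (h : dp_b_16 j u = true) : Good (fa g) T MG M (cP g H) Lt.b u := by
  unfold dp_b_16 at h
  rcases brec_true h with h | h
  · exact dp_b_14_s hinv hr hH j u hu h
  · exact dp_b_15_s hinv hr hH j u hu h
theorem dp_b_17_s (hinv : ∀ x, g (inv x) = (g x)⁻¹) (hr : ∀ r ∈ rels, (r.map g).prod = 1) (hH : ∀ r ∈ subs, (r.map g).prod ∈ H)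
    (j u : ℕ) (hu : u < M) (h : dp_b_17 j u = true) : Good (fa g) T MG M (cP g H) Lt.b u := by
  unfold dp_b_17 at h
  rcases brec_true h with h | h
  · exact lF_good (T := T) (x := Lt.b) (by decide) [Lt.f, Lt.e, Lt.v, Lt.f, Lt.b, Lt.c, Lt.d, Lt.c, Lt.b, Lt.f, Lt.e, Lt.f, Lt.b, Lt.c, Lt.d, Lt.c, Lt.b, Lt.f, Lt.v, Lt.f, Lt.e, Lt.b, Lt.c, Lt.d, Lt.c] (hole_rel hinv hr (by decide +kernel)) h
  · exact lF_good (T := T) (x := Lt.b) (by decide) [Lt.c, Lt.d, Lt.c, Lt.b, Lt.f, Lt.e, Lt.v, Lt.f, Lt.b, Lt.c, Lt.d, Lt.c, Lt.b, Lt.f, Lt.e, Lt.f, Lt.b, Lt.c, Lt.d, Lt.c, Lt.b, Lt.f, Lt.v, Lt.f, Lt.e] (hole_rel hinv hr (by decide +kernel)) h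
theorem dp_b_18_s (hinv : ∀ x, g (inv x) = (g x)⁻¹) (hr : ∀ r ∈ rels, (r.map g).prod = 1) (hH : ∀ r ∈ subs, (r.map g).prod ∈ H)
    (j u : ℕ) (hu : u < M) (h : dp_b_18 j u = true) : Good (fa g) T MG M (cP g H) Lt.b u := by
  unfold dp_b_18 at h
  rcases brec_true h with h | h
  · exact lS_good (T := T) (x := Lt.b) (by decide) hu [Lt.a, Lt.f, Lt.c, Lt.b, Lt.a, Lt.f, Lt.c, Lt.b, Lt.a, Lt.f, Lt.c, Lt.b, Lt.a, Lt.f, Lt.c, Lt.b, Lt.a, Lt.f, Lt.c] (hole_rel hinv hr (by decide +kernel)) h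
  · exact lF_good (T := T) (x := Lt.b) (by decide) [Lt.c, Lt.d, Lt.c, Lt.b, Lt.f, Lt.b, Lt.f, Lt.b, Lt.c, Lt.d, Lt.c, Lt.b, Lt.f, Lt.v, Lt.b, Lt.v, Lt.f] (hole_rel hinv hr (by decide +kernel)) h
theorem dp_b_19_s (hinv : ∀ x, g (inv x) = (g x)⁻¹) (hr : ∀ r ∈ rels, (r.map g).prod = 1) (hH : ∀ r ∈ subs, (r.map g).prod ∈ H)
    (j u : ℕ) (hu : u < M) (h : dp_b_19 j u = true) : Good (fa g) T MG M (cP g H) Lt.b u := by
  unfold dp_b_19 at h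
  rcases brec_true h with h | h
  · exact dp_b_17_s hinv hr hH j u hu h
  · exact dp_b_18_s hinv hr hH j u hu h
theorem dp_b_20_s (hinv : ∀ x, g (inv x) = (g x)⁻¹) (hr : ∀ r ∈ rels, (r.map g).prod = 1) (hH : ∀ r ∈ subs, (r.map g).prod ∈ H)
    (j u : ℕ) (hu : u < M) (h : dp_b_20 j u = true) : Good (fa g) T MG M (cP g H) Lt.b u := by
  unfold dp_b_20 at h
  rcases brec_true h with h | h
  · exact dp_b_16_s hinv hr hH j u hu h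
  · exact dp_b_19_s hinv hr hH j u hu h
theorem dp_b_21_s (hinv : ∀ x, g (inv x) = (g x)⁻¹) (hr : ∀ r ∈ rels, (r.map g).prod = 1) (hH : ∀ r ∈ subs, (r.map g).prod ∈ H)
    (j u : ℕ) (hu : u < M) (h : dp_b_21 j u = true) : Good (fa g) T MG M (cP g H) Lt.b u := by
  unfold dp_b_21 at h
  rcases brec_true h with h | h
  · exact dp_b_13_s hinv hr hH j u hu h
  · exact dp_b_20_s hinv hr hH j u hu h
theorem dp_b_22_s (hinv : ∀ x, g (inv x) = (g x)⁻¹) (hr : ∀ r ∈ rels, (r.map g).prod = 1) (hH : ∀ r ∈ subs, (r.map g).prod ∈ H)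
    (j u : ℕ) (hu : u < M) (h : dp_b_22 j u = true) : Good (fa g) T MG M (cP g H) Lt.b u := by
  unfold dp_b_22 at h
  rcases brec_true h with h | h
  · exact dp_b_11_s hinv hr hH j u hu h
  · exact dp_b_21_s hinv hr hH j u hu h
theorem dp_b_23_s (hinv : ∀ x, g (inv x) = (g x)⁻¹) (hr : ∀ r ∈ rels, (r.map g).prod = 1) (hH : ∀ r ∈ subs, (r.map g).prod ∈ H)
    (j u : ℕ) (hu : u < M) (h : dp_b_23 j u = true) : Good (fa g) T MG M (cP g H) Lt.b u := by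
  unfold dp_b_23 at h
  rcases brec_true h with h | h
  · exact dp_b_8_s hinv hr hH j u hu h
  · exact dp_b_22_s hinv hr hH j u hu h
theorem dp_b_24_s (hinv : ∀ x, g (inv x) = (g x)⁻¹) (hr : ∀ r ∈ rels, (r.map g).prod = 1) (hH : ∀ r ∈ subs, (r.map g).prod ∈ H)
    (j u : ℕ) (hu : u < M) (h : dp_b_24 j u = true) : Good (fa g) T MG M (cP g H) Lt.b u := by
  unfold dp_b_24 at h
  rcases brec_true h with h | h
  · exact dp_b_6_s hinv hr hH j u hu h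
  · exact dp_b_23_s hinv hr hH j u hu h
theorem dp_b_25_s (hinv : ∀ x, g (inv x) = (g x)⁻¹) (hr : ∀ r ∈ rels, (r.map g).prod = 1) (hH : ∀ r ∈ subs, (r.map g).prod ∈ H)
    (j u : ℕ) (hu : u < M) (h : dp_b_25 j u = true) : Good (fa g) T MG M (cP g H) Lt.b u := by
  unfold dp_b_25 at h
  rcases brec_true h with h | h
  · exact dp_b_4_s hinv hr hH j u hu h
  · exact dp_b_24_s hinv hr hH j u hu h
theorem dp_b_26_s (hinv : ∀ x, g (inv x) = (g x)⁻¹) (hr : ∀ r ∈ rels, (r.map g).prod = 1) (hH : ∀ r ∈ subs, (r.map g).prod ∈ H)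
    (j u : ℕ) (hu : u < M) (h : dp_b_26 j u = true) : Good (fa g) T MG M (cP g H) Lt.b u := by
  unfold dp_b_26 at h
  rcases brec_true h with h | h
  · exact dp_b_2_s hinv hr hH j u hu h
  · exact dp_b_25_s hinv hr hH j u hu h
theorem dp_b_27_s (hinv : ∀ x, g (inv x) = (g x)⁻¹) (hr : ∀ r ∈ rels, (r.map g).prod = 1) (hH : ∀ r ∈ subs, (r.map g).prod ∈ H)
    (j u : ℕ) (hu : u < M) (h : dp_b_27 j u = true) : Good (fa g) T MG M (cP g H) Lt.b u := by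
  unfold dp_b_27 at h
  rcases brec_true h with h | h
  · exact dp_b_1_s hinv hr hH j u hu h
  · exact dp_b_26_s hinv hr hH j u hu h
theorem dp_b_28_s (hinv : ∀ x, g (inv x) = (g x)⁻¹) (hr : ∀ r ∈ rels, (r.map g).prod = 1) (hH : ∀ r ∈ subs, (r.map g).prod ∈ H)
    (j u : ℕ) (hu : u < M) (h : dp_b_28 j u = true) : Good (fa g) T MG M (cP g H) Lt.b u := by
  unfold dp_b_28 at h
  rcases brec_true h with h | h
  · rcases brec_true h with h | h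
    · exact lS_good (T := T) (x := Lt.b) (by decide) hu [Lt.b] (hole_rel hinv hr (by decide +kernel)) h
    · exact lF3_good (T := T) (x := Lt.b) (by decide) .e .b .e (hole_rel hinv hr (by decide +kernel)) h
  · exact dp_b_27_s hinv hr hH j u hu h
theorem dp_b_29_s (hinv : ∀ x, g (inv x) = (g x)⁻¹) (hr : ∀ r ∈ rels, (r.map g).prod = 1) (hH : ∀ r ∈ subs, (r.map g).prod ∈ H)
    (j u : ℕ) (hu : u < M) (h : dp_b_29 j u = true) : Good (fa g) T MG M (cP g H) Lt.b u := by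
  unfold dp_b_29 at h
  rcases brec_true h with h | h
  · rcases brec_true h with h | h
    · exact lF1_good (T := T) (x := Lt.b) (by decide) .b (hole_rel hinv hr (by decide +kernel)) h
    · exact lF3_good (T := T) (x := Lt.b) (by decide) .d .b .d (hole_rel hinv hr (by decide +kernel)) h
  · exact dp_b_28_s hinv hr hH j u hu h
theorem snd_b (hinv : ∀ x, g (inv x) = (g x)⁻¹) (hr : ∀ r ∈ rels, (r.map g).prod = 1) (hH : ∀ r ∈ subs, (r.map g).prod ∈ H)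
    (j u : ℕ) (hu : u < M) (h : disp_b j u = true) : Good (fa g) T MG M (cP g H) Lt.b u := by
  unfold disp_b at h
  rcases brec_true h with h | h
  · rcases brec_true h with h | h
    · exact lDef_good (T := T) (x := Lt.b) (by decide) rfl h
    · exact lPar_good (T := T) (x := Lt.b) (x' := Lt.b) (by decide) rfl (inv_rel hinv _ _ rfl) h
  · exact dp_b_29_s hinv hr hH j u hu h
theorem snc_b (hinv : ∀ x, g (inv x) = (g x)⁻¹) (hr : ∀ r ∈ rels, (r.map g).prod = 1) (hH : ∀ r ∈ subs, (r.map g).prod ∈ H)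
    (j u : ℕ) (hu : u < M) (h : chk_b j u = true) : (T Lt.b u < A ∧ Good (fa g) T MG M (cP g H) Lt.b u) ∨ (A ≤ T Lt.b u ∧ MG u < A) := by
  unfold chk_b at h
  cases hb : Nat.ble A (T_b u) with
  | true => rw [hb] at h; exact Or.inr ⟨le_of_ble hb, le_of_ble h⟩
  | false => rw [hb] at h; exact Or.inl ⟨lt_of_ble_false hb, snd_b hinv hr hH j u hu h⟩
theorem dp_c_0_s (hinv : ∀ x, g (inv x) = (g x)⁻¹) (hr : ∀ r ∈ rels, (r.map g).prod = 1) (hH : ∀ r ∈ subs, (r.map g).prod ∈ H)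
    (j u : ℕ) (hu : u < M) (h : dp_c_0 j u = true) : Good (fa g) T MG M (cP g H) Lt.c u := by
  unfold dp_c_0 at h
  rcases brec_true h with h | h
  · exact lF_good (T := T) (x := Lt.c) (by decide) [Lt.b, Lt.c, Lt.b, Lt.c, Lt.b] (hole_rel hinv hr (by decide +kernel)) h
  · exact lF3_good (T := T) (x := Lt.c) (by decide) .a .c .a (hole_rel hinv hr (by decide +kernel)) h
theorem dp_c_1_s (hinv : ∀ x, g (inv x) = (g x)⁻¹) (hr : ∀ r ∈ rels, (r.map g).prod = 1) (hH : ∀ r ∈ subs, (r.map g).prod ∈ H)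
    (j u : ℕ) (hu : u < M) (h : dp_c_1 j u = true) : Good (fa g) T MG M (cP g H) Lt.c u := by
  unfold dp_c_1 at h
  rcases brec_true h with h | h
  · exact lS_good (T := T) (x := Lt.c) (by decide) hu [Lt.v, Lt.f, Lt.b, Lt.c, Lt.d, Lt.c, Lt.b, Lt.f, Lt.c, Lt.f, Lt.b, Lt.c, Lt.d, Lt.c, Lt.b, Lt.f, Lt.v] (hole_rel hinv hr (by decide +kernel)) h
  · exact dp_c_0_s hinv hr hH j u hu h
theorem dp_c_2_s (hinv : ∀ x, g (inv x) = (g x)⁻¹) (hr : ∀ r ∈ rels, (r.map g).prod = 1) (hH : ∀ r ∈ subs, (r.map g).prod ∈ H)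
    (j u : ℕ) (hu : u < M) (h : dp_c_2 j u = true) : Good (fa g) T MG M (cP g H) Lt.c u := by
  unfold dp_c_2 at h
  rcases brec_true h with h | h
  · exact lS_good (T := T) (x := Lt.c) (by decide) hu [Lt.e, Lt.c, Lt.e] (hole_rel hinv hr (by decide +kernel)) h
  · exact lS_good (T := T) (x := Lt.c) (by decide) hu [Lt.a, Lt.c, Lt.a] (hole_rel hinv hr (by decide +kernel)) h
theorem dp_c_3_s (hinv : ∀ x, g (inv x) = (g x)⁻¹) (hr : ∀ r ∈ rels, (r.map g).prod = 1) (hH : ∀ r ∈ subs, (r.map g).prod ∈ H)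
    (j u : ℕ) (hu : u < M) (h : dp_c_3 j u = true) : Good (fa g) T MG M (cP g H) Lt.c u := by
  unfold dp_c_3 at h
  rcases brec_true h with h | h
  · exact lS_good (T := T) (x := Lt.c) (by decide) hu [Lt.f, Lt.c, Lt.f] (hole_rel hinv hr (by decide +kernel)) h
  · exact dp_c_2_s hinv hr hH j u hu h
theorem dp_c_4_s (hinv : ∀ x, g (inv x) = (g x)⁻¹) (hr : ∀ r ∈ rels, (r.map g).prod = 1) (hH : ∀ r ∈ subs, (r.map g).prod ∈ H)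
    (j u : ℕ) (hu : u < M) (h : dp_c_4 j u = true) : Good (fa g) T MG M (cP g H) Lt.c u := by
  unfold dp_c_4 at h
  rcases brec_true h with h | h
  · exact lF_good (T := T) (x := Lt.c) (by decide) [Lt.v, Lt.f, Lt.b, Lt.c, Lt.d, Lt.c, Lt.b, Lt.f, Lt.c, Lt.f, Lt.b, Lt.c, Lt.d, Lt.c, Lt.b, Lt.f, Lt.v] (hole_rel hinv hr (by decide +kernel)) h
  · exact lF_good (T := T) (x := Lt.c) (by decide) [Lt.d, Lt.c, Lt.d, Lt.c, Lt.a, Lt.d, Lt.c, Lt.d] (hole_rel hinv hr (by decide +kernel)) h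
theorem dp_c_5_s (hinv : ∀ x, g (inv x) = (g x)⁻¹) (hr : ∀ r ∈ rels, (r.map g).prod = 1) (hH : ∀ r ∈ subs, (r.map g).prod ∈ H)
    (j u : ℕ) (hu : u < M) (h : dp_c_5 j u = true) : Good (fa g) T MG M (cP g H) Lt.c u := by
  unfold dp_c_5 at h
  rcases brec_true h with h | h
  · exact lS_good (T := T) (x := Lt.c) (by decide) hu [Lt.b, Lt.c, Lt.b, Lt.c, Lt.b] (hole_rel hinv hr (by decide +kernel)) h
  · exact dp_c_4_s hinv hr hH j u hu h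
theorem dp_c_6_s (hinv : ∀ x, g (inv x) = (g x)⁻¹) (hr : ∀ r ∈ rels, (r.map g).prod = 1) (hH : ∀ r ∈ subs, (r.map g).prod ∈ H)
    (j u : ℕ) (hu : u < M) (h : dp_c_6 j u = true) : Good (fa g) T MG M (cP g H) Lt.c u := by
  unfold dp_c_6 at h
  rcases brec_true h with h | h
  · exact lS_good (T := T) (x := Lt.c) (by decide) hu [Lt.d, Lt.v, Lt.f, Lt.b, Lt.c, Lt.d, Lt.c, Lt.b, Lt.f, Lt.d, Lt.c, Lt.b, Lt.a, Lt.f, Lt.b, Lt.c, Lt.d, Lt.c, Lt.b, Lt.f, Lt.v, Lt.a, Lt.b] (hole_rel hinv hr (by decide +kernel)) h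
  · exact lS_good (T := T) (x := Lt.c) (by decide) hu [Lt.b, Lt.a, Lt.v, Lt.f, Lt.b, Lt.c, Lt.d, Lt.c, Lt.b, Lt.f, Lt.a, Lt.b, Lt.c, Lt.d, Lt.f, Lt.b, Lt.c, Lt.d, Lt.c, Lt.b, Lt.f, Lt.v, Lt.d] (hole_rel hinv hr (by decide +kernel)) h
theorem dp_c_7_s (hinv : ∀ x, g (inv x) = (g x)⁻¹) (hr : ∀ r ∈ rels, (r.map g).prod = 1) (hH : ∀ r ∈ subs, (r.map g).prod ∈ H)
    (j u : ℕ) (hu : u < M) (h : dp_c_7 j u = true) : Good (fa g) T MG M (cP g H) Lt.c u := by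
  unfold dp_c_7 at h
  rcases brec_true h with h | h
  · exact lS_good (T := T) (x := Lt.c) (by decide) hu [Lt.d, Lt.c, Lt.d, Lt.c, Lt.d, Lt.c, Lt.a, Lt.d] (hole_rel hinv hr (by decide +kernel)) h
  · exact lS_good (T := T) (x := Lt.c) (by decide) hu [Lt.d, Lt.c, Lt.a, Lt.d, Lt.c, Lt.d, Lt.c, Lt.d] (hole_rel hinv hr (by decide +kernel)) h
theorem dp_c_8_s (hinv : ∀ x, g (inv x) = (g x)⁻¹) (hr : ∀ r ∈ rels, (r.map g).prod = 1) (hH : ∀ r ∈ subs, (r.map g).prod ∈ H)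
    (j u : ℕ) (hu : u < M) (h : dp_c_8 j u = true) : Good (fa g) T MG M (cP g H) Lt.c u := by
  unfold dp_c_8 at h
  rcases brec_true h with h | h
  · exact dp_c_6_s hinv hr hH j u hu h
  · exact dp_c_7_s hinv hr hH j u hu h
theorem dp_c_9_s (hinv : ∀ x, g (inv x) = (g x)⁻¹) (hr : ∀ r ∈ rels, (r.map g).prod = 1) (hH : ∀ r ∈ subs, (r.map g).prod ∈ H)
    (j u : ℕ) (hu : u < M) (h : dp_c_9 j u = true) : Good (fa g) T MG M (cP g H) Lt.c u := by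
  unfold dp_c_9 at h
  rcases brec_true h with h | h
  · exact lF_good (T := T) (x := Lt.c) (by decide) [Lt.d, Lt.c, Lt.d, Lt.c, Lt.d, Lt.c, Lt.a, Lt.d] (hole_rel hinv hr (by decide +kernel)) h
  · exact lF_good (T := T) (x := Lt.c) (by decide) [Lt.d, Lt.c, Lt.a, Lt.d, Lt.c, Lt.d, Lt.c, Lt.d] (hole_rel hinv hr (by decide +kernel)) h
theorem dp_c_10_s (hinv : ∀ x, g (inv x) = (g x)⁻¹) (hr : ∀ r ∈ rels, (r.map g).prod = 1) (hH : ∀ r ∈ subs, (r.map g).prod ∈ H)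
    (j u : ℕ) (hu : u < M) (h : dp_c_10 j u = true) : Good (fa g) T MG M (cP g H) Lt.c u := by
  unfold dp_c_10 at h
  rcases brec_true h with h | h
  · exact lS_good (T := T) (x := Lt.c) (by decide) hu [Lt.a, Lt.d, Lt.c, Lt.d, Lt.c, Lt.d, Lt.c, Lt.d] (hole_rel hinv hr (by decide +kernel)) h
  · exact lS_good (T := T) (x := Lt.c) (by decide) hu [Lt.d, Lt.c, Lt.d, Lt.a, Lt.c, Lt.d, Lt.c, Lt.d] (hole_rel hinv hr (by decide +kernel)) h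
theorem dp_c_11_s (hinv : ∀ x, g (inv x) = (g x)⁻¹) (hr : ∀ r ∈ rels, (r.map g).prod = 1) (hH : ∀ r ∈ subs, (r.map g).prod ∈ H)
    (j u : ℕ) (hu : u < M) (h : dp_c_11 j u = true) : Good (fa g) T MG M (cP g H) Lt.c u := by
  unfold dp_c_11 at h
  rcases brec_true h with h | h
  · exact lS_good (T := T) (x := Lt.c) (by decide) hu [Lt.d, Lt.c, Lt.b, Lt.f, Lt.v, Lt.f, Lt.b, Lt.c, Lt.d, Lt.c, Lt.b, Lt.f, Lt.v, Lt.f, Lt.b, Lt.c, Lt.d, Lt.c, Lt.b, Lt.f, Lt.v, Lt.f, Lt.b] (hole_rel hinv hr (by decide +kernel)) h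
  · exact dp_c_10_s hinv hr hH j u hu h
theorem dp_c_12_s (hinv : ∀ x, g (inv x) = (g x)⁻¹) (hr : ∀ r ∈ rels, (r.map g).prod = 1) (hH : ∀ r ∈ subs, (r.map g).prod ∈ H)
    (j u : ℕ) (hu : u < M) (h : dp_c_12 j u = true) : Good (fa g) T MG M (cP g H) Lt.c u := by
  unfold dp_c_12 at h
  rcases brec_true h with h | h
  · exact lS_good (T := T) (x := Lt.c) (by decide) hu [Lt.d, Lt.c, Lt.d, Lt.c, Lt.a, Lt.d, Lt.c, Lt.d] (hole_rel hinv hr (by decide +kernel)) h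
  · exact dp_c_11_s hinv hr hH j u hu h
theorem dp_c_13_s (hinv : ∀ x, g (inv x) = (g x)⁻¹) (hr : ∀ r ∈ rels, (r.map g).prod = 1) (hH : ∀ r ∈ subs, (r.map g).prod ∈ H)
    (j u : ℕ) (hu : u < M) (h : dp_c_13 j u = true) : Good (fa g) T MG M (cP g H) Lt.c u := by
  unfold dp_c_13 at h
  rcases brec_true h with h | h
  · exact dp_c_9_s hinv hr hH j u hu h
  · exact dp_c_12_s hinv hr hH j u hu h
theorem dp_c_14_s (hinv : ∀ x, g (inv x) = (g x)⁻¹) (hr : ∀ r ∈ rels, (r.map g).prod = 1) (hH : ∀ r ∈ subs, (r.map g).prod ∈ H)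
    (j u : ℕ) (hu : u < M) (h : dp_c_14 j u = true) : Good (fa g) T MG M (cP g H) Lt.c u := by
  unfold dp_c_14 at h
  rcases brec_true h with h | h
  · exact lS_good (T := T) (x := Lt.c) (by decide) hu [Lt.d, Lt.c, Lt.b, Lt.f, Lt.v, Lt.b, Lt.v, Lt.f, Lt.b, Lt.c, Lt.d, Lt.c, Lt.b, Lt.f, Lt.b, Lt.f, Lt.b] (hole_rel hinv hr (by decide +kernel)) h
  · exact lS_good (T := T) (x := Lt.c) (by decide) hu [Lt.f, Lt.b, Lt.c, Lt.d, Lt.c, Lt.b, Lt.f, Lt.v, Lt.c, Lt.v, Lt.f, Lt.b, Lt.c, Lt.d, Lt.c, Lt.b, Lt.f] (hole_rel hinv hr (by decide +kernel)) h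
theorem dp_c_15_s (hinv : ∀ x, g (inv x) = (g x)⁻¹) (hr : ∀ r ∈ rels, (r.map g).prod = 1) (hH : ∀ r ∈ subs, (r.map g).prod ∈ H)
    (j u : ℕ) (hu : u < M) (h : dp_c_15 j u = true) : Good (fa g) T MG M (cP g H) Lt.c u := by
  unfold dp_c_15 at h
  rcases brec_true h with h | h
  · exact lF_good (T := T) (x := Lt.c) (by decide) [Lt.b, Lt.a, Lt.v, Lt.f, Lt.b, Lt.c, Lt.d, Lt.c, Lt.b, Lt.f, Lt.a, Lt.b, Lt.c, Lt.d, Lt.f, Lt.b, Lt.c, Lt.d, Lt.c, Lt.b, Lt.f, Lt.v, Lt.d] (hole_rel hinv hr (by decide +kernel)) h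
  · exact lF_good (T := T) (x := Lt.c) (by decide) [Lt.d, Lt.c, Lt.d, Lt.c, Lt.d, Lt.a, Lt.c, Lt.d] (hole_rel hinv hr (by decide +kernel)) h
theorem dp_c_16_s (hinv : ∀ x, g (inv x) = (g x)⁻¹) (hr : ∀ r ∈ rels, (r.map g).prod = 1) (hH : ∀ r ∈ subs, (r.map g).prod ∈ H)
    (j u : ℕ) (hu : u < M) (h : dp_c_16 j u = true) : Good (fa g) T MG M (cP g H) Lt.c u := by
  unfold dp_c_16 at h
  rcases brec_true h with h | h
  · exact dp_c_14_s hinv hr hH j u hu h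
  · exact dp_c_15_s hinv hr hH j u hu h
theorem dp_c_17_s (hinv : ∀ x, g (inv x) = (g x)⁻¹) (hr : ∀ r ∈ rels, (r.map g).prod = 1) (hH : ∀ r ∈ subs, (r.map g).prod ∈ H)
    (j u : ℕ) (hu : u < M) (h : dp_c_17 j u = true) : Good (fa g) T MG M (cP g H) Lt.c u := by
  unfold dp_c_17 at h
  rcases brec_true h with h | h
  · exact lF_good (T := T) (x := Lt.c) (by decide) [Lt.a, Lt.d, Lt.c, Lt.d, Lt.c, Lt.d, Lt.c, Lt.d] (hole_rel hinv hr (by decide +kernel)) h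
  · exact lS_good (T := T) (x := Lt.c) (by decide) hu [Lt.d, Lt.c, Lt.b, Lt.f, Lt.a, Lt.b, Lt.c, Lt.d, Lt.f, Lt.b, Lt.c, Lt.d, Lt.c, Lt.b, Lt.f, Lt.v, Lt.d, Lt.c, Lt.b, Lt.a, Lt.v, Lt.f, Lt.b] (hole_rel hinv hr (by decide +kernel)) h
theorem dp_c_18_s (hinv : ∀ x, g (inv x) = (g x)⁻¹) (hr : ∀ r ∈ rels, (r.map g).prod = 1) (hH : ∀ r ∈ subs, (r.map g).prod ∈ H)
    (j u : ℕ) (hu : u < M) (h : dp_c_18 j u = true) : Good (fa g) T MG M (cP g H) Lt.c u := by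
  unfold dp_c_18 at h
  rcases brec_true h with h | h
  · exact lS_good (T := T) (x := Lt.c) (by decide) hu [Lt.d, Lt.c, Lt.d, Lt.c, Lt.d, Lt.a, Lt.c, Lt.d] (hole_rel hinv hr (by decide +kernel)) h
  · exact lS_good (T := T) (x := Lt.c) (by decide) hu [Lt.b, Lt.f, Lt.v, Lt.d, Lt.c, Lt.b, Lt.a, Lt.v, Lt.f, Lt.b, Lt.c, Lt.d, Lt.c, Lt.b, Lt.f, Lt.a, Lt.b, Lt.c, Lt.d, Lt.f, Lt.b, Lt.c, Lt.d] (hole_rel hinv hr (by decide +kernel)) h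
theorem dp_c_19_s (hinv : ∀ x, g (inv x) = (g x)⁻¹) (hr : ∀ r ∈ rels, (r.map g).prod = 1) (hH : ∀ r ∈ subs, (r.map g).prod ∈ H)
    (j u : ℕ) (hu : u < M) (h : dp_c_19 j u = true) : Good (fa g) T MG M (cP g H) Lt.c u := by
  unfold dp_c_19 at h
  rcases brec_true h with h | h
  · exact lS_good (T := T) (x := Lt.c) (by decide) hu [Lt.d, Lt.c, Lt.b, Lt.f, Lt.d, Lt.c, Lt.b, Lt.a, Lt.f, Lt.b, Lt.c, Lt.d, Lt.c, Lt.b, Lt.f, Lt.v, Lt.a, Lt.b, Lt.c, Lt.d, Lt.v, Lt.f, Lt.b] (hole_rel hinv hr (by decide +kernel)) h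
  · exact dp_c_18_s hinv hr hH j u hu h
theorem dp_c_20_s (hinv : ∀ x, g (inv x) = (g x)⁻¹) (hr : ∀ r ∈ rels, (r.map g).prod = 1) (hH : ∀ r ∈ subs, (r.map g).prod ∈ H)
    (j u : ℕ) (hu : u < M) (h : dp_c_20 j u = true) : Good (fa g) T MG M (cP g H) Lt.c u := by
  unfold dp_c_20 at h
  rcases brec_true h with h | h
  · exact dp_c_17_s hinv hr hH j u hu h
  · exact dp_c_19_s hinv hr hH j u hu h
theorem dp_c_21_s (hinv : ∀ x, g (inv x) = (g x)⁻¹) (hr : ∀ r ∈ rels, (r.map g).prod = 1) (hH : ∀ r ∈ subs, (r.map g).prod ∈ H)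
    (j u : ℕ) (hu : u < M) (h : dp_c_21 j u = true) : Good (fa g) T MG M (cP g H) Lt.c u := by
  unfold dp_c_21 at h
  rcases brec_true h with h | h
  · exact dp_c_16_s hinv hr hH j u hu h
  · exact dp_c_20_s hinv hr hH j u hu h
theorem dp_c_22_s (hinv : ∀ x, g (inv x) = (g x)⁻¹) (hr : ∀ r ∈ rels, (r.map g).prod = 1) (hH : ∀ r ∈ subs, (r.map g).prod ∈ H)
    (j u : ℕ) (hu : u < M) (h : dp_c_22 j u = true) : Good (fa g) T MG M (cP g H) Lt.c u := by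
  unfold dp_c_22 at h
  rcases brec_true h with h | h
  · exact lS_good (T := T) (x := Lt.c) (by decide) hu [Lt.d, Lt.c, Lt.b, Lt.f, Lt.c, Lt.f, Lt.b, Lt.c, Lt.d, Lt.c, Lt.b, Lt.f, Lt.v, Lt.c, Lt.v, Lt.f, Lt.b] (hole_rel hinv hr (by decide +kernel)) h
  · exact lS_good (T := T) (x := Lt.c) (by decide) hu [Lt.d, Lt.c, Lt.b, Lt.f, Lt.v, Lt.d, Lt.c, Lt.b, Lt.a, Lt.v, Lt.f, Lt.b, Lt.c, Lt.d, Lt.c, Lt.b, Lt.f, Lt.a, Lt.b, Lt.c, Lt.d, Lt.f, Lt.b] (hole_rel hinv hr (by decide +kernel)) h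
theorem dp_c_23_s (hinv : ∀ x, g (inv x) = (g x)⁻¹) (hr : ∀ r ∈ rels, (r.map g).prod = 1) (hH : ∀ r ∈ subs, (r.map g).prod ∈ H)
    (j u : ℕ) (hu : u < M) (h : dp_c_23 j u = true) : Good (fa g) T MG M (cP g H) Lt.c u := by
  unfold dp_c_23 at h
  rcases brec_true h with h | h
  · exact lS_good (T := T) (x := Lt.c) (by decide) hu [Lt.b, Lt.f, Lt.v, Lt.a, Lt.b, Lt.c, Lt.d, Lt.v, Lt.f, Lt.b, Lt.c, Lt.d, Lt.c, Lt.b, Lt.f, Lt.d, Lt.c, Lt.b, Lt.a, Lt.f, Lt.b, Lt.c, Lt.d] (hole_rel hinv hr (by decide +kernel)) h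
  · exact dp_c_22_s hinv hr hH j u hu h
theorem dp_c_24_s (hinv : ∀ x, g (inv x) = (g x)⁻¹) (hr : ∀ r ∈ rels, (r.map g).prod = 1) (hH : ∀ r ∈ subs, (r.map g).prod ∈ H)
    (j u : ℕ) (hu : u < M) (h : dp_c_24 j u = true) : Good (fa g) T MG M (cP g H) Lt.c u := by
  unfold dp_c_24 at h
  rcases brec_true h with h | h
  · exact lH_good (T := T) (x := Lt.c) (by decide) [] [] (by rw [show cP g H 0 = _ from cc_zero]; exact sub_rel hinv (hH _ (by decide))) h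
  · exact lF_good (T := T) (x := Lt.c) (by decide) [Lt.b, Lt.a, Lt.f, Lt.c, Lt.b, Lt.a, Lt.f, Lt.c, Lt.b, Lt.a, Lt.f, Lt.c, Lt.b, Lt.a, Lt.f, Lt.c, Lt.b, Lt.a, Lt.f] (hole_rel hinv hr (by decide +kernel)) h
theorem dp_c_25_s (hinv : ∀ x, g (inv x) = (g x)⁻¹) (hr : ∀ r ∈ rels, (r.map g).prod = 1) (hH : ∀ r ∈ subs, (r.map g).prod ∈ H)
    (j u : ℕ) (hu : u < M) (h : dp_c_25 j u = true) : Good (fa g) T MG M (cP g H) Lt.c u := by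
  unfold dp_c_25 at h
  rcases brec_true h with h | h
  · exact lS_good (T := T) (x := Lt.c) (by decide) hu [Lt.d, Lt.c, Lt.b, Lt.f, Lt.e, Lt.f, Lt.b, Lt.c, Lt.d, Lt.c, Lt.b, Lt.f, Lt.v, Lt.f, Lt.e, Lt.b, Lt.c, Lt.d, Lt.c, Lt.b, Lt.f, Lt.e, Lt.v, Lt.f, Lt.b] (hole_rel hinv hr (by decide +kernel)) h
  · exact lS_good (T := T) (x := Lt.c) (by decide) hu [Lt.b, Lt.a, Lt.f, Lt.c, Lt.b, Lt.a, Lt.f, Lt.c, Lt.b, Lt.a, Lt.f, Lt.c, Lt.b, Lt.a, Lt.f, Lt.c, Lt.b, Lt.a, Lt.f] (hole_rel hinv hr (by decide +kernel)) h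
theorem dp_c_26_s (hinv : ∀ x, g (inv x) = (g x)⁻¹) (hr : ∀ r ∈ rels, (r.map g).prod = 1) (hH : ∀ r ∈ subs, (r.map g).prod ∈ H)
    (j u : ℕ) (hu : u < M) (h : dp_c_26 j u = true) : Good (fa g) T MG M (cP g H) Lt.c u := by
  unfold dp_c_26 at h
  rcases brec_true h with h | h
  · exact lF_good (T := T) (x := Lt.c) (by decide) [Lt.b, Lt.f, Lt.c, Lt.f, Lt.b, Lt.c, Lt.d, Lt.c, Lt.b, Lt.f, Lt.v, Lt.c, Lt.v, Lt.f, Lt.b, Lt.c, Lt.d] (hole_rel hinv hr (by decide +kernel)) h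
  · exact dp_c_25_s hinv hr hH j u hu h
theorem dp_c_27_s (hinv : ∀ x, g (inv x) = (g x)⁻¹) (hr : ∀ r ∈ rels, (r.map g).prod = 1) (hH : ∀ r ∈ subs, (r.map g).prod ∈ H)
    (j u : ℕ) (hu : u < M) (h : dp_c_27 j u = true) : Good (fa g) T MG M (cP g H) Lt.c u := by
  unfold dp_c_27 at h
  rcases brec_true h with h | h
  · exact dp_c_24_s hinv hr hH j u hu h
  · exact dp_c_26_s hinv hr hH j u hu h
theorem dp_c_28_s (hinv : ∀ x, g (inv x) = (g x)⁻¹) (hr : ∀ r ∈ rels, (r.map g).prod = 1) (hH : ∀ r ∈ subs, (r.map g).prod ∈ H)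
    (j u : ℕ) (hu : u < M) (h : dp_c_28 j u = true) : Good (fa g) T MG M (cP g H) Lt.c u := by
  unfold dp_c_28 at h
  rcases brec_true h with h | h
  · exact dp_c_23_s hinv hr hH j u hu h
  · exact dp_c_27_s hinv hr hH j u hu h
theorem dp_c_29_s (hinv : ∀ x, g (inv x) = (g x)⁻¹) (hr : ∀ r ∈ rels, (r.map g).prod = 1) (hH : ∀ r ∈ subs, (r.map g).prod ∈ H)
    (j u : ℕ) (hu : u < M) (h : dp_c_29 j u = true) : Good (fa g) T MG M (cP g H) Lt.c u := by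
  unfold dp_c_29 at h
  rcases brec_true h with h | h
  · exact lS_good (T := T) (x := Lt.c) (by decide) hu [Lt.b, Lt.f, Lt.e, Lt.v, Lt.f, Lt.b, Lt.c, Lt.d, Lt.c, Lt.b, Lt.f, Lt.e, Lt.f, Lt.b, Lt.c, Lt.d, Lt.c, Lt.b, Lt.f, Lt.v, Lt.f, Lt.e, Lt.b, Lt.c, Lt.d] (hole_rel hinv hr (by decide +kernel)) h
  · exact lF_good (T := T) (x := Lt.c) (by decide) [Lt.f, Lt.b, Lt.c, Lt.d, Lt.c, Lt.b, Lt.f, Lt.v, Lt.c, Lt.v, Lt.f, Lt.b, Lt.c, Lt.d, Lt.c, Lt.b, Lt.f] (hole_rel hinv hr (by decide +kernel)) h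
theorem dp_c_30_s (hinv : ∀ x, g (inv x) = (g x)⁻¹) (hr : ∀ r ∈ rels, (r.map g).prod = 1) (hH : ∀ r ∈ subs, (r.map g).prod ∈ H)
    (j u : ℕ) (hu : u < M) (h : dp_c_30 j u = true) : Good (fa g) T MG M (cP g H) Lt.c u := by
  unfold dp_c_30 at h
  rcases brec_true h with h | h
  · exact lS_good (T := T) (x := Lt.c) (by decide) hu [Lt.b, Lt.f, Lt.v, Lt.c, Lt.v, Lt.f, Lt.b, Lt.c, Lt.d, Lt.c, Lt.b, Lt.f, Lt.c, Lt.f, Lt.b, Lt.c, Lt.d] (hole_rel hinv hr (by decide +kernel)) h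
  · exact lS_good (T := T) (x := Lt.c) (by decide) hu [Lt.d, Lt.a, Lt.c, Lt.d, Lt.c, Lt.d, Lt.c, Lt.d] (hole_rel hinv hr (by decide +kernel)) h
theorem dp_c_31_s (hinv : ∀ x, g (inv x) = (g x)⁻¹) (hr : ∀ r ∈ rels, (r.map g).prod = 1) (hH : ∀ r ∈ subs, (r.map g).prod ∈ H)
    (j u : ℕ) (hu : u < M) (h : dp_c_31 j u = true) : Good (fa g) T MG M (cP g H) Lt.c u := by
  unfold dp_c_31 at h
  rcases brec_true h with h | h
  · exact lS_good (T := T) (x := Lt.c) (by decide) hu [Lt.d, Lt.c, Lt.b, Lt.f, Lt.e, Lt.v, Lt.f, Lt.b, Lt.c, Lt.d, Lt.c, Lt.b, Lt.f, Lt.e, Lt.f, Lt.b, Lt.c, Lt.d, Lt.c, Lt.b, Lt.f, Lt.v, Lt.f, Lt.e, Lt.b] (hole_rel hinv hr (by decide +kernel)) h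
  · exact dp_c_30_s hinv hr hH j u hu h
theorem dp_c_32_s (hinv : ∀ x, g (inv x) = (g x)⁻¹) (hr : ∀ r ∈ rels, (r.map g).prod = 1) (hH : ∀ r ∈ subs, (r.map g).prod ∈ H)
    (j u : ℕ) (hu : u < M) (h : dp_c_32 j u = true) : Good (fa g) T MG M (cP g H) Lt.c u := by
  unfold dp_c_32 at h
  rcases brec_true h with h | h
  · exact dp_c_29_s hinv hr hH j u hu h
  · exact dp_c_31_s hinv hr hH j u hu h
theorem dp_c_33_s (hinv : ∀ x, g (inv x) = (g x)⁻¹) (hr : ∀ r ∈ rels, (r.map g).prod = 1) (hH : ∀ r ∈ subs, (r.map g).prod ∈ H)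
    (j u : ℕ) (hu : u < M) (h : dp_c_33 j u = true) : Good (fa g) T MG M (cP g H) Lt.c u := by
  unfold dp_c_33 at h
  rcases brec_true h with h | h
  · exact lF_good (T := T) (x := Lt.c) (by decide) [Lt.d, Lt.c, Lt.d, Lt.c, Lt.d, Lt.c, Lt.d, Lt.a] (hole_rel hinv hr (by decide +kernel)) h
  · exact lS_good (T := T) (x := Lt.c) (by decide) hu [Lt.f, Lt.a, Lt.b, Lt.c, Lt.f, Lt.a, Lt.b, Lt.c, Lt.f, Lt.a, Lt.b, Lt.c, Lt.f, Lt.a, Lt.b, Lt.c, Lt.f, Lt.a, Lt.b] (hole_rel hinv hr (by decide +kernel)) h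
theorem dp_c_34_s (hinv : ∀ x, g (inv x) = (g x)⁻¹) (hr : ∀ r ∈ rels, (r.map g).prod = 1) (hH : ∀ r ∈ subs, (r.map g).prod ∈ H)
    (j u : ℕ) (hu : u < M) (h : dp_c_34 j u = true) : Good (fa g) T MG M (cP g H) Lt.c u := by
  unfold dp_c_34 at h
  rcases brec_true h with h | h
  · exact lS_good (T := T) (x := Lt.c) (by decide) hu [Lt.b, Lt.f, Lt.v, Lt.b, Lt.v, Lt.f, Lt.b, Lt.c, Lt.d, Lt.c, Lt.b, Lt.f, Lt.b, Lt.f, Lt.b, Lt.c, Lt.d] (hole_rel hinv hr (by decide +kernel)) h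
  · exact dp_c_33_s hinv hr hH j u hu h
theorem dp_c_35_s (hinv : ∀ x, g (inv x) = (g x)⁻¹) (hr : ∀ r ∈ rels, (r.map g).prod = 1) (hH : ∀ r ∈ subs, (r.map g).prod ∈ H)
    (j u : ℕ) (hu : u < M) (h : dp_c_35 j u = true) : Good (fa g) T MG M (cP g H) Lt.c u := by
  unfold dp_c_35 at h
  rcases brec_true h with h | h
  · exact lS_good (T := T) (x := Lt.c) (by decide) hu [Lt.d, Lt.c, Lt.b, Lt.f, Lt.v, Lt.a, Lt.b, Lt.c, Lt.d, Lt.v, Lt.f, Lt.b, Lt.c, Lt.d, Lt.c, Lt.b, Lt.f, Lt.d, Lt.c, Lt.b, Lt.a, Lt.f, Lt.b] (hole_rel hinv hr (by decide +kernel)) h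
  · exact lF_good (T := T) (x := Lt.c) (by decide) [Lt.d, Lt.v, Lt.f, Lt.b, Lt.c, Lt.d, Lt.c, Lt.b, Lt.f, Lt.d, Lt.c, Lt.b, Lt.a, Lt.f, Lt.b, Lt.c, Lt.d, Lt.c, Lt.b, Lt.f, Lt.v, Lt.a, Lt.b] (hole_rel hinv hr (by decide +kernel)) h
theorem dp_c_36_s (hinv : ∀ x, g (inv x) = (g x)⁻¹) (hr : ∀ r ∈ rels, (r.map g).prod = 1) (hH : ∀ r ∈ subs, (r.map g).prod ∈ H)
    (j u : ℕ) (hu : u < M) (h : dp_c_36 j u = true) : Good (fa g) T MG M (cP g H) Lt.c u := by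
  unfold dp_c_36 at h
  rcases brec_true h with h | h
  · exact lS_good (T := T) (x := Lt.c) (by decide) hu [Lt.d, Lt.c, Lt.b, Lt.f, Lt.b, Lt.f, Lt.b, Lt.c, Lt.d, Lt.c, Lt.b, Lt.f, Lt.v, Lt.b, Lt.v, Lt.f, Lt.b] (hole_rel hinv hr (by decide +kernel)) h
  · exact dp_c_35_s hinv hr hH j u hu h
theorem dp_c_37_s (hinv : ∀ x, g (inv x) = (g x)⁻¹) (hr : ∀ r ∈ rels, (r.map g).prod = 1) (hH : ∀ r ∈ subs, (r.map g).prod ∈ H)
    (j u : ℕ) (hu : u < M) (h : dp_c_37 j u = true) : Good (fa g) T MG M (cP g H) Lt.c u := by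
  unfold dp_c_37 at h
  rcases brec_true h with h | h
  · exact dp_c_34_s hinv hr hH j u hu h
  · exact dp_c_36_s hinv hr hH j u hu h
theorem dp_c_38_s (hinv : ∀ x, g (inv x) = (g x)⁻¹) (hr : ∀ r ∈ rels, (r.map g).prod = 1) (hH : ∀ r ∈ subs, (r.map g).prod ∈ H)
    (j u : ℕ) (hu : u < M) (h : dp_c_38 j u = true) : Good (fa g) T MG M (cP g H) Lt.c u := by
  unfold dp_c_38 at h
  rcases brec_true h with h | h
  · exact dp_c_32_s hinv hr hH j u hu h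
  · exact dp_c_37_s hinv hr hH j u hu h
theorem dp_c_39_s (hinv : ∀ x, g (inv x) = (g x)⁻¹) (hr : ∀ r ∈ rels, (r.map g).prod = 1) (hH : ∀ r ∈ subs, (r.map g).prod ∈ H)
    (j u : ℕ) (hu : u < M) (h : dp_c_39 j u = true) : Good (fa g) T MG M (cP g H) Lt.c u := by
  unfold dp_c_39 at h
  rcases brec_true h with h | h
  · exact dp_c_28_s hinv hr hH j u hu h
  · exact dp_c_38_s hinv hr hH j u hu h
theorem dp_c_40_s (hinv : ∀ x, g (inv x) = (g x)⁻¹) (hr : ∀ r ∈ rels, (r.map g).prod = 1) (hH : ∀ r ∈ subs, (r.map g).prod ∈ H)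
    (j u : ℕ) (hu : u < M) (h : dp_c_40 j u = true) : Good (fa g) T MG M (cP g H) Lt.c u := by
  unfold dp_c_40 at h
  rcases brec_true h with h | h
  · exact dp_c_21_s hinv hr hH j u hu h
  · exact dp_c_39_s hinv hr hH j u hu h
theorem dp_c_41_s (hinv : ∀ x, g (inv x) = (g x)⁻¹) (hr : ∀ r ∈ rels, (r.map g).prod = 1) (hH : ∀ r ∈ subs, (r.map g).prod ∈ H)
    (j u : ℕ) (hu : u < M) (h : dp_c_41 j u = true) : Good (fa g) T MG M (cP g H) Lt.c u := by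
  unfold dp_c_41 at h
  rcases brec_true h with h | h
  · exact dp_c_13_s hinv hr hH j u hu h
  · exact dp_c_40_s hinv hr hH j u hu h
theorem dp_c_42_s (hinv : ∀ x, g (inv x) = (g x)⁻¹) (hr : ∀ r ∈ rels, (r.map g).prod = 1) (hH : ∀ r ∈ subs, (r.map g).prod ∈ H)
    (j u : ℕ) (hu : u < M) (h : dp_c_42 j u = true) : Good (fa g) T MG M (cP g H) Lt.c u := by
  unfold dp_c_42 at h
  rcases brec_true h with h | h
  · exact dp_c_8_s hinv hr hH j u hu h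
  · exact dp_c_41_s hinv hr hH j u hu h
theorem dp_c_43_s (hinv : ∀ x, g (inv x) = (g x)⁻¹) (hr : ∀ r ∈ rels, (r.map g).prod = 1) (hH : ∀ r ∈ subs, (r.map g).prod ∈ H)
    (j u : ℕ) (hu : u < M) (h : dp_c_43 j u = true) : Good (fa g) T MG M (cP g H) Lt.c u := by
  unfold dp_c_43 at h
  rcases brec_true h with h | h
  · exact dp_c_5_s hinv hr hH j u hu h
  · exact dp_c_42_s hinv hr hH j u hu h
theorem dp_c_44_s (hinv : ∀ x, g (inv x) = (g x)⁻¹) (hr : ∀ r ∈ rels, (r.map g).prod = 1) (hH : ∀ r ∈ subs, (r.map g).prod ∈ H)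
    (j u : ℕ) (hu : u < M) (h : dp_c_44 j u = true) : Good (fa g) T MG M (cP g H) Lt.c u := by
  unfold dp_c_44 at h
  rcases brec_true h with h | h
  · exact dp_c_3_s hinv hr hH j u hu h
  · exact dp_c_43_s hinv hr hH j u hu h
theorem dp_c_45_s (hinv : ∀ x, g (inv x) = (g x)⁻¹) (hr : ∀ r ∈ rels, (r.map g).prod = 1) (hH : ∀ r ∈ subs, (r.map g).prod ∈ H)
    (j u : ℕ) (hu : u < M) (h : dp_c_45 j u = true) : Good (fa g) T MG M (cP g H) Lt.c u := by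
  unfold dp_c_45 at h
  rcases brec_true h with h | h
  · exact dp_c_1_s hinv hr hH j u hu h
  · exact dp_c_44_s hinv hr hH j u hu h
theorem dp_c_46_s (hinv : ∀ x, g (inv x) = (g x)⁻¹) (hr : ∀ r ∈ rels, (r.map g).prod = 1) (hH : ∀ r ∈ subs, (r.map g).prod ∈ H)
    (j u : ℕ) (hu : u < M) (h : dp_c_46 j u = true) : Good (fa g) T MG M (cP g H) Lt.c u := by
  unfold dp_c_46 at h
  rcases brec_true h with h | h
  · rcases brec_true h with h | h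
    · exact lS_good (T := T) (x := Lt.c) (by decide) hu [Lt.c] (hole_rel hinv hr (by decide +kernel)) h
    · exact lF3_good (T := T) (x := Lt.c) (by decide) .e .c .e (hole_rel hinv hr (by decide +kernel)) h
  · exact dp_c_45_s hinv hr hH j u hu h
theorem dp_c_47_s (hinv : ∀ x, g (inv x) = (g x)⁻¹) (hr : ∀ r ∈ rels, (r.map g).prod = 1) (hH : ∀ r ∈ subs, (r.map g).prod ∈ H)
    (j u : ℕ) (hu : u < M) (h : dp_c_47 j u = true) : Good (fa g) T MG M (cP g H) Lt.c u := by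
  unfold dp_c_47 at h
  rcases brec_true h with h | h
  · rcases brec_true h with h | h
    · exact lF1_good (T := T) (x := Lt.c) (by decide) .c (hole_rel hinv hr (by decide +kernel)) h
    · exact lF3_good (T := T) (x := Lt.c) (by decide) .f .c .f (hole_rel hinv hr (by decide +kernel)) h
  · exact dp_c_46_s hinv hr hH j u hu h
theorem snd_c (hinv : ∀ x, g (inv x) = (g x)⁻¹) (hr : ∀ r ∈ rels, (r.map g).prod = 1) (hH : ∀ r ∈ subs, (r.map g).prod ∈ H)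
    (j u : ℕ) (hu : u < M) (h : disp_c j u = true) : Good (fa g) T MG M (cP g H) Lt.c u := by
  unfold disp_c at h
  rcases brec_true h with h | h
  · rcases brec_true h with h | h
    · exact lDef_good (T := T) (x := Lt.c) (by decide) rfl h
    · exact lPar_good (T := T) (x := Lt.c) (x' := Lt.c) (by decide) rfl (inv_rel hinv _ _ rfl) h
  · exact dp_c_47_s hinv hr hH j u hu h
theorem snc_c (hinv : ∀ x, g (inv x) = (g x)⁻¹) (hr : ∀ r ∈ rels, (r.map g).prod = 1) (hH : ∀ r ∈ subs, (r.map g).prod ∈ H)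
    (j u : ℕ) (hu : u < M) (h : chk_c j u = true) : (T Lt.c u < A ∧ Good (fa g) T MG M (cP g H) Lt.c u) ∨ (A ≤ T Lt.c u ∧ MG u < A) := by
  unfold chk_c at h
  cases hb : Nat.ble A (T_c u) with
  | true => rw [hb] at h; exact Or.inr ⟨le_of_ble hb, le_of_ble h⟩
  | false => rw [hb] at h; exact Or.inl ⟨lt_of_ble_false hb, snd_c hinv hr hH j u hu h⟩
theorem dp_d_0_s (hinv : ∀ x, g (inv x) = (g x)⁻¹) (hr : ∀ r ∈ rels, (r.map g).prod = 1) (hH : ∀ r ∈ subs, (r.map g).prod ∈ H)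
    (j u : ℕ) (hu : u < M) (h : dp_d_0 j u = true) : Good (fa g) T MG M (cP g H) Lt.d u := by
  unfold dp_d_0 at h
  rcases brec_true h with h | h
  · exact lF3_good (T := T) (x := Lt.d) (by decide) .a .d .a (hole_rel hinv hr (by decide +kernel)) h
  · exact lS_good (T := T) (x := Lt.d) (by decide) hu [Lt.b, Lt.d, Lt.b] (hole_rel hinv hr (by decide +kernel)) h
theorem dp_d_1_s (hinv : ∀ x, g (inv x) = (g x)⁻¹) (hr : ∀ r ∈ rels, (r.map g).prod = 1) (hH : ∀ r ∈ subs, (r.map g).prod ∈ H)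
    (j u : ℕ) (hu : u < M) (h : dp_d_1 j u = true) : Good (fa g) T MG M (cP g H) Lt.d u := by
  unfold dp_d_1 at h
  rcases brec_true h with h | h
  · exact lS_good (T := T) (x := Lt.d) (by decide) hu [Lt.a, Lt.d, Lt.a] (hole_rel hinv hr (by decide +kernel)) h
  · exact lF_good (T := T) (x := Lt.d) (by decide) [Lt.c, Lt.d, Lt.c, Lt.d, Lt.a, Lt.c, Lt.d, Lt.c] (hole_rel hinv hr (by decide +kernel)) h
theorem dp_d_2_s (hinv : ∀ x, g (inv x) = (g x)⁻¹) (hr : ∀ r ∈ rels, (r.map g).prod = 1) (hH : ∀ r ∈ subs, (r.map g).prod ∈ H)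
    (j u : ℕ) (hu : u < M) (h : dp_d_2 j u = true) : Good (fa g) T MG M (cP g H) Lt.d u := by
  unfold dp_d_2 at h
  rcases brec_true h with h | h
  · exact lS_good (T := T) (x := Lt.d) (by decide) hu [Lt.f, Lt.d, Lt.f] (hole_rel hinv hr (by decide +kernel)) h
  · exact dp_d_1_s hinv hr hH j u hu h
theorem dp_d_3_s (hinv : ∀ x, g (inv x) = (g x)⁻¹) (hr : ∀ r ∈ rels, (r.map g).prod = 1) (hH : ∀ r ∈ subs, (r.map g).prod ∈ H)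
    (j u : ℕ) (hu : u < M) (h : dp_d_3 j u = true) : Good (fa g) T MG M (cP g H) Lt.d u := by
  unfold dp_d_3 at h
  rcases brec_true h with h | h
  · exact lS_good (T := T) (x := Lt.d) (by decide) hu [Lt.c, Lt.d, Lt.c, Lt.d, Lt.c, Lt.d, Lt.c, Lt.a] (hole_rel hinv hr (by decide +kernel)) h
  · exact lF_good (T := T) (x := Lt.d) (by decide) [Lt.e, Lt.d, Lt.e, Lt.d, Lt.e] (hole_rel hinv hr (by decide +kernel)) h
theorem dp_d_4_s (hinv : ∀ x, g (inv x) = (g x)⁻¹) (hr : ∀ r ∈ rels, (r.map g).prod = 1) (hH : ∀ r ∈ subs, (r.map g).prod ∈ H)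
    (j u : ℕ) (hu : u < M) (h : dp_d_4 j u = true) : Good (fa g) T MG M (cP g H) Lt.d u := by
  unfold dp_d_4 at h
  rcases brec_true h with h | h
  · exact lS_good (T := T) (x := Lt.d) (by decide) hu [Lt.e, Lt.d, Lt.e, Lt.d, Lt.e] (hole_rel hinv hr (by decide +kernel)) h
  · exact lS_good (T := T) (x := Lt.d) (by decide) hu [Lt.c, Lt.a, Lt.d, Lt.c, Lt.d, Lt.c, Lt.d, Lt.c] (hole_rel hinv hr (by decide +kernel)) h
theorem dp_d_5_s (hinv : ∀ x, g (inv x) = (g x)⁻¹) (hr : ∀ r ∈ rels, (r.map g).prod = 1) (hH : ∀ r ∈ subs, (r.map g).prod ∈ H)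
    (j u : ℕ) (hu : u < M) (h : dp_d_5 j u = true) : Good (fa g) T MG M (cP g H) Lt.d u := by
  unfold dp_d_5 at h
  rcases brec_true h with h | h
  · exact lS_good (T := T) (x := Lt.d) (by decide) hu [Lt.v, Lt.f, Lt.b, Lt.c, Lt.d, Lt.c, Lt.b, Lt.f, Lt.d, Lt.c, Lt.b, Lt.a, Lt.f, Lt.b, Lt.c, Lt.d, Lt.c, Lt.b, Lt.f, Lt.v, Lt.a, Lt.b, Lt.c] (hole_rel hinv hr (by decide +kernel)) h
  · exact dp_d_4_s hinv hr hH j u hu h
theorem dp_d_6_s (hinv : ∀ x, g (inv x) = (g x)⁻¹) (hr : ∀ r ∈ rels, (r.map g).prod = 1) (hH : ∀ r ∈ subs, (r.map g).prod ∈ H)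
    (j u : ℕ) (hu : u < M) (h : dp_d_6 j u = true) : Good (fa g) T MG M (cP g H) Lt.d u := by
  unfold dp_d_6 at h
  rcases brec_true h with h | h
  · exact dp_d_3_s hinv hr hH j u hu h
  · exact dp_d_5_s hinv hr hH j u hu h
theorem dp_d_7_s (hinv : ∀ x, g (inv x) = (g x)⁻¹) (hr : ∀ r ∈ rels, (r.map g).prod = 1) (hH : ∀ r ∈ subs, (r.map g).prod ∈ H)
    (j u : ℕ) (hu : u < M) (h : dp_d_7 j u = true) : Good (fa g) T MG M (cP g H) Lt.d u := by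
  unfold dp_d_7 at h
  rcases brec_true h with h | h
  · exact lS_good (T := T) (x := Lt.d) (by decide) hu [Lt.c, Lt.d, Lt.c, Lt.a, Lt.d, Lt.c, Lt.d, Lt.c] (hole_rel hinv hr (by decide +kernel)) h
  · exact lS_good (T := T) (x := Lt.d) (by decide) hu [Lt.c, Lt.b, Lt.a, Lt.v, Lt.f, Lt.b, Lt.c, Lt.d, Lt.c, Lt.b, Lt.f, Lt.a, Lt.b, Lt.c, Lt.d, Lt.f, Lt.b, Lt.c, Lt.d, Lt.c, Lt.b, Lt.f, Lt.v] (hole_rel hinv hr (by decide +kernel)) h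
theorem dp_d_8_s (hinv : ∀ x, g (inv x) = (g x)⁻¹) (hr : ∀ r ∈ rels, (r.map g).prod = 1) (hH : ∀ r ∈ subs, (r.map g).prod ∈ H)
    (j u : ℕ) (hu : u < M) (h : dp_d_8 j u = true) : Good (fa g) T MG M (cP g H) Lt.d u := by
  unfold dp_d_8 at h
  rcases brec_true h with h | h
  · exact lF_good (T := T) (x := Lt.d) (by decide) [Lt.c, Lt.d, Lt.c, Lt.a, Lt.d, Lt.c, Lt.d, Lt.c] (hole_rel hinv hr (by decide +kernel)) h
  · exact lF_good (T := T) (x := Lt.d) (by decide) [Lt.c, Lt.d, Lt.c, Lt.d, Lt.c, Lt.d, Lt.c, Lt.a] (hole_rel hinv hr (by decide +kernel)) h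
theorem dp_d_9_s (hinv : ∀ x, g (inv x) = (g x)⁻¹) (hr : ∀ r ∈ rels, (r.map g).prod = 1) (hH : ∀ r ∈ subs, (r.map g).prod ∈ H)
    (j u : ℕ) (hu : u < M) (h : dp_d_9 j u = true) : Good (fa g) T MG M (cP g H) Lt.d u := by
  unfold dp_d_9 at h
  rcases brec_true h with h | h
  · exact dp_d_7_s hinv hr hH j u hu h
  · exact dp_d_8_s hinv hr hH j u hu h
theorem dp_d_10_s (hinv : ∀ x, g (inv x) = (g x)⁻¹) (hr : ∀ r ∈ rels, (r.map g).prod = 1) (hH : ∀ r ∈ subs, (r.map g).prod ∈ H)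
    (j u : ℕ) (hu : u < M) (h : dp_d_10 j u = true) : Good (fa g) T MG M (cP g H) Lt.d u := by
  unfold dp_d_10 at h
  rcases brec_true h with h | h
  · exact lF_good (T := T) (x := Lt.d) (by decide) [Lt.c, Lt.a, Lt.d, Lt.c, Lt.d, Lt.c, Lt.d, Lt.c] (hole_rel hinv hr (by decide +kernel)) h
  · exact lF_good (T := T) (x := Lt.d) (by decide) [Lt.c, Lt.d, Lt.c, Lt.d, Lt.c, Lt.a, Lt.d, Lt.c] (hole_rel hinv hr (by decide +kernel)) h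
theorem dp_d_11_s (hinv : ∀ x, g (inv x) = (g x)⁻¹) (hr : ∀ r ∈ rels, (r.map g).prod = 1) (hH : ∀ r ∈ subs, (r.map g).prod ∈ H)
    (j u : ℕ) (hu : u < M) (h : dp_d_11 j u = true) : Good (fa g) T MG M (cP g H) Lt.d u := by
  unfold dp_d_11 at h
  rcases brec_true h with h | h
  · exact lS_good (T := T) (x := Lt.d) (by decide) hu [Lt.c, Lt.d, Lt.c, Lt.d, Lt.c, Lt.a, Lt.d, Lt.c] (hole_rel hinv hr (by decide +kernel)) h
  · exact dp_d_10_s hinv hr hH j u hu h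
theorem dp_d_12_s (hinv : ∀ x, g (inv x) = (g x)⁻¹) (hr : ∀ r ∈ rels, (r.map g).prod = 1) (hH : ∀ r ∈ subs, (r.map g).prod ∈ H)
    (j u : ℕ) (hu : u < M) (h : dp_d_12 j u = true) : Good (fa g) T MG M (cP g H) Lt.d u := by
  unfold dp_d_12 at h
  rcases brec_true h with h | h
  · exact lS_good (T := T) (x := Lt.d) (by decide) hu [Lt.c, Lt.b, Lt.f, Lt.v, Lt.f, Lt.b, Lt.c, Lt.d, Lt.c, Lt.b, Lt.f, Lt.v, Lt.f, Lt.b, Lt.c, Lt.d, Lt.c, Lt.b, Lt.f, Lt.v, Lt.f, Lt.b, Lt.c] (hole_rel hinv hr (by decide +kernel)) h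
  · exact dp_d_11_s hinv hr hH j u hu h
theorem dp_d_13_s (hinv : ∀ x, g (inv x) = (g x)⁻¹) (hr : ∀ r ∈ rels, (r.map g).prod = 1) (hH : ∀ r ∈ subs, (r.map g).prod ∈ H)
    (j u : ℕ) (hu : u < M) (h : dp_d_13 j u = true) : Good (fa g) T MG M (cP g H) Lt.d u := by
  unfold dp_d_13 at h
  rcases brec_true h with h | h
  · exact lF_good (T := T) (x := Lt.d) (by decide) [Lt.c, Lt.b, Lt.f, Lt.e, Lt.v, Lt.f, Lt.b, Lt.c, Lt.d, Lt.c, Lt.b, Lt.f, Lt.e, Lt.f, Lt.b, Lt.c, Lt.d, Lt.c, Lt.b, Lt.f, Lt.v, Lt.f, Lt.e, Lt.b, Lt.c] (hole_rel hinv hr (by decide +kernel)) h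
  · exact lS_good (T := T) (x := Lt.d) (by decide) hu [Lt.c, Lt.b, Lt.f, Lt.d, Lt.c, Lt.b, Lt.a, Lt.f, Lt.b, Lt.c, Lt.d, Lt.c, Lt.b, Lt.f, Lt.v, Lt.a, Lt.b, Lt.c, Lt.d, Lt.v, Lt.f, Lt.b, Lt.c] (hole_rel hinv hr (by decide +kernel)) h
theorem dp_d_14_s (hinv : ∀ x, g (inv x) = (g x)⁻¹) (hr : ∀ r ∈ rels, (r.map g).prod = 1) (hH : ∀ r ∈ subs, (r.map g).prod ∈ H)
    (j u : ℕ) (hu : u < M) (h : dp_d_14 j u = true) : Good (fa g) T MG M (cP g H) Lt.d u := by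
  unfold dp_d_14 at h
  rcases brec_true h with h | h
  · exact lS_good (T := T) (x := Lt.d) (by decide) hu [Lt.c, Lt.b, Lt.f, Lt.v, Lt.d, Lt.c, Lt.b, Lt.a, Lt.v, Lt.f, Lt.b, Lt.c, Lt.d, Lt.c, Lt.b, Lt.f, Lt.a, Lt.b, Lt.c, Lt.d, Lt.f, Lt.b, Lt.c] (hole_rel hinv hr (by decide +kernel)) h
  · exact lS_good (T := T) (x := Lt.d) (by decide) hu [Lt.a, Lt.c, Lt.d, Lt.c, Lt.d, Lt.c, Lt.d, Lt.c] (hole_rel hinv hr (by decide +kernel)) h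
theorem dp_d_15_s (hinv : ∀ x, g (inv x) = (g x)⁻¹) (hr : ∀ r ∈ rels, (r.map g).prod = 1) (hH : ∀ r ∈ subs, (r.map g).prod ∈ H)
    (j u : ℕ) (hu : u < M) (h : dp_d_15 j u = true) : Good (fa g) T MG M (cP g H) Lt.d u := by
  unfold dp_d_15 at h
  rcases brec_true h with h | h
  · exact dp_d_13_s hinv hr hH j u hu h
  · exact dp_d_14_s hinv hr hH j u hu h
theorem dp_d_16_s (hinv : ∀ x, g (inv x) = (g x)⁻¹) (hr : ∀ r ∈ rels, (r.map g).prod = 1) (hH : ∀ r ∈ subs, (r.map g).prod ∈ H)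
    (j u : ℕ) (hu : u < M) (h : dp_d_16 j u = true) : Good (fa g) T MG M (cP g H) Lt.d u := by
  unfold dp_d_16 at h
  rcases brec_true h with h | h
  · exact lS_good (T := T) (x := Lt.d) (by decide) hu [Lt.f, Lt.b, Lt.c, Lt.d, Lt.c, Lt.b, Lt.f, Lt.v, Lt.d, Lt.c, Lt.b, Lt.a, Lt.v, Lt.f, Lt.b, Lt.c, Lt.d, Lt.c, Lt.b, Lt.f, Lt.a, Lt.b, Lt.c] (hole_rel hinv hr (by decide +kernel)) h
  · exact lH_good (T := T) (x := Lt.d) (by decide) [] [] (by rw [show cP g H 0 = _ from cc_zero]; exact sub_rel hinv (hH _ (by decide))) h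
theorem dp_d_17_s (hinv : ∀ x, g (inv x) = (g x)⁻¹) (hr : ∀ r ∈ rels, (r.map g).prod = 1) (hH : ∀ r ∈ subs, (r.map g).prod ∈ H)
    (j u : ℕ) (hu : u < M) (h : dp_d_17 j u = true) : Good (fa g) T MG M (cP g H) Lt.d u := by
  unfold dp_d_17 at h
  rcases brec_true h with h | h
  · exact lS_good (T := T) (x := Lt.d) (by decide) hu [Lt.c, Lt.d, Lt.c, Lt.d, Lt.c, Lt.d, Lt.a, Lt.c] (hole_rel hinv hr (by decide +kernel)) h
  · exact dp_d_16_s hinv hr hH j u hu h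
theorem dp_d_18_s (hinv : ∀ x, g (inv x) = (g x)⁻¹) (hr : ∀ r ∈ rels, (r.map g).prod = 1) (hH : ∀ r ∈ subs, (r.map g).prod ∈ H)
    (j u : ℕ) (hu : u < M) (h : dp_d_18 j u = true) : Good (fa g) T MG M (cP g H) Lt.d u := by
  unfold dp_d_18 at h
  rcases brec_true h with h | h
  · exact lS_good (T := T) (x := Lt.d) (by decide) hu [Lt.c, Lt.b, Lt.f, Lt.e, Lt.v, Lt.f, Lt.b, Lt.c, Lt.d, Lt.c, Lt.b, Lt.f, Lt.e, Lt.f, Lt.b, Lt.c, Lt.d, Lt.c, Lt.b, Lt.f, Lt.v, Lt.f, Lt.e, Lt.b, Lt.c] (hole_rel hinv hr (by decide +kernel)) h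
  · exact lS_good (T := T) (x := Lt.d) (by decide) hu [Lt.c, Lt.b, Lt.f, Lt.v, Lt.c, Lt.v, Lt.f, Lt.b, Lt.c, Lt.d, Lt.c, Lt.b, Lt.f, Lt.c, Lt.f, Lt.b, Lt.c] (hole_rel hinv hr (by decide +kernel)) h
theorem dp_d_19_s (hinv : ∀ x, g (inv x) = (g x)⁻¹) (hr : ∀ r ∈ rels, (r.map g).prod = 1) (hH : ∀ r ∈ subs, (r.map g).prod ∈ H)
    (j u : ℕ) (hu : u < M) (h : dp_d_19 j u = true) : Good (fa g) T MG M (cP g H) Lt.d u := by
  unfold dp_d_19 at h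
  rcases brec_true h with h | h
  · exact lS_good (T := T) (x := Lt.d) (by decide) hu [Lt.c, Lt.d, Lt.a, Lt.c, Lt.d, Lt.c, Lt.d, Lt.c] (hole_rel hinv hr (by decide +kernel)) h
  · exact lS_good (T := T) (x := Lt.d) (by decide) hu [Lt.c, Lt.b, Lt.f, Lt.v, Lt.a, Lt.b, Lt.c, Lt.d, Lt.v, Lt.f, Lt.b, Lt.c, Lt.d, Lt.c, Lt.b, Lt.f, Lt.d, Lt.c, Lt.b, Lt.a, Lt.f, Lt.b, Lt.c] (hole_rel hinv hr (by decide +kernel)) h
theorem dp_d_20_s (hinv : ∀ x, g (inv x) = (g x)⁻¹) (hr : ∀ r ∈ rels, (r.map g).prod = 1) (hH : ∀ r ∈ subs, (r.map g).prod ∈ H)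
    (j u : ℕ) (hu : u < M) (h : dp_d_20 j u = true) : Good (fa g) T MG M (cP g H) Lt.d u := by
  unfold dp_d_20 at h
  rcases brec_true h with h | h
  · exact lF_good (T := T) (x := Lt.d) (by decide) [Lt.c, Lt.d, Lt.a, Lt.c, Lt.d, Lt.c, Lt.d, Lt.c] (hole_rel hinv hr (by decide +kernel)) h
  · exact dp_d_19_s hinv hr hH j u hu h
theorem dp_d_21_s (hinv : ∀ x, g (inv x) = (g x)⁻¹) (hr : ∀ r ∈ rels, (r.map g).prod = 1) (hH : ∀ r ∈ subs, (r.map g).prod ∈ H)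
    (j u : ℕ) (hu : u < M) (h : dp_d_21 j u = true) : Good (fa g) T MG M (cP g H) Lt.d u := by
  unfold dp_d_21 at h
  rcases brec_true h with h | h
  · exact dp_d_18_s hinv hr hH j u hu h
  · exact dp_d_20_s hinv hr hH j u hu h
theorem dp_d_22_s (hinv : ∀ x, g (inv x) = (g x)⁻¹) (hr : ∀ r ∈ rels, (r.map g).prod = 1) (hH : ∀ r ∈ subs, (r.map g).prod ∈ H)
    (j u : ℕ) (hu : u < M) (h : dp_d_22 j u = true) : Good (fa g) T MG M (cP g H) Lt.d u := by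
  unfold dp_d_22 at h
  rcases brec_true h with h | h
  · exact dp_d_17_s hinv hr hH j u hu h
  · exact dp_d_21_s hinv hr hH j u hu h
theorem dp_d_23_s (hinv : ∀ x, g (inv x) = (g x)⁻¹) (hr : ∀ r ∈ rels, (r.map g).prod = 1) (hH : ∀ r ∈ subs, (r.map g).prod ∈ H)
    (j u : ℕ) (hu : u < M) (h : dp_d_23 j u = true) : Good (fa g) T MG M (cP g H) Lt.d u := by
  unfold dp_d_23 at h
  rcases brec_true h with h | h
  · exact dp_d_15_s hinv hr hH j u hu h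
  · exact dp_d_22_s hinv hr hH j u hu h
theorem dp_d_24_s (hinv : ∀ x, g (inv x) = (g x)⁻¹) (hr : ∀ r ∈ rels, (r.map g).prod = 1) (hH : ∀ r ∈ subs, (r.map g).prod ∈ H)
    (j u : ℕ) (hu : u < M) (h : dp_d_24 j u = true) : Good (fa g) T MG M (cP g H) Lt.d u := by
  unfold dp_d_24 at h
  rcases brec_true h with h | h
  · exact dp_d_12_s hinv hr hH j u hu h
  · exact dp_d_23_s hinv hr hH j u hu h
theorem dp_d_25_s (hinv : ∀ x, g (inv x) = (g x)⁻¹) (hr : ∀ r ∈ rels, (r.map g).prod = 1) (hH : ∀ r ∈ subs, (r.map g).prod ∈ H)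
    (j u : ℕ) (hu : u < M) (h : dp_d_25 j u = true) : Good (fa g) T MG M (cP g H) Lt.d u := by
  unfold dp_d_25 at h
  rcases brec_true h with h | h
  · exact dp_d_9_s hinv hr hH j u hu h
  · exact dp_d_24_s hinv hr hH j u hu h
theorem dp_d_26_s (hinv : ∀ x, g (inv x) = (g x)⁻¹) (hr : ∀ r ∈ rels, (r.map g).prod = 1) (hH : ∀ r ∈ subs, (r.map g).prod ∈ H)
    (j u : ℕ) (hu : u < M) (h : dp_d_26 j u = true) : Good (fa g) T MG M (cP g H) Lt.d u := by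
  unfold dp_d_26 at h
  rcases brec_true h with h | h
  · exact dp_d_6_s hinv hr hH j u hu h
  · exact dp_d_25_s hinv hr hH j u hu h
theorem dp_d_27_s (hinv : ∀ x, g (inv x) = (g x)⁻¹) (hr : ∀ r ∈ rels, (r.map g).prod = 1) (hH : ∀ r ∈ subs, (r.map g).prod ∈ H)
    (j u : ℕ) (hu : u < M) (h : dp_d_27 j u = true) : Good (fa g) T MG M (cP g H) Lt.d u := by
  unfold dp_d_27 at h
  rcases brec_true h with h | h
  · exact dp_d_2_s hinv hr hH j u hu h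
  · exact dp_d_26_s hinv hr hH j u hu h
theorem dp_d_28_s (hinv : ∀ x, g (inv x) = (g x)⁻¹) (hr : ∀ r ∈ rels, (r.map g).prod = 1) (hH : ∀ r ∈ subs, (r.map g).prod ∈ H)
    (j u : ℕ) (hu : u < M) (h : dp_d_28 j u = true) : Good (fa g) T MG M (cP g H) Lt.d u := by
  unfold dp_d_28 at h
  rcases brec_true h with h | h
  · exact dp_d_0_s hinv hr hH j u hu h
  · exact dp_d_27_s hinv hr hH j u hu h
theorem dp_d_29_s (hinv : ∀ x, g (inv x) = (g x)⁻¹) (hr : ∀ r ∈ rels, (r.map g).prod = 1) (hH : ∀ r ∈ subs, (r.map g).prod ∈ H)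
    (j u : ℕ) (hu : u < M) (h : dp_d_29 j u = true) : Good (fa g) T MG M (cP g H) Lt.d u := by
  unfold dp_d_29 at h
  rcases brec_true h with h | h
  · exact lS_good (T := T) (x := Lt.d) (by decide) hu [Lt.d] (hole_rel hinv hr (by decide +kernel)) h
  · exact dp_d_28_s hinv hr hH j u hu h
theorem dp_d_30_s (hinv : ∀ x, g (inv x) = (g x)⁻¹) (hr : ∀ r ∈ rels, (r.map g).prod = 1) (hH : ∀ r ∈ subs, (r.map g).prod ∈ H)
    (j u : ℕ) (hu : u < M) (h : dp_d_30 j u = true) : Good (fa g) T MG M (cP g H) Lt.d u := by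
  unfold dp_d_30 at h
  rcases brec_true h with h | h
  · rcases brec_true h with h | h
    · exact lF3_good (T := T) (x := Lt.d) (by decide) .f .d .f (hole_rel hinv hr (by decide +kernel)) h
    · exact lF3_good (T := T) (x := Lt.d) (by decide) .b .d .b (hole_rel hinv hr (by decide +kernel)) h
  · exact dp_d_29_s hinv hr hH j u hu h
theorem dp_d_31_s (hinv : ∀ x, g (inv x) = (g x)⁻¹) (hr : ∀ r ∈ rels, (r.map g).prod = 1) (hH : ∀ r ∈ subs, (r.map g).prod ∈ H)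
    (j u : ℕ) (hu : u < M) (h : dp_d_31 j u = true) : Good (fa g) T MG M (cP g H) Lt.d u := by
  unfold dp_d_31 at h
  rcases brec_true h with h | h
  · exact lF1_good (T := T) (x := Lt.d) (by decide) .d (hole_rel hinv hr (by decide +kernel)) h
  · exact dp_d_30_s hinv hr hH j u hu h
theorem snd_d (hinv : ∀ x, g (inv x) = (g x)⁻¹) (hr : ∀ r ∈ rels, (r.map g).prod = 1) (hH : ∀ r ∈ subs, (r.map g).prod ∈ H)
    (j u : ℕ) (hu : u < M) (h : disp_d j u = true) : Good (fa g) T MG M (cP g H) Lt.d u := by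
  unfold disp_d at h
  rcases brec_true h with h | h
  · rcases brec_true h with h | h
    · exact lDef_good (T := T) (x := Lt.d) (by decide) rfl h
    · exact lPar_good (T := T) (x := Lt.d) (x' := Lt.d) (by decide) rfl (inv_rel hinv _ _ rfl) h
  · exact dp_d_31_s hinv hr hH j u hu h
theorem snc_d (hinv : ∀ x, g (inv x) = (g x)⁻¹) (hr : ∀ r ∈ rels, (r.map g).prod = 1) (hH : ∀ r ∈ subs, (r.map g).prod ∈ H)
    (j u : ℕ) (hu : u < M) (h : chk_d j u = true) : (T Lt.d u < A ∧ Good (fa g) T MG M (cP g H) Lt.d u) ∨ (A ≤ T Lt.d u ∧ MG u < A) := by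
  unfold chk_d at h
  cases hb : Nat.ble A (T_d u) with
  | true => rw [hb] at h; exact Or.inr ⟨le_of_ble hb, le_of_ble h⟩
  | false => rw [hb] at h; exact Or.inl ⟨lt_of_ble_false hb, snd_d hinv hr hH j u hu h⟩
theorem dp_e_0_s (hinv : ∀ x, g (inv x) = (g x)⁻¹) (hr : ∀ r ∈ rels, (r.map g).prod = 1) (hH : ∀ r ∈ subs, (r.map g).prod ∈ H)
    (j u : ℕ) (hu : u < M) (h : dp_e_0 j u = true) : Good (fa g) T MG M (cP g H) Lt.e u := by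
  unfold dp_e_0 at h
  rcases brec_true h with h | h
  · exact lF3_good (T := T) (x := Lt.e) (by decide) .b .e .b (hole_rel hinv hr (by decide +kernel)) h
  · exact lS_good (T := T) (x := Lt.e) (by decide) hu [Lt.e] (hole_rel hinv hr (by decide +kernel)) h
theorem dp_e_1_s (hinv : ∀ x, g (inv x) = (g x)⁻¹) (hr : ∀ r ∈ rels, (r.map g).prod = 1) (hH : ∀ r ∈ subs, (r.map g).prod ∈ H)
    (j u : ℕ) (hu : u < M) (h : dp_e_1 j u = true) : Good (fa g) T MG M (cP g H) Lt.e u := by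
  unfold dp_e_1 at h
  rcases brec_true h with h | h
  · exact lF3_good (T := T) (x := Lt.e) (by decide) .c .e .c (hole_rel hinv hr (by decide +kernel)) h
  · exact lF3_good (T := T) (x := Lt.e) (by decide) .a .e .a (hole_rel hinv hr (by decide +kernel)) h
theorem dp_e_2_s (hinv : ∀ x, g (inv x) = (g x)⁻¹) (hr : ∀ r ∈ rels, (r.map g).prod = 1) (hH : ∀ r ∈ subs, (r.map g).prod ∈ H)
    (j u : ℕ) (hu : u < M) (h : dp_e_2 j u = true) : Good (fa g) T MG M (cP g H) Lt.e u := by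
  unfold dp_e_2 at h
  rcases brec_true h with h | h
  · exact lF_good (T := T) (x := Lt.e) (by decide) [Lt.d, Lt.e, Lt.d, Lt.e, Lt.d] (hole_rel hinv hr (by decide +kernel)) h
  · exact lS_good (T := T) (x := Lt.e) (by decide) hu [Lt.b, Lt.e, Lt.b] (hole_rel hinv hr (by decide +kernel)) h
theorem dp_e_3_s (hinv : ∀ x, g (inv x) = (g x)⁻¹) (hr : ∀ r ∈ rels, (r.map g).prod = 1) (hH : ∀ r ∈ subs, (r.map g).prod ∈ H)
    (j u : ℕ) (hu : u < M) (h : dp_e_3 j u = true) : Good (fa g) T MG M (cP g H) Lt.e u := by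
  unfold dp_e_3 at h
  rcases brec_true h with h | h
  · exact lH_good (T := T) (x := Lt.e) (by decide) [] [] (by rw [show cP g H 0 = _ from cc_zero]; exact sub_rel hinv (hH _ (by decide))) h
  · exact lF_good (T := T) (x := Lt.e) (by decide) [Lt.f, Lt.b, Lt.c, Lt.d, Lt.c, Lt.b, Lt.f, Lt.v, Lt.f, Lt.e, Lt.b, Lt.c, Lt.d, Lt.c, Lt.b, Lt.f, Lt.e, Lt.v, Lt.f, Lt.b, Lt.c, Lt.d, Lt.c, Lt.b, Lt.f] (hole_rel hinv hr (by decide +kernel)) h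
theorem dp_e_4_s (hinv : ∀ x, g (inv x) = (g x)⁻¹) (hr : ∀ r ∈ rels, (r.map g).prod = 1) (hH : ∀ r ∈ subs, (r.map g).prod ∈ H)
    (j u : ℕ) (hu : u < M) (h : dp_e_4 j u = true) : Good (fa g) T MG M (cP g H) Lt.e u := by
  unfold dp_e_4 at h
  rcases brec_true h with h | h
  · exact lS_good (T := T) (x := Lt.e) (by decide) hu [Lt.d, Lt.e, Lt.d, Lt.e, Lt.d] (hole_rel hinv hr (by decide +kernel)) h
  · exact dp_e_3_s hinv hr hH j u hu h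
theorem dp_e_5_s (hinv : ∀ x, g (inv x) = (g x)⁻¹) (hr : ∀ r ∈ rels, (r.map g).prod = 1) (hH : ∀ r ∈ subs, (r.map g).prod ∈ H)
    (j u : ℕ) (hu : u < M) (h : dp_e_5 j u = true) : Good (fa g) T MG M (cP g H) Lt.e u := by
  unfold dp_e_5 at h
  rcases brec_true h with h | h
  · exact lS_good (T := T) (x := Lt.e) (by decide) hu [Lt.c, Lt.e, Lt.c] (hole_rel hinv hr (by decide +kernel)) h
  · exact dp_e_4_s hinv hr hH j u hu h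
theorem dp_e_6_s (hinv : ∀ x, g (inv x) = (g x)⁻¹) (hr : ∀ r ∈ rels, (r.map g).prod = 1) (hH : ∀ r ∈ subs, (r.map g).prod ∈ H)
    (j u : ℕ) (hu : u < M) (h : dp_e_6 j u = true) : Good (fa g) T MG M (cP g H) Lt.e u := by
  unfold dp_e_6 at h
  rcases brec_true h with h | h
  · exact lS_good (T := T) (x := Lt.e) (by decide) hu [Lt.a, Lt.e, Lt.a] (hole_rel hinv hr (by decide +kernel)) h
  · exact dp_e_5_s hinv hr hH j u hu h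
theorem dp_e_7_s (hinv : ∀ x, g (inv x) = (g x)⁻¹) (hr : ∀ r ∈ rels, (r.map g).prod = 1) (hH : ∀ r ∈ subs, (r.map g).prod ∈ H)
    (j u : ℕ) (hu : u < M) (h : dp_e_7 j u = true) : Good (fa g) T MG M (cP g H) Lt.e u := by
  unfold dp_e_7 at h
  rcases brec_true h with h | h
  · exact lS_good (T := T) (x := Lt.e) (by decide) hu [Lt.f, Lt.e, Lt.f] (hole_rel hinv hr (by decide +kernel)) h
  · exact dp_e_6_s hinv hr hH j u hu h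
theorem dp_e_8_s (hinv : ∀ x, g (inv x) = (g x)⁻¹) (hr : ∀ r ∈ rels, (r.map g).prod = 1) (hH : ∀ r ∈ subs, (r.map g).prod ∈ H)
    (j u : ℕ) (hu : u < M) (h : dp_e_8 j u = true) : Good (fa g) T MG M (cP g H) Lt.e u := by
  unfold dp_e_8 at h
  rcases brec_true h with h | h
  · exact dp_e_2_s hinv hr hH j u hu h
  · exact dp_e_7_s hinv hr hH j u hu h
theorem dp_e_9_s (hinv : ∀ x, g (inv x) = (g x)⁻¹) (hr : ∀ r ∈ rels, (r.map g).prod = 1) (hH : ∀ r ∈ subs, (r.map g).prod ∈ H)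
    (j u : ℕ) (hu : u < M) (h : dp_e_9 j u = true) : Good (fa g) T MG M (cP g H) Lt.e u := by
  unfold dp_e_9 at h
  rcases brec_true h with h | h
  · exact dp_e_1_s hinv hr hH j u hu h
  · exact dp_e_8_s hinv hr hH j u hu h
theorem dp_e_10_s (hinv : ∀ x, g (inv x) = (g x)⁻¹) (hr : ∀ r ∈ rels, (r.map g).prod = 1) (hH : ∀ r ∈ subs, (r.map g).prod ∈ H)
    (j u : ℕ) (hu : u < M) (h : dp_e_10 j u = true) : Good (fa g) T MG M (cP g H) Lt.e u := by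
  unfold dp_e_10 at h
  rcases brec_true h with h | h
  · exact dp_e_0_s hinv hr hH j u hu h
  · exact dp_e_9_s hinv hr hH j u hu h
theorem dp_e_11_s (hinv : ∀ x, g (inv x) = (g x)⁻¹) (hr : ∀ r ∈ rels, (r.map g).prod = 1) (hH : ∀ r ∈ subs, (r.map g).prod ∈ H)
    (j u : ℕ) (hu : u < M) (h : dp_e_11 j u = true) : Good (fa g) T MG M (cP g H) Lt.e u := by
  unfold dp_e_11 at h
  rcases brec_true h with h | h
  · rcases brec_true h with h | h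
    · exact lF1_good (T := T) (x := Lt.e) (by decide) .e (hole_rel hinv hr (by decide +kernel)) h
    · exact lF3_good (T := T) (x := Lt.e) (by decide) .f .e .f (hole_rel hinv hr (by decide +kernel)) h
  · exact dp_e_10_s hinv hr hH j u hu h
theorem snd_e (hinv : ∀ x, g (inv x) = (g x)⁻¹) (hr : ∀ r ∈ rels, (r.map g).prod = 1) (hH : ∀ r ∈ subs, (r.map g).prod ∈ H)
    (j u : ℕ) (hu : u < M) (h : disp_e j u = true) : Good (fa g) T MG M (cP g H) Lt.e u := by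
  unfold disp_e at h
  rcases brec_true h with h | h
  · rcases brec_true h with h | h
    · exact lDef_good (T := T) (x := Lt.e) (by decide) rfl h
    · exact lPar_good (T := T) (x := Lt.e) (x' := Lt.e) (by decide) rfl (inv_rel hinv _ _ rfl) h
  · exact dp_e_11_s hinv hr hH j u hu h
theorem snc_e (hinv : ∀ x, g (inv x) = (g x)⁻¹) (hr : ∀ r ∈ rels, (r.map g).prod = 1) (hH : ∀ r ∈ subs, (r.map g).prod ∈ H)
    (j u : ℕ) (hu : u < M) (h : chk_e j u = true) : (T Lt.e u < A ∧ Good (fa g) T MG M (cP g H) Lt.e u) ∨ (A ≤ T Lt.e u ∧ MG u < A) := by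
  unfold chk_e at h
  cases hb : Nat.ble A (T_e u) with
  | true => rw [hb] at h; exact Or.inr ⟨le_of_ble hb, le_of_ble h⟩
  | false => rw [hb] at h; exact Or.inl ⟨lt_of_ble_false hb, snd_e hinv hr hH j u hu h⟩
theorem dp_f_0_s (hinv : ∀ x, g (inv x) = (g x)⁻¹) (hr : ∀ r ∈ rels, (r.map g).prod = 1) (hH : ∀ r ∈ subs, (r.map g).prod ∈ H)
    (j u : ℕ) (hu : u < M) (h : dp_f_0 j u = true) : Good (fa g) T MG M (cP g H) Lt.f u := by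
  unfold dp_f_0 at h
  rcases brec_true h with h | h
  · exact lF3_good (T := T) (x := Lt.f) (by decide) .d .f .d (hole_rel hinv hr (by decide +kernel)) h
  · exact lF3_good (T := T) (x := Lt.f) (by decide) .a .f .a (hole_rel hinv hr (by decide +kernel)) h
theorem dp_f_1_s (hinv : ∀ x, g (inv x) = (g x)⁻¹) (hr : ∀ r ∈ rels, (r.map g).prod = 1) (hH : ∀ r ∈ subs, (r.map g).prod ∈ H)
    (j u : ℕ) (hu : u < M) (h : dp_f_1 j u = true) : Good (fa g) T MG M (cP g H) Lt.f u := by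
  unfold dp_f_1 at h
  rcases brec_true h with h | h
  · exact lF3_good (T := T) (x := Lt.f) (by decide) .c .f .c (hole_rel hinv hr (by decide +kernel)) h
  · exact dp_f_0_s hinv hr hH j u hu h
theorem dp_f_2_s (hinv : ∀ x, g (inv x) = (g x)⁻¹) (hr : ∀ r ∈ rels, (r.map g).prod = 1) (hH : ∀ r ∈ subs, (r.map g).prod ∈ H)
    (j u : ℕ) (hu : u < M) (h : dp_f_2 j u = true) : Good (fa g) T MG M (cP g H) Lt.f u := by
  unfold dp_f_2 at h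
  rcases brec_true h with h | h
  · exact lF_good (T := T) (x := Lt.f) (by decide) [Lt.b, Lt.f, Lt.b, Lt.f, Lt.b] (hole_rel hinv hr (by decide +kernel)) h
  · exact lF3_good (T := T) (x := Lt.f) (by decide) .e .f .e (hole_rel hinv hr (by decide +kernel)) h
theorem dp_f_3_s (hinv : ∀ x, g (inv x) = (g x)⁻¹) (hr : ∀ r ∈ rels, (r.map g).prod = 1) (hH : ∀ r ∈ subs, (r.map g).prod ∈ H)
    (j u : ℕ) (hu : u < M) (h : dp_f_3 j u = true) : Good (fa g) T MG M (cP g H) Lt.f u := by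
  unfold dp_f_3 at h
  rcases brec_true h with h | h
  · exact lS_good (T := T) (x := Lt.f) (by decide) hu [Lt.c, Lt.f, Lt.c] (hole_rel hinv hr (by decide +kernel)) h
  · exact lS_good (T := T) (x := Lt.f) (by decide) hu [Lt.e, Lt.f, Lt.e] (hole_rel hinv hr (by decide +kernel)) h
theorem dp_f_4_s (hinv : ∀ x, g (inv x) = (g x)⁻¹) (hr : ∀ r ∈ rels, (r.map g).prod = 1) (hH : ∀ r ∈ subs, (r.map g).prod ∈ H)
    (j u : ℕ) (hu : u < M) (h : dp_f_4 j u = true) : Good (fa g) T MG M (cP g H) Lt.f u := by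
  unfold dp_f_4 at h
  rcases brec_true h with h | h
  · exact lS_good (T := T) (x := Lt.f) (by decide) hu [Lt.d, Lt.f, Lt.d] (hole_rel hinv hr (by decide +kernel)) h
  · exact dp_f_3_s hinv hr hH j u hu h
theorem dp_f_5_s (hinv : ∀ x, g (inv x) = (g x)⁻¹) (hr : ∀ r ∈ rels, (r.map g).prod = 1) (hH : ∀ r ∈ subs, (r.map g).prod ∈ H)
    (j u : ℕ) (hu : u < M) (h : dp_f_5 j u = true) : Good (fa g) T MG M (cP g H) Lt.f u := by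
  unfold dp_f_5 at h
  rcases brec_true h with h | h
  · exact lS_good (T := T) (x := Lt.f) (by decide) hu [Lt.b, Lt.f, Lt.b, Lt.f, Lt.b] (hole_rel hinv hr (by decide +kernel)) h
  · exact lS_good (T := T) (x := Lt.f) (by decide) hu [Lt.a, Lt.f, Lt.a] (hole_rel hinv hr (by decide +kernel)) h
theorem dp_f_6_s (hinv : ∀ x, g (inv x) = (g x)⁻¹) (hr : ∀ r ∈ rels, (r.map g).prod = 1) (hH : ∀ r ∈ subs, (r.map g).prod ∈ H)
    (j u : ℕ) (hu : u < M) (h : dp_f_6 j u = true) : Good (fa g) T MG M (cP g H) Lt.f u := by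
  unfold dp_f_6 at h
  rcases brec_true h with h | h
  · exact lS_good (T := T) (x := Lt.f) (by decide) hu [Lt.v, Lt.b, Lt.v, Lt.f, Lt.b, Lt.c, Lt.d, Lt.c, Lt.b, Lt.f, Lt.b, Lt.f, Lt.b, Lt.c, Lt.d, Lt.c, Lt.b] (hole_rel hinv hr (by decide +kernel)) h
  · exact lS_good (T := T) (x := Lt.f) (by decide) hu [Lt.v, Lt.c, Lt.v, Lt.f, Lt.b, Lt.c, Lt.d, Lt.c, Lt.b, Lt.f, Lt.c, Lt.f, Lt.b, Lt.c, Lt.d, Lt.c, Lt.b] (hole_rel hinv hr (by decide +kernel)) h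
theorem dp_f_7_s (hinv : ∀ x, g (inv x) = (g x)⁻¹) (hr : ∀ r ∈ rels, (r.map g).prod = 1) (hH : ∀ r ∈ subs, (r.map g).prod ∈ H)
    (j u : ℕ) (hu : u < M) (h : dp_f_7 j u = true) : Good (fa g) T MG M (cP g H) Lt.f u := by
  unfold dp_f_7 at h
  rcases brec_true h with h | h
  · exact lS_good (T := T) (x := Lt.f) (by decide) hu [Lt.v, Lt.d, Lt.c, Lt.b, Lt.a, Lt.v, Lt.f, Lt.b, Lt.c, Lt.d, Lt.c, Lt.b, Lt.f, Lt.a, Lt.b, Lt.c, Lt.d, Lt.f, Lt.b, Lt.c, Lt.d, Lt.c, Lt.b] (hole_rel hinv hr (by decide +kernel)) h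
  · exact lS_good (T := T) (x := Lt.f) (by decide) hu [Lt.b, Lt.c, Lt.d, Lt.c, Lt.b, Lt.f, Lt.b, Lt.f, Lt.b, Lt.c, Lt.d, Lt.c, Lt.b, Lt.f, Lt.v, Lt.b, Lt.v] (hole_rel hinv hr (by decide +kernel)) h
theorem dp_f_8_s (hinv : ∀ x, g (inv x) = (g x)⁻¹) (hr : ∀ r ∈ rels, (r.map g).prod = 1) (hH : ∀ r ∈ subs, (r.map g).prod ∈ H)
    (j u : ℕ) (hu : u < M) (h : dp_f_8 j u = true) : Good (fa g) T MG M (cP g H) Lt.f u := by
  unfold dp_f_8 at h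
  rcases brec_true h with h | h
  · exact dp_f_6_s hinv hr hH j u hu h
  · exact dp_f_7_s hinv hr hH j u hu h
theorem dp_f_9_s (hinv : ∀ x, g (inv x) = (g x)⁻¹) (hr : ∀ r ∈ rels, (r.map g).prod = 1) (hH : ∀ r ∈ subs, (r.map g).prod ∈ H)
    (j u : ℕ) (hu : u < M) (h : dp_f_9 j u = true) : Good (fa g) T MG M (cP g H) Lt.f u := by
  unfold dp_f_9 at h
  rcases brec_true h with h | h
  · exact lS_good (T := T) (x := Lt.f) (by decide) hu [Lt.b, Lt.c, Lt.d, Lt.c, Lt.b, Lt.f, Lt.a, Lt.b, Lt.c, Lt.d, Lt.f, Lt.b, Lt.c, Lt.d, Lt.c, Lt.b, Lt.f, Lt.v, Lt.d, Lt.c, Lt.b, Lt.a, Lt.v] (hole_rel hinv hr (by decide +kernel)) h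
  · exact lS_good (T := T) (x := Lt.f) (by decide) hu [Lt.v, Lt.a, Lt.b, Lt.c, Lt.d, Lt.v, Lt.f, Lt.b, Lt.c, Lt.d, Lt.c, Lt.b, Lt.f, Lt.d, Lt.c, Lt.b, Lt.a, Lt.f, Lt.b, Lt.c, Lt.d, Lt.c, Lt.b] (hole_rel hinv hr (by decide +kernel)) h
theorem dp_f_10_s (hinv : ∀ x, g (inv x) = (g x)⁻¹) (hr : ∀ r ∈ rels, (r.map g).prod = 1) (hH : ∀ r ∈ subs, (r.map g).prod ∈ H)
    (j u : ℕ) (hu : u < M) (h : dp_f_10 j u = true) : Good (fa g) T MG M (cP g H) Lt.f u := by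
  unfold dp_f_10 at h
  rcases brec_true h with h | h
  · exact lS_good (T := T) (x := Lt.f) (by decide) hu [Lt.b, Lt.c, Lt.d, Lt.c, Lt.b, Lt.f, Lt.c, Lt.f, Lt.b, Lt.c, Lt.d, Lt.c, Lt.b, Lt.f, Lt.v, Lt.c, Lt.v] (hole_rel hinv hr (by decide +kernel)) h
  · exact lF_good (T := T) (x := Lt.f) (by decide) [Lt.c, Lt.b, Lt.a, Lt.f, Lt.c, Lt.b, Lt.a, Lt.f, Lt.c, Lt.b, Lt.a, Lt.f, Lt.c, Lt.b, Lt.a, Lt.f, Lt.c, Lt.b, Lt.a] (hole_rel hinv hr (by decide +kernel)) h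
theorem dp_f_11_s (hinv : ∀ x, g (inv x) = (g x)⁻¹) (hr : ∀ r ∈ rels, (r.map g).prod = 1) (hH : ∀ r ∈ subs, (r.map g).prod ∈ H)
    (j u : ℕ) (hu : u < M) (h : dp_f_11 j u = true) : Good (fa g) T MG M (cP g H) Lt.f u := by
  unfold dp_f_11 at h
  rcases brec_true h with h | h
  · exact dp_f_9_s hinv hr hH j u hu h
  · exact dp_f_10_s hinv hr hH j u hu h
theorem dp_f_12_s (hinv : ∀ x, g (inv x) = (g x)⁻¹) (hr : ∀ r ∈ rels, (r.map g).prod = 1) (hH : ∀ r ∈ subs, (r.map g).prod ∈ H)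
    (j u : ℕ) (hu : u < M) (h : dp_f_12 j u = true) : Good (fa g) T MG M (cP g H) Lt.f u := by
  unfold dp_f_12 at h
  rcases brec_true h with h | h
  · exact lF_good (T := T) (x := Lt.f) (by decide) [Lt.v, Lt.b, Lt.v, Lt.f, Lt.b, Lt.c, Lt.d, Lt.c, Lt.b, Lt.f, Lt.b, Lt.f, Lt.b, Lt.c, Lt.d, Lt.c, Lt.b] (hole_rel hinv hr (by decide +kernel)) h
  · exact lF_good (T := T) (x := Lt.f) (by decide) [Lt.b, Lt.c, Lt.d, Lt.c, Lt.b, Lt.f, Lt.c, Lt.f, Lt.b, Lt.c, Lt.d, Lt.c, Lt.b, Lt.f, Lt.v, Lt.c, Lt.v] (hole_rel hinv hr (by decide +kernel)) h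
theorem dp_f_13_s (hinv : ∀ x, g (inv x) = (g x)⁻¹) (hr : ∀ r ∈ rels, (r.map g).prod = 1) (hH : ∀ r ∈ subs, (r.map g).prod ∈ H)
    (j u : ℕ) (hu : u < M) (h : dp_f_13 j u = true) : Good (fa g) T MG M (cP g H) Lt.f u := by
  unfold dp_f_13 at h
  rcases brec_true h with h | h
  · exact lS_good (T := T) (x := Lt.f) (by decide) hu [Lt.v, Lt.f, Lt.b, Lt.c, Lt.d, Lt.c, Lt.b, Lt.f, Lt.v, Lt.f, Lt.b, Lt.c, Lt.d, Lt.c, Lt.b, Lt.f, Lt.v, Lt.f, Lt.b, Lt.c, Lt.d, Lt.c, Lt.b] (hole_rel hinv hr (by decide +kernel)) h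
  · exact lH_good (T := T) (x := Lt.f) (by decide) [] [] (by rw [show cP g H 0 = _ from cc_zero]; exact sub_rel hinv (hH _ (by decide))) h
theorem dp_f_14_s (hinv : ∀ x, g (inv x) = (g x)⁻¹) (hr : ∀ r ∈ rels, (r.map g).prod = 1) (hH : ∀ r ∈ subs, (r.map g).prod ∈ H)
    (j u : ℕ) (hu : u < M) (h : dp_f_14 j u = true) : Good (fa g) T MG M (cP g H) Lt.f u := by
  unfold dp_f_14 at h
  rcases brec_true h with h | h
  · exact lF_good (T := T) (x := Lt.f) (by decide) [Lt.b, Lt.c, Lt.d, Lt.c, Lt.b, Lt.f, Lt.b, Lt.f, Lt.b, Lt.c, Lt.d, Lt.c, Lt.b, Lt.f, Lt.v, Lt.b, Lt.v] (hole_rel hinv hr (by decide +kernel)) h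
  · exact dp_f_13_s hinv hr hH j u hu h
theorem dp_f_15_s (hinv : ∀ x, g (inv x) = (g x)⁻¹) (hr : ∀ r ∈ rels, (r.map g).prod = 1) (hH : ∀ r ∈ subs, (r.map g).prod ∈ H)
    (j u : ℕ) (hu : u < M) (h : dp_f_15 j u = true) : Good (fa g) T MG M (cP g H) Lt.f u := by
  unfold dp_f_15 at h
  rcases brec_true h with h | h
  · exact dp_f_12_s hinv hr hH j u hu h
  · exact dp_f_14_s hinv hr hH j u hu h
theorem dp_f_16_s (hinv : ∀ x, g (inv x) = (g x)⁻¹) (hr : ∀ r ∈ rels, (r.map g).prod = 1) (hH : ∀ r ∈ subs, (r.map g).prod ∈ H)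
    (j u : ℕ) (hu : u < M) (h : dp_f_16 j u = true) : Good (fa g) T MG M (cP g H) Lt.f u := by
  unfold dp_f_16 at h
  rcases brec_true h with h | h
  · exact lF_good (T := T) (x := Lt.f) (by decide) [Lt.v, Lt.d, Lt.c, Lt.b, Lt.a, Lt.v, Lt.f, Lt.b, Lt.c, Lt.d, Lt.c, Lt.b, Lt.f, Lt.a, Lt.b, Lt.c, Lt.d, Lt.f, Lt.b, Lt.c, Lt.d, Lt.c, Lt.b] (hole_rel hinv hr (by decide +kernel)) h
  · exact lF_good (T := T) (x := Lt.f) (by decide) [Lt.b, Lt.c, Lt.d, Lt.c, Lt.b, Lt.f, Lt.a, Lt.b, Lt.c, Lt.d, Lt.f, Lt.b, Lt.c, Lt.d, Lt.c, Lt.b, Lt.f, Lt.v, Lt.d, Lt.c, Lt.b, Lt.a, Lt.v] (hole_rel hinv hr (by decide +kernel)) h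
theorem dp_f_17_s (hinv : ∀ x, g (inv x) = (g x)⁻¹) (hr : ∀ r ∈ rels, (r.map g).prod = 1) (hH : ∀ r ∈ subs, (r.map g).prod ∈ H)
    (j u : ℕ) (hu : u < M) (h : dp_f_17 j u = true) : Good (fa g) T MG M (cP g H) Lt.f u := by
  unfold dp_f_17 at h
  rcases brec_true h with h | h
  · exact lF_good (T := T) (x := Lt.f) (by decide) [Lt.v, Lt.c, Lt.v, Lt.f, Lt.b, Lt.c, Lt.d, Lt.c, Lt.b, Lt.f, Lt.c, Lt.f, Lt.b, Lt.c, Lt.d, Lt.c, Lt.b] (hole_rel hinv hr (by decide +kernel)) h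
  · exact lS_good (T := T) (x := Lt.f) (by decide) hu [Lt.b, Lt.c, Lt.d, Lt.c, Lt.b, Lt.f, Lt.v, Lt.a, Lt.b, Lt.c, Lt.d, Lt.v, Lt.f, Lt.b, Lt.c, Lt.d, Lt.c, Lt.b, Lt.f, Lt.d, Lt.c, Lt.b, Lt.a] (hole_rel hinv hr (by decide +kernel)) h
theorem dp_f_18_s (hinv : ∀ x, g (inv x) = (g x)⁻¹) (hr : ∀ r ∈ rels, (r.map g).prod = 1) (hH : ∀ r ∈ subs, (r.map g).prod ∈ H)
    (j u : ℕ) (hu : u < M) (h : dp_f_18 j u = true) : Good (fa g) T MG M (cP g H) Lt.f u := by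
  unfold dp_f_18 at h
  rcases brec_true h with h | h
  · exact lS_good (T := T) (x := Lt.f) (by decide) hu [Lt.a, Lt.b, Lt.c, Lt.f, Lt.a, Lt.b, Lt.c, Lt.f, Lt.a, Lt.b, Lt.c, Lt.f, Lt.a, Lt.b, Lt.c, Lt.f, Lt.a, Lt.b, Lt.c] (hole_rel hinv hr (by decide +kernel)) h
  · exact dp_f_17_s hinv hr hH j u hu h
theorem dp_f_19_s (hinv : ∀ x, g (inv x) = (g x)⁻¹) (hr : ∀ r ∈ rels, (r.map g).prod = 1) (hH : ∀ r ∈ subs, (r.map g).prod ∈ H)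
    (j u : ℕ) (hu : u < M) (h : dp_f_19 j u = true) : Good (fa g) T MG M (cP g H) Lt.f u := by
  unfold dp_f_19 at h
  rcases brec_true h with h | h
  · exact dp_f_16_s hinv hr hH j u hu h
  · exact dp_f_18_s hinv hr hH j u hu h
theorem dp_f_20_s (hinv : ∀ x, g (inv x) = (g x)⁻¹) (hr : ∀ r ∈ rels, (r.map g).prod = 1) (hH : ∀ r ∈ subs, (r.map g).prod ∈ H)
    (j u : ℕ) (hu : u < M) (h : dp_f_20 j u = true) : Good (fa g) T MG M (cP g H) Lt.f u := by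
  unfold dp_f_20 at h
  rcases brec_true h with h | h
  · exact lS_good (T := T) (x := Lt.f) (by decide) hu [Lt.d, Lt.c, Lt.b, Lt.a, Lt.f, Lt.b, Lt.c, Lt.d, Lt.c, Lt.b, Lt.f, Lt.v, Lt.a, Lt.b, Lt.c, Lt.d, Lt.v, Lt.f, Lt.b, Lt.c, Lt.d, Lt.c, Lt.b] (hole_rel hinv hr (by decide +kernel)) h
  · exact lS_good (T := T) (x := Lt.f) (by decide) hu [Lt.c, Lt.b, Lt.a, Lt.f, Lt.c, Lt.b, Lt.a, Lt.f, Lt.c, Lt.b, Lt.a, Lt.f, Lt.c, Lt.b, Lt.a, Lt.f, Lt.c, Lt.b, Lt.a] (hole_rel hinv hr (by decide +kernel)) h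
theorem dp_f_21_s (hinv : ∀ x, g (inv x) = (g x)⁻¹) (hr : ∀ r ∈ rels, (r.map g).prod = 1) (hH : ∀ r ∈ subs, (r.map g).prod ∈ H)
    (j u : ℕ) (hu : u < M) (h : dp_f_21 j u = true) : Good (fa g) T MG M (cP g H) Lt.f u := by
  unfold dp_f_21 at h
  rcases brec_true h with h | h
  · exact lS_good (T := T) (x := Lt.f) (by decide) hu [Lt.b, Lt.c, Lt.d, Lt.c, Lt.b, Lt.f, Lt.v, Lt.f, Lt.b, Lt.c, Lt.d, Lt.c, Lt.b, Lt.f, Lt.v, Lt.f, Lt.b, Lt.c, Lt.d, Lt.c, Lt.b, Lt.f, Lt.v] (hole_rel hinv hr (by decide +kernel)) h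
  · exact lF_good (T := T) (x := Lt.f) (by decide) [Lt.b, Lt.c, Lt.d, Lt.c, Lt.b, Lt.f, Lt.d, Lt.c, Lt.b, Lt.a, Lt.f, Lt.b, Lt.c, Lt.d, Lt.c, Lt.b, Lt.f, Lt.v, Lt.a, Lt.b, Lt.c, Lt.d, Lt.v] (hole_rel hinv hr (by decide +kernel)) h
theorem dp_f_22_s (hinv : ∀ x, g (inv x) = (g x)⁻¹) (hr : ∀ r ∈ rels, (r.map g).prod = 1) (hH : ∀ r ∈ subs, (r.map g).prod ∈ H)
    (j u : ℕ) (hu : u < M) (h : dp_f_22 j u = true) : Good (fa g) T MG M (cP g H) Lt.f u := by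
  unfold dp_f_22 at h
  rcases brec_true h with h | h
  · exact lS_good (T := T) (x := Lt.f) (by decide) hu [Lt.b, Lt.c, Lt.d, Lt.c, Lt.b, Lt.f, Lt.d, Lt.c, Lt.b, Lt.a, Lt.f, Lt.b, Lt.c, Lt.d, Lt.c, Lt.b, Lt.f, Lt.v, Lt.a, Lt.b, Lt.c, Lt.d, Lt.v] (hole_rel hinv hr (by decide +kernel)) h
  · exact dp_f_21_s hinv hr hH j u hu h
theorem dp_f_23_s (hinv : ∀ x, g (inv x) = (g x)⁻¹) (hr : ∀ r ∈ rels, (r.map g).prod = 1) (hH : ∀ r ∈ subs, (r.map g).prod ∈ H)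
    (j u : ℕ) (hu : u < M) (h : dp_f_23 j u = true) : Good (fa g) T MG M (cP g H) Lt.f u := by
  unfold dp_f_23 at h
  rcases brec_true h with h | h
  · exact dp_f_20_s hinv hr hH j u hu h
  · exact dp_f_22_s hinv hr hH j u hu h
theorem dp_f_24_s (hinv : ∀ x, g (inv x) = (g x)⁻¹) (hr : ∀ r ∈ rels, (r.map g).prod = 1) (hH : ∀ r ∈ subs, (r.map g).prod ∈ H)
    (j u : ℕ) (hu : u < M) (h : dp_f_24 j u = true) : Good (fa g) T MG M (cP g H) Lt.f u := by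
  unfold dp_f_24 at h
  rcases brec_true h with h | h
  · exact dp_f_19_s hinv hr hH j u hu h
  · exact dp_f_23_s hinv hr hH j u hu h
theorem dp_f_25_s (hinv : ∀ x, g (inv x) = (g x)⁻¹) (hr : ∀ r ∈ rels, (r.map g).prod = 1) (hH : ∀ r ∈ subs, (r.map g).prod ∈ H)
    (j u : ℕ) (hu : u < M) (h : dp_f_25 j u = true) : Good (fa g) T MG M (cP g H) Lt.f u := by
  unfold dp_f_25 at h
  rcases brec_true h with h | h
  · exact dp_f_15_s hinv hr hH j u hu h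
  · exact dp_f_24_s hinv hr hH j u hu h
theorem dp_f_26_s (hinv : ∀ x, g (inv x) = (g x)⁻¹) (hr : ∀ r ∈ rels, (r.map g).prod = 1) (hH : ∀ r ∈ subs, (r.map g).prod ∈ H)
    (j u : ℕ) (hu : u < M) (h : dp_f_26 j u = true) : Good (fa g) T MG M (cP g H) Lt.f u := by
  unfold dp_f_26 at h
  rcases brec_true h with h | h
  · exact dp_f_11_s hinv hr hH j u hu h
  · exact dp_f_25_s hinv hr hH j u hu h
theorem dp_f_27_s (hinv : ∀ x, g (inv x) = (g x)⁻¹) (hr : ∀ r ∈ rels, (r.map g).prod = 1) (hH : ∀ r ∈ subs, (r.map g).prod ∈ H)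
    (j u : ℕ) (hu : u < M) (h : dp_f_27 j u = true) : Good (fa g) T MG M (cP g H) Lt.f u := by
  unfold dp_f_27 at h
  rcases brec_true h with h | h
  · exact dp_f_8_s hinv hr hH j u hu h
  · exact dp_f_26_s hinv hr hH j u hu h
theorem dp_f_28_s (hinv : ∀ x, g (inv x) = (g x)⁻¹) (hr : ∀ r ∈ rels, (r.map g).prod = 1) (hH : ∀ r ∈ subs, (r.map g).prod ∈ H)
    (j u : ℕ) (hu : u < M) (h : dp_f_28 j u = true) : Good (fa g) T MG M (cP g H) Lt.f u := by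
  unfold dp_f_28 at h
  rcases brec_true h with h | h
  · exact dp_f_5_s hinv hr hH j u hu h
  · exact dp_f_27_s hinv hr hH j u hu h
theorem dp_f_29_s (hinv : ∀ x, g (inv x) = (g x)⁻¹) (hr : ∀ r ∈ rels, (r.map g).prod = 1) (hH : ∀ r ∈ subs, (r.map g).prod ∈ H)
    (j u : ℕ) (hu : u < M) (h : dp_f_29 j u = true) : Good (fa g) T MG M (cP g H) Lt.f u := by
  unfold dp_f_29 at h
  rcases brec_true h with h | h
  · exact dp_f_4_s hinv hr hH j u hu h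
  · exact dp_f_28_s hinv hr hH j u hu h
theorem dp_f_30_s (hinv : ∀ x, g (inv x) = (g x)⁻¹) (hr : ∀ r ∈ rels, (r.map g).prod = 1) (hH : ∀ r ∈ subs, (r.map g).prod ∈ H)
    (j u : ℕ) (hu : u < M) (h : dp_f_30 j u = true) : Good (fa g) T MG M (cP g H) Lt.f u := by
  unfold dp_f_30 at h
  rcases brec_true h with h | h
  · exact dp_f_2_s hinv hr hH j u hu h
  · exact dp_f_29_s hinv hr hH j u hu h
theorem dp_f_31_s (hinv : ∀ x, g (inv x) = (g x)⁻¹) (hr : ∀ r ∈ rels, (r.map g).prod = 1) (hH : ∀ r ∈ subs, (r.map g).prod ∈ H)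
    (j u : ℕ) (hu : u < M) (h : dp_f_31 j u = true) : Good (fa g) T MG M (cP g H) Lt.f u := by
  unfold dp_f_31 at h
  rcases brec_true h with h | h
  · exact dp_f_1_s hinv hr hH j u hu h
  · exact dp_f_30_s hinv hr hH j u hu h
theorem dp_f_32_s (hinv : ∀ x, g (inv x) = (g x)⁻¹) (hr : ∀ r ∈ rels, (r.map g).prod = 1) (hH : ∀ r ∈ subs, (r.map g).prod ∈ H)
    (j u : ℕ) (hu : u < M) (h : dp_f_32 j u = true) : Good (fa g) T MG M (cP g H) Lt.f u := by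
  unfold dp_f_32 at h
  rcases brec_true h with h | h
  · rcases brec_true h with h | h
    · exact lF1_good (T := T) (x := Lt.f) (by decide) .f (hole_rel hinv hr (by decide +kernel)) h
    · exact lS_good (T := T) (x := Lt.f) (by decide) hu [Lt.f] (hole_rel hinv hr (by decide +kernel)) h
  · exact dp_f_31_s hinv hr hH j u hu h
theorem snd_f (hinv : ∀ x, g (inv x) = (g x)⁻¹) (hr : ∀ r ∈ rels, (r.map g).prod = 1) (hH : ∀ r ∈ subs, (r.map g).prod ∈ H)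
    (j u : ℕ) (hu : u < M) (h : disp_f j u = true) : Good (fa g) T MG M (cP g H) Lt.f u := by
  unfold disp_f at h
  rcases brec_true h with h | h
  · exact lDef_good (T := T) (x := Lt.f) (by decide) rfl h
  · rcases brec_true h with h | h
    · exact lPar_good (T := T) (x := Lt.f) (x' := Lt.f) (by decide) rfl (inv_rel hinv _ _ rfl) h
    · exact dp_f_32_s hinv hr hH j u hu h
theorem snc_f (hinv : ∀ x, g (inv x) = (g x)⁻¹) (hr : ∀ r ∈ rels, (r.map g).prod = 1) (hH : ∀ r ∈ subs, (r.map g).prod ∈ H)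
    (j u : ℕ) (hu : u < M) (h : chk_f j u = true) : (T Lt.f u < A ∧ Good (fa g) T MG M (cP g H) Lt.f u) ∨ (A ≤ T Lt.f u ∧ MG u < A) := by
  unfold chk_f at h
  cases hb : Nat.ble A (T_f u) with
  | true => rw [hb] at h; exact Or.inr ⟨le_of_ble hb, le_of_ble h⟩
  | false => rw [hb] at h; exact Or.inl ⟨lt_of_ble_false hb, snd_f hinv hr hH j u hu h⟩
theorem dp_v_0_s (hinv : ∀ x, g (inv x) = (g x)⁻¹) (hr : ∀ r ∈ rels, (r.map g).prod = 1) (hH : ∀ r ∈ subs, (r.map g).prod ∈ H)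
    (j u : ℕ) (hu : u < M) (h : dp_v_0 j u = true) : Good (fa g) T MG M (cP g H) Lt.v u := by
  unfold dp_v_0 at h
  rcases brec_true h with h | h
  · exact lF1_good (T := T) (x := Lt.v) (by decide) .v (hole_rel hinv hr (by decide +kernel)) h
  · exact lS_good (T := T) (x := Lt.v) (by decide) hu [Lt.v] (hole_rel hinv hr (by decide +kernel)) h
theorem dp_v_1_s (hinv : ∀ x, g (inv x) = (g x)⁻¹) (hr : ∀ r ∈ rels, (r.map g).prod = 1) (hH : ∀ r ∈ subs, (r.map g).prod ∈ H)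
    (j u : ℕ) (hu : u < M) (h : dp_v_1 j u = true) : Good (fa g) T MG M (cP g H) Lt.v u := by
  unfold dp_v_1 at h
  rcases brec_true h with h | h
  · exact lS_good (T := T) (x := Lt.v) (by decide) hu [Lt.f, Lt.b, Lt.c, Lt.d, Lt.c, Lt.b, Lt.f, Lt.c, Lt.f, Lt.b, Lt.c, Lt.d, Lt.c, Lt.b, Lt.f, Lt.v, Lt.c] (hole_rel hinv hr (by decide +kernel)) h
  · exact lS_good (T := T) (x := Lt.v) (by decide) hu [Lt.b, Lt.v, Lt.f, Lt.b, Lt.c, Lt.d, Lt.c, Lt.b, Lt.f, Lt.b, Lt.f, Lt.b, Lt.c, Lt.d, Lt.c, Lt.b, Lt.f] (hole_rel hinv hr (by decide +kernel)) h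
theorem dp_v_2_s (hinv : ∀ x, g (inv x) = (g x)⁻¹) (hr : ∀ r ∈ rels, (r.map g).prod = 1) (hH : ∀ r ∈ subs, (r.map g).prod ∈ H)
    (j u : ℕ) (hu : u < M) (h : dp_v_2 j u = true) : Good (fa g) T MG M (cP g H) Lt.v u := by
  unfold dp_v_2 at h
  rcases brec_true h with h | h
  · exact lS_good (T := T) (x := Lt.v) (by decide) hu [Lt.f, Lt.b, Lt.c, Lt.d, Lt.c, Lt.b, Lt.f, Lt.b, Lt.f, Lt.b, Lt.c, Lt.d, Lt.c, Lt.b, Lt.f, Lt.v, Lt.b] (hole_rel hinv hr (by decide +kernel)) h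
  · exact dp_v_1_s hinv hr hH j u hu h
theorem dp_v_3_s (hinv : ∀ x, g (inv x) = (g x)⁻¹) (hr : ∀ r ∈ rels, (r.map g).prod = 1) (hH : ∀ r ∈ subs, (r.map g).prod ∈ H)
    (j u : ℕ) (hu : u < M) (h : dp_v_3 j u = true) : Good (fa g) T MG M (cP g H) Lt.v u := by
  unfold dp_v_3 at h
  rcases brec_true h with h | h
  · exact lS_good (T := T) (x := Lt.v) (by decide) hu [Lt.d, Lt.c, Lt.b, Lt.a, Lt.v, Lt.f, Lt.b, Lt.c, Lt.d, Lt.c, Lt.b, Lt.f, Lt.a, Lt.b, Lt.c, Lt.d, Lt.f, Lt.b, Lt.c, Lt.d, Lt.c, Lt.b, Lt.f] (hole_rel hinv hr (by decide +kernel)) h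
  · exact lS_good (T := T) (x := Lt.v) (by decide) hu [Lt.f, Lt.b, Lt.c, Lt.d, Lt.c, Lt.b, Lt.f, Lt.d, Lt.c, Lt.b, Lt.a, Lt.f, Lt.b, Lt.c, Lt.d, Lt.c, Lt.b, Lt.f, Lt.v, Lt.a, Lt.b, Lt.c, Lt.d] (hole_rel hinv hr (by decide +kernel)) h
theorem dp_v_4_s (hinv : ∀ x, g (inv x) = (g x)⁻¹) (hr : ∀ r ∈ rels, (r.map g).prod = 1) (hH : ∀ r ∈ subs, (r.map g).prod ∈ H)
    (j u : ℕ) (hu : u < M) (h : dp_v_4 j u = true) : Good (fa g) T MG M (cP g H) Lt.v u := by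
  unfold dp_v_4 at h
  rcases brec_true h with h | h
  · exact lS_good (T := T) (x := Lt.v) (by decide) hu [Lt.c, Lt.v, Lt.f, Lt.b, Lt.c, Lt.d, Lt.c, Lt.b, Lt.f, Lt.c, Lt.f, Lt.b, Lt.c, Lt.d, Lt.c, Lt.b, Lt.f] (hole_rel hinv hr (by decide +kernel)) h
  · exact dp_v_3_s hinv hr hH j u hu h
theorem dp_v_5_s (hinv : ∀ x, g (inv x) = (g x)⁻¹) (hr : ∀ r ∈ rels, (r.map g).prod = 1) (hH : ∀ r ∈ subs, (r.map g).prod ∈ H)
    (j u : ℕ) (hu : u < M) (h : dp_v_5 j u = true) : Good (fa g) T MG M (cP g H) Lt.v u := by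
  unfold dp_v_5 at h
  rcases brec_true h with h | h
  · exact lS_good (T := T) (x := Lt.v) (by decide) hu [Lt.a, Lt.b, Lt.c, Lt.d, Lt.v, Lt.f, Lt.b, Lt.c, Lt.d, Lt.c, Lt.b, Lt.f, Lt.d, Lt.c, Lt.b, Lt.a, Lt.f, Lt.b, Lt.c, Lt.d, Lt.c, Lt.b, Lt.f] (hole_rel hinv hr (by decide +kernel)) h
  · exact lF_good (T := T) (x := Lt.v) (by decide) [Lt.f, Lt.b, Lt.c, Lt.d, Lt.c, Lt.b, Lt.f, Lt.c, Lt.f, Lt.b, Lt.c, Lt.d, Lt.c, Lt.b, Lt.f, Lt.v, Lt.c] (hole_rel hinv hr (by decide +kernel)) h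
theorem dp_v_6_s (hinv : ∀ x, g (inv x) = (g x)⁻¹) (hr : ∀ r ∈ rels, (r.map g).prod = 1) (hH : ∀ r ∈ subs, (r.map g).prod ∈ H)
    (j u : ℕ) (hu : u < M) (h : dp_v_6 j u = true) : Good (fa g) T MG M (cP g H) Lt.v u := by
  unfold dp_v_6 at h
  rcases brec_true h with h | h
  · exact lS_good (T := T) (x := Lt.v) (by decide) hu [Lt.f, Lt.b, Lt.c, Lt.d, Lt.c, Lt.b, Lt.f, Lt.a, Lt.b, Lt.c, Lt.d, Lt.f, Lt.b, Lt.c, Lt.d, Lt.c, Lt.b, Lt.f, Lt.v, Lt.d, Lt.c, Lt.b, Lt.a] (hole_rel hinv hr (by decide +kernel)) h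
  · exact dp_v_5_s hinv hr hH j u hu h
theorem dp_v_7_s (hinv : ∀ x, g (inv x) = (g x)⁻¹) (hr : ∀ r ∈ rels, (r.map g).prod = 1) (hH : ∀ r ∈ subs, (r.map g).prod ∈ H)
    (j u : ℕ) (hu : u < M) (h : dp_v_7 j u = true) : Good (fa g) T MG M (cP g H) Lt.v u := by
  unfold dp_v_7 at h
  rcases brec_true h with h | h
  · exact lF_good (T := T) (x := Lt.v) (by decide) [Lt.c, Lt.v, Lt.f, Lt.b, Lt.c, Lt.d, Lt.c, Lt.b, Lt.f, Lt.c, Lt.f, Lt.b, Lt.c, Lt.d, Lt.c, Lt.b, Lt.f] (hole_rel hinv hr (by decide +kernel)) h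
  · exact lF_good (T := T) (x := Lt.v) (by decide) [Lt.f, Lt.b, Lt.c, Lt.d, Lt.c, Lt.b, Lt.f, Lt.b, Lt.f, Lt.b, Lt.c, Lt.d, Lt.c, Lt.b, Lt.f, Lt.v, Lt.b] (hole_rel hinv hr (by decide +kernel)) h
theorem dp_v_8_s (hinv : ∀ x, g (inv x) = (g x)⁻¹) (hr : ∀ r ∈ rels, (r.map g).prod = 1) (hH : ∀ r ∈ subs, (r.map g).prod ∈ H)
    (j u : ℕ) (hu : u < M) (h : dp_v_8 j u = true) : Good (fa g) T MG M (cP g H) Lt.v u := by
  unfold dp_v_8 at h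
  rcases brec_true h with h | h
  · exact lS_good (T := T) (x := Lt.v) (by decide) hu [Lt.f, Lt.b, Lt.c, Lt.d, Lt.c, Lt.b, Lt.f, Lt.v, Lt.f, Lt.b, Lt.c, Lt.d, Lt.c, Lt.b, Lt.f, Lt.v, Lt.f, Lt.b, Lt.c, Lt.d, Lt.c, Lt.b, Lt.f] (hole_rel hinv hr (by decide +kernel)) h
  · exact lF_good (T := T) (x := Lt.v) (by decide) [Lt.b, Lt.v, Lt.f, Lt.b, Lt.c, Lt.d, Lt.c, Lt.b, Lt.f, Lt.b, Lt.f, Lt.b, Lt.c, Lt.d, Lt.c, Lt.b, Lt.f] (hole_rel hinv hr (by decide +kernel)) h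
theorem dp_v_9_s (hinv : ∀ x, g (inv x) = (g x)⁻¹) (hr : ∀ r ∈ rels, (r.map g).prod = 1) (hH : ∀ r ∈ subs, (r.map g).prod ∈ H)
    (j u : ℕ) (hu : u < M) (h : dp_v_9 j u = true) : Good (fa g) T MG M (cP g H) Lt.v u := by
  unfold dp_v_9 at h
  rcases brec_true h with h | h
  · exact lS_good (T := T) (x := Lt.v) (by decide) hu [Lt.f, Lt.b, Lt.c, Lt.d, Lt.c, Lt.b, Lt.f, Lt.e, Lt.f, Lt.b, Lt.c, Lt.d, Lt.c, Lt.b, Lt.f, Lt.v, Lt.f, Lt.e, Lt.b, Lt.c, Lt.d, Lt.c, Lt.b, Lt.f, Lt.e] (hole_rel hinv hr (by decide +kernel)) h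
  · exact lF_good (T := T) (x := Lt.v) (by decide) [Lt.f, Lt.b, Lt.c, Lt.d, Lt.c, Lt.b, Lt.f, Lt.d, Lt.c, Lt.b, Lt.a, Lt.f, Lt.b, Lt.c, Lt.d, Lt.c, Lt.b, Lt.f, Lt.v, Lt.a, Lt.b, Lt.c, Lt.d] (hole_rel hinv hr (by decide +kernel)) h
theorem dp_v_10_s (hinv : ∀ x, g (inv x) = (g x)⁻¹) (hr : ∀ r ∈ rels, (r.map g).prod = 1) (hH : ∀ r ∈ subs, (r.map g).prod ∈ H)
    (j u : ℕ) (hu : u < M) (h : dp_v_10 j u = true) : Good (fa g) T MG M (cP g H) Lt.v u := by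
  unfold dp_v_10 at h
  rcases brec_true h with h | h
  · exact lF_good (T := T) (x := Lt.v) (by decide) [Lt.d, Lt.c, Lt.b, Lt.a, Lt.v, Lt.f, Lt.b, Lt.c, Lt.d, Lt.c, Lt.b, Lt.f, Lt.a, Lt.b, Lt.c, Lt.d, Lt.f, Lt.b, Lt.c, Lt.d, Lt.c, Lt.b, Lt.f] (hole_rel hinv hr (by decide +kernel)) h
  · exact lS_good (T := T) (x := Lt.v) (by decide) hu [Lt.f, Lt.e, Lt.b, Lt.c, Lt.d, Lt.c, Lt.b, Lt.f, Lt.e, Lt.v, Lt.f, Lt.b, Lt.c, Lt.d, Lt.c, Lt.b, Lt.f, Lt.e, Lt.f, Lt.b, Lt.c, Lt.d, Lt.c, Lt.b, Lt.f] (hole_rel hinv hr (by decide +kernel)) h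
theorem dp_v_11_s (hinv : ∀ x, g (inv x) = (g x)⁻¹) (hr : ∀ r ∈ rels, (r.map g).prod = 1) (hH : ∀ r ∈ subs, (r.map g).prod ∈ H)
    (j u : ℕ) (hu : u < M) (h : dp_v_11 j u = true) : Good (fa g) T MG M (cP g H) Lt.v u := by
  unfold dp_v_11 at h
  rcases brec_true h with h | h
  · exact lF_good (T := T) (x := Lt.v) (by decide) [Lt.f, Lt.b, Lt.c, Lt.d, Lt.c, Lt.b, Lt.f, Lt.v, Lt.f, Lt.b, Lt.c, Lt.d, Lt.c, Lt.b, Lt.f, Lt.v, Lt.f, Lt.b, Lt.c, Lt.d, Lt.c, Lt.b, Lt.f] (hole_rel hinv hr (by decide +kernel)) h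
  · exact lF_good (T := T) (x := Lt.v) (by decide) [Lt.f, Lt.b, Lt.c, Lt.d, Lt.c, Lt.b, Lt.f, Lt.a, Lt.b, Lt.c, Lt.d, Lt.f, Lt.b, Lt.c, Lt.d, Lt.c, Lt.b, Lt.f, Lt.v, Lt.d, Lt.c, Lt.b, Lt.a] (hole_rel hinv hr (by decide +kernel)) h
theorem dp_v_12_s (hinv : ∀ x, g (inv x) = (g x)⁻¹) (hr : ∀ r ∈ rels, (r.map g).prod = 1) (hH : ∀ r ∈ subs, (r.map g).prod ∈ H)
    (j u : ℕ) (hu : u < M) (h : dp_v_12 j u = true) : Good (fa g) T MG M (cP g H) Lt.v u := by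
  unfold dp_v_12 at h
  rcases brec_true h with h | h
  · exact lF_good (T := T) (x := Lt.v) (by decide) [Lt.a, Lt.b, Lt.c, Lt.d, Lt.v, Lt.f, Lt.b, Lt.c, Lt.d, Lt.c, Lt.b, Lt.f, Lt.d, Lt.c, Lt.b, Lt.a, Lt.f, Lt.b, Lt.c, Lt.d, Lt.c, Lt.b, Lt.f] (hole_rel hinv hr (by decide +kernel)) h
  · exact dp_v_11_s hinv hr hH j u hu h
theorem dp_v_13_s (hinv : ∀ x, g (inv x) = (g x)⁻¹) (hr : ∀ r ∈ rels, (r.map g).prod = 1) (hH : ∀ r ∈ subs, (r.map g).prod ∈ H)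
    (j u : ℕ) (hu : u < M) (h : dp_v_13 j u = true) : Good (fa g) T MG M (cP g H) Lt.v u := by
  unfold dp_v_13 at h
  rcases brec_true h with h | h
  · exact dp_v_10_s hinv hr hH j u hu h
  · exact dp_v_12_s hinv hr hH j u hu h
theorem dp_v_14_s (hinv : ∀ x, g (inv x) = (g x)⁻¹) (hr : ∀ r ∈ rels, (r.map g).prod = 1) (hH : ∀ r ∈ subs, (r.map g).prod ∈ H)
    (j u : ℕ) (hu : u < M) (h : dp_v_14 j u = true) : Good (fa g) T MG M (cP g H) Lt.v u := by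
  unfold dp_v_14 at h
  rcases brec_true h with h | h
  · exact dp_v_9_s hinv hr hH j u hu h
  · exact dp_v_13_s hinv hr hH j u hu h
theorem dp_v_15_s (hinv : ∀ x, g (inv x) = (g x)⁻¹) (hr : ∀ r ∈ rels, (r.map g).prod = 1) (hH : ∀ r ∈ subs, (r.map g).prod ∈ H)
    (j u : ℕ) (hu : u < M) (h : dp_v_15 j u = true) : Good (fa g) T MG M (cP g H) Lt.v u := by
  unfold dp_v_15 at h
  rcases brec_true h with h | h
  · exact dp_v_8_s hinv hr hH j u hu h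
  · exact dp_v_14_s hinv hr hH j u hu h
theorem dp_v_16_s (hinv : ∀ x, g (inv x) = (g x)⁻¹) (hr : ∀ r ∈ rels, (r.map g).prod = 1) (hH : ∀ r ∈ subs, (r.map g).prod ∈ H)
    (j u : ℕ) (hu : u < M) (h : dp_v_16 j u = true) : Good (fa g) T MG M (cP g H) Lt.v u := by
  unfold dp_v_16 at h
  rcases brec_true h with h | h
  · exact dp_v_7_s hinv hr hH j u hu h
  · exact dp_v_15_s hinv hr hH j u hu h
theorem dp_v_17_s (hinv : ∀ x, g (inv x) = (g x)⁻¹) (hr : ∀ r ∈ rels, (r.map g).prod = 1) (hH : ∀ r ∈ subs, (r.map g).prod ∈ H)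
    (j u : ℕ) (hu : u < M) (h : dp_v_17 j u = true) : Good (fa g) T MG M (cP g H) Lt.v u := by
  unfold dp_v_17 at h
  rcases brec_true h with h | h
  · exact dp_v_6_s hinv hr hH j u hu h
  · exact dp_v_16_s hinv hr hH j u hu h
theorem dp_v_18_s (hinv : ∀ x, g (inv x) = (g x)⁻¹) (hr : ∀ r ∈ rels, (r.map g).prod = 1) (hH : ∀ r ∈ subs, (r.map g).prod ∈ H)
    (j u : ℕ) (hu : u < M) (h : dp_v_18 j u = true) : Good (fa g) T MG M (cP g H) Lt.v u := by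
  unfold dp_v_18 at h
  rcases brec_true h with h | h
  · exact dp_v_4_s hinv hr hH j u hu h
  · exact dp_v_17_s hinv hr hH j u hu h
theorem dp_v_19_s (hinv : ∀ x, g (inv x) = (g x)⁻¹) (hr : ∀ r ∈ rels, (r.map g).prod = 1) (hH : ∀ r ∈ subs, (r.map g).prod ∈ H)
    (j u : ℕ) (hu : u < M) (h : dp_v_19 j u = true) : Good (fa g) T MG M (cP g H) Lt.v u := by
  unfold dp_v_19 at h
  rcases brec_true h with h | h
  · exact dp_v_2_s hinv hr hH j u hu h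
  · exact dp_v_18_s hinv hr hH j u hu h
theorem dp_v_20_s (hinv : ∀ x, g (inv x) = (g x)⁻¹) (hr : ∀ r ∈ rels, (r.map g).prod = 1) (hH : ∀ r ∈ subs, (r.map g).prod ∈ H)
    (j u : ℕ) (hu : u < M) (h : dp_v_20 j u = true) : Good (fa g) T MG M (cP g H) Lt.v u := by
  unfold dp_v_20 at h
  rcases brec_true h with h | h
  · exact dp_v_0_s hinv hr hH j u hu h
  · exact dp_v_19_s hinv hr hH j u hu h
theorem snd_v (hinv : ∀ x, g (inv x) = (g x)⁻¹) (hr : ∀ r ∈ rels, (r.map g).prod = 1) (hH : ∀ r ∈ subs, (r.map g).prod ∈ H)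
    (j u : ℕ) (hu : u < M) (h : disp_v j u = true) : Good (fa g) T MG M (cP g H) Lt.v u := by
  unfold disp_v at h
  rcases brec_true h with h | h
  · exact lDef_good (T := T) (x := Lt.v) (by decide) rfl h
  · rcases brec_true h with h | h
    · exact lPar_good (T := T) (x := Lt.v) (x' := Lt.v) (by decide) rfl (inv_rel hinv _ _ rfl) h
    · exact dp_v_20_s hinv hr hH j u hu h
theorem snc_v (hinv : ∀ x, g (inv x) = (g x)⁻¹) (hr : ∀ r ∈ rels, (r.map g).prod = 1) (hH : ∀ r ∈ subs, (r.map g).prod ∈ H)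
    (j u : ℕ) (hu : u < M) (h : chk_v j u = true) : (T Lt.v u < A ∧ Good (fa g) T MG M (cP g H) Lt.v u) ∨ (A ≤ T Lt.v u ∧ MG u < A) := by
  unfold chk_v at h
  cases hb : Nat.ble A (T_v u) with
  | true => rw [hb] at h; exact Or.inr ⟨le_of_ble hb, le_of_ble h⟩
  | false => rw [hb] at h; exact Or.inl ⟨lt_of_ble_false hb, snd_v hinv hr hH j u hu h⟩
theorem dM_0_s (hinv : ∀ x, g (inv x) = (g x)⁻¹) (hr : ∀ r ∈ rels, (r.map g).prod = 1) (j z1 z2 u : ℕ) (h : dM_0 j z1 z2 u = true) : GoodM (fa g) T MG M (cP g H) u := by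
  unfold dM_0 at h
  rcases brec_true h with h | h
  · exact mCo_good (T := T) (y := .b) (by decide) h
  · rcases brec_true h with h | h
    · exact mCo_good (T := T) (y := .f) (by decide) h
    · exact mCo_good (T := T) (y := .c) (by decide) h
theorem dM_1_s (hinv : ∀ x, g (inv x) = (g x)⁻¹) (hr : ∀ r ∈ rels, (r.map g).prod = 1) (j z1 z2 u : ℕ) (h : dM_1 j z1 z2 u = true) : GoodM (fa g) T MG M (cP g H) u := by
  unfold dM_1 at h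
  rcases brec_true h with h | h
  · exact mCo_good (T := T) (y := .d) (by decide) h
  · exact mCo_good (T := T) (y := .e) (by decide) h
theorem dM_2_s (hinv : ∀ x, g (inv x) = (g x)⁻¹) (hr : ∀ r ∈ rels, (r.map g).prod = 1) (j z1 z2 u : ℕ) (h : dM_2 j z1 z2 u = true) : GoodM (fa g) T MG M (cP g H) u := by
  unfold dM_2 at h
  rcases brec_true h with h | h
  · exact mCo_good (T := T) (y := .v) (by decide) h
  · exact mCo_good (T := T) (y := .a) (by decide) h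
theorem dM_3_s (hinv : ∀ x, g (inv x) = (g x)⁻¹) (hr : ∀ r ∈ rels, (r.map g).prod = 1) (j z1 z2 u : ℕ) (h : dM_3 j z1 z2 u = true) : GoodM (fa g) T MG M (cP g H) u := by
  unfold dM_3 at h
  rcases brec_true h with h | h
  · rcases brec_true h with h | h
    · rcases brec_true h with h | h
      · exact mRel_good (T := T) (by decide) [Lt.v, Lt.c, Lt.v] [Lt.f, Lt.b, Lt.c, Lt.d, Lt.c, Lt.b, Lt.f, Lt.c, Lt.f, Lt.b, Lt.c, Lt.d, Lt.c, Lt.b, Lt.f] (pair_rel hinv hr (by decide +kernel)) h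
      · exact mRel_good (T := T) (by decide) [Lt.c, Lt.b, Lt.f, Lt.v, Lt.b] [Lt.d, Lt.c, Lt.b, Lt.f, Lt.b, Lt.f, Lt.b, Lt.c, Lt.d, Lt.c, Lt.b, Lt.f, Lt.v] (pair_rel hinv hr (by decide +kernel)) h
    · rcases brec_true h with h | h
      · exact mRel_good (T := T) (by decide) [Lt.b, Lt.d] [Lt.d, Lt.b] (pair_rel hinv hr (by decide +kernel)) h
      · rcases brec_true h with h | h
        · exact mRel_good (T := T) (by decide) [Lt.d, Lt.c, Lt.b, Lt.f, Lt.b, Lt.f, Lt.b, Lt.c, Lt.d, Lt.c, Lt.b, Lt.f, Lt.v, Lt.b] [Lt.c, Lt.b, Lt.f, Lt.v] (pair_rel hinv hr (by decide +kernel)) h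
        · exact mRel_good (T := T) (by decide) [Lt.d, Lt.c, Lt.b, Lt.f, Lt.b, Lt.f, Lt.b, Lt.c, Lt.d, Lt.c, Lt.b, Lt.f, Lt.v] [Lt.c, Lt.b, Lt.f, Lt.v, Lt.b] (pair_rel hinv hr (by decide +kernel)) h
  · rcases brec_true h with h | h
    · rcases brec_true h with h | h
      · exact mRel_good (T := T) (by decide) [Lt.c, Lt.b, Lt.f, Lt.b, Lt.f, Lt.b, Lt.c, Lt.d, Lt.c, Lt.b, Lt.f, Lt.v] [Lt.d, Lt.c, Lt.b, Lt.f, Lt.v, Lt.b] (pair_rel hinv hr (by decide +kernel)) h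
      · rcases brec_true h with h | h
        · exact mRel_good (T := T) (by decide) [Lt.c, Lt.d, Lt.c, Lt.b, Lt.f, Lt.v, Lt.c] [Lt.b, Lt.f, Lt.c, Lt.f, Lt.b, Lt.c, Lt.d, Lt.c, Lt.b, Lt.f, Lt.v] (pair_rel hinv hr (by decide +kernel)) h
        · exact mRel_good (T := T) (by decide) [Lt.b, Lt.f, Lt.v, Lt.c] [Lt.c, Lt.d, Lt.c, Lt.b, Lt.f, Lt.c, Lt.f, Lt.b, Lt.c, Lt.d, Lt.c, Lt.b, Lt.f, Lt.v] (pair_rel hinv hr (by decide +kernel)) h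
    · rcases brec_true h with h | h
      · rcases brec_true h with h | h
        · exact mRel_good (T := T) (by decide) [Lt.b, Lt.c, Lt.d, Lt.c, Lt.b, Lt.f, Lt.v, Lt.c] [Lt.f, Lt.c, Lt.f, Lt.b, Lt.c, Lt.d, Lt.c, Lt.b, Lt.f, Lt.v] (pair_rel hinv hr (by decide +kernel)) h
        · exact mRel_good (T := T) (by decide) [Lt.f, Lt.b, Lt.f, Lt.b, Lt.c, Lt.d, Lt.c, Lt.b, Lt.f, Lt.v, Lt.b] [Lt.b, Lt.c, Lt.d, Lt.c, Lt.b, Lt.f, Lt.v] (pair_rel hinv hr (by decide +kernel)) h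
      · rcases brec_true h with h | h
        · exact mRel_good (T := T) (by decide) [Lt.b, Lt.c, Lt.d, Lt.c, Lt.b, Lt.f, Lt.c, Lt.f, Lt.b, Lt.c, Lt.d, Lt.c, Lt.b, Lt.f, Lt.v, Lt.c] [Lt.f, Lt.v] (pair_rel hinv hr (by decide +kernel)) h
        · exact mRel_good (T := T) (by decide) [Lt.d, Lt.c, Lt.b, Lt.f, Lt.v, Lt.b] [Lt.c, Lt.b, Lt.f, Lt.b, Lt.f, Lt.b, Lt.c, Lt.d, Lt.c, Lt.b, Lt.f, Lt.v] (pair_rel hinv hr (by decide +kernel)) h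
theorem dM_4_s (hinv : ∀ x, g (inv x) = (g x)⁻¹) (hr : ∀ r ∈ rels, (r.map g).prod = 1) (j z1 z2 u : ℕ) (h : dM_4 j z1 z2 u = true) : GoodM (fa g) T MG M (cP g H) u := by
  unfold dM_4 at h
  rcases brec_true h with h | h
  · rcases brec_true h with h | h
    · exact mRel_good (T := T) (by decide) [Lt.b, Lt.f, Lt.b, Lt.f, Lt.b, Lt.c, Lt.d, Lt.c, Lt.b, Lt.f, Lt.v, Lt.b] [Lt.c, Lt.d, Lt.c, Lt.b, Lt.f, Lt.v] (pair_rel hinv hr (by decide +kernel)) h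
    · rcases brec_true h with h | h
      · exact mRel_good (T := T) (by decide) [Lt.f, Lt.b, Lt.c, Lt.d, Lt.c, Lt.b, Lt.f, Lt.v, Lt.b] [Lt.b, Lt.f, Lt.b, Lt.c, Lt.d, Lt.c, Lt.b, Lt.f, Lt.v] (pair_rel hinv hr (by decide +kernel)) h
      · exact mRel_good (T := T) (by decide) [Lt.v, Lt.b, Lt.v] [Lt.f, Lt.b, Lt.c, Lt.d, Lt.c, Lt.b, Lt.f, Lt.b, Lt.f, Lt.b, Lt.c, Lt.d, Lt.c, Lt.b, Lt.f] (pair_rel hinv hr (by decide +kernel)) h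
  · rcases brec_true h with h | h
    · rcases brec_true h with h | h
      · exact mRel_good (T := T) (by decide) [Lt.b, Lt.e] [Lt.e, Lt.b] (pair_rel hinv hr (by decide +kernel)) h
      · exact mRel_good (T := T) (by decide) [Lt.c, Lt.d, Lt.c, Lt.b, Lt.f, Lt.v, Lt.b] [Lt.b, Lt.f, Lt.b, Lt.f, Lt.b, Lt.c, Lt.d, Lt.c, Lt.b, Lt.f, Lt.v] (pair_rel hinv hr (by decide +kernel)) h
    · rcases brec_true h with h | h
      · exact mRel_good (T := T) (by decide) [Lt.c, Lt.d, Lt.c, Lt.b, Lt.f, Lt.c, Lt.f, Lt.b, Lt.c, Lt.d, Lt.c, Lt.b, Lt.f, Lt.v] [Lt.b, Lt.f, Lt.v, Lt.c] (pair_rel hinv hr (by decide +kernel)) h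
      · exact mRel_good (T := T) (by decide) [Lt.v, Lt.f, Lt.b, Lt.c, Lt.d, Lt.c, Lt.b, Lt.f, Lt.a, Lt.b, Lt.c, Lt.d, Lt.f, Lt.b, Lt.c, Lt.d, Lt.c, Lt.b, Lt.f, Lt.v] [Lt.a, Lt.b, Lt.c, Lt.d] (pair_rel hinv hr (by decide +kernel)) h
theorem dM_5_s (hinv : ∀ x, g (inv x) = (g x)⁻¹) (hr : ∀ r ∈ rels, (r.map g).prod = 1) (j z1 z2 u : ℕ) (h : dM_5 j z1 z2 u = true) : GoodM (fa g) T MG M (cP g H) u := by
  unfold dM_5 at h
  rcases brec_true h with h | h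
  · rcases brec_true h with h | h
    · rcases brec_true h with h | h
      · exact mRel_good (T := T) (by decide) [Lt.d, Lt.b] [Lt.b, Lt.d] (pair_rel hinv hr (by decide +kernel)) h
      · exact mRel_good (T := T) (by decide) [Lt.c, Lt.d, Lt.c, Lt.b, Lt.f, Lt.c, Lt.f, Lt.b, Lt.c, Lt.d, Lt.c, Lt.b, Lt.f, Lt.v, Lt.c] [Lt.b, Lt.f, Lt.v] (pair_rel hinv hr (by decide +kernel)) h
    · rcases brec_true h with h | h
      · exact mRel_good (T := T) (by decide) [Lt.c, Lt.b, Lt.f, Lt.v, Lt.c] [Lt.d, Lt.c, Lt.b, Lt.f, Lt.c, Lt.f, Lt.b, Lt.c, Lt.d, Lt.c, Lt.b, Lt.f, Lt.v] (pair_rel hinv hr (by decide +kernel)) h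
      · exact mRel_good (T := T) (by decide) [Lt.c, Lt.d, Lt.c, Lt.b, Lt.f, Lt.b, Lt.f, Lt.b, Lt.c, Lt.d, Lt.c, Lt.b, Lt.f, Lt.v, Lt.b] [Lt.b, Lt.f, Lt.v] (pair_rel hinv hr (by decide +kernel)) h
  · rcases brec_true h with h | h
    · rcases brec_true h with h | h
      · exact mRel_good (T := T) (by decide) [Lt.b, Lt.c, Lt.d, Lt.c, Lt.b, Lt.f, Lt.v, Lt.b] [Lt.f, Lt.b, Lt.f, Lt.b, Lt.c, Lt.d, Lt.c, Lt.b, Lt.f, Lt.v] (pair_rel hinv hr (by decide +kernel)) h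
      · exact mRel_good (T := T) (by decide) [Lt.c, Lt.d, Lt.c, Lt.b, Lt.f, Lt.b, Lt.f, Lt.b, Lt.c, Lt.d, Lt.c, Lt.b, Lt.f, Lt.v] [Lt.b, Lt.f, Lt.v, Lt.b] (pair_rel hinv hr (by decide +kernel)) h
    · rcases brec_true h with h | h
      · exact mRel_good (T := T) (by decide) [Lt.c, Lt.f, Lt.b, Lt.c, Lt.d, Lt.c, Lt.b, Lt.f, Lt.v, Lt.c] [Lt.f, Lt.b, Lt.c, Lt.d, Lt.c, Lt.b, Lt.f, Lt.v] (pair_rel hinv hr (by decide +kernel)) h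
      · exact mRel_good (T := T) (by decide) [Lt.d, Lt.b, Lt.d] [Lt.b] (pair_rel hinv hr (by decide +kernel)) h
theorem dM_6_s (hinv : ∀ x, g (inv x) = (g x)⁻¹) (hr : ∀ r ∈ rels, (r.map g).prod = 1) (j z1 z2 u : ℕ) (h : dM_6 j z1 z2 u = true) : GoodM (fa g) T MG M (cP g H) u := by
  unfold dM_6 at h
  rcases brec_true h with h | h
  · exact dM_4_s hinv hr j z1 z2 u h
  · exact dM_5_s hinv hr j z1 z2 u h
theorem dM_7_s (hinv : ∀ x, g (inv x) = (g x)⁻¹) (hr : ∀ r ∈ rels, (r.map g).prod = 1) (j z1 z2 u : ℕ) (h : dM_7 j z1 z2 u = true) : GoodM (fa g) T MG M (cP g H) u := by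
  unfold dM_7 at h
  rcases brec_true h with h | h
  · exact dM_3_s hinv hr j z1 z2 u h
  · exact dM_6_s hinv hr j z1 z2 u h
theorem dM_8_s (hinv : ∀ x, g (inv x) = (g x)⁻¹) (hr : ∀ r ∈ rels, (r.map g).prod = 1) (j z1 z2 u : ℕ) (h : dM_8 j z1 z2 u = true) : GoodM (fa g) T MG M (cP g H) u := by
  unfold dM_8 at h
  rcases brec_true h with h | h
  · rcases brec_true h with h | h
    · rcases brec_true h with h | h
      · exact mRel_good (T := T) (by decide) [Lt.d, Lt.f] [Lt.f, Lt.d] (pair_rel hinv hr (by decide +kernel)) h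
      · exact mRel_good (T := T) (by decide) [Lt.v, Lt.b] [Lt.f, Lt.b, Lt.c, Lt.d, Lt.c, Lt.b, Lt.f, Lt.b, Lt.f, Lt.b, Lt.c, Lt.d, Lt.c, Lt.b, Lt.f, Lt.v] (pair_rel hinv hr (by decide +kernel)) h
    · rcases brec_true h with h | h
      · exact mRel_good (T := T) (by decide) [Lt.d, Lt.c, Lt.b, Lt.f, Lt.c, Lt.f, Lt.b, Lt.c, Lt.d, Lt.c, Lt.b, Lt.f, Lt.v, Lt.c] [Lt.c, Lt.b, Lt.f, Lt.v] (pair_rel hinv hr (by decide +kernel)) h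
      · exact mRel_good (T := T) (by decide) [Lt.f, Lt.c, Lt.f, Lt.b, Lt.c, Lt.d, Lt.c, Lt.b, Lt.f, Lt.v, Lt.c] [Lt.b, Lt.c, Lt.d, Lt.c, Lt.b, Lt.f, Lt.v] (pair_rel hinv hr (by decide +kernel)) h
  · rcases brec_true h with h | h
    · rcases brec_true h with h | h
      · exact mRel_good (T := T) (by decide) [Lt.b, Lt.c, Lt.d, Lt.c, Lt.b, Lt.f, Lt.b, Lt.f, Lt.b, Lt.c, Lt.d, Lt.c, Lt.b, Lt.f, Lt.v] [Lt.f, Lt.v, Lt.b] (pair_rel hinv hr (by decide +kernel)) h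
      · exact mRel_good (T := T) (by decide) [Lt.f, Lt.b, Lt.c, Lt.d, Lt.c, Lt.b, Lt.f, Lt.c, Lt.f, Lt.b, Lt.c, Lt.d, Lt.c, Lt.b, Lt.f, Lt.v] [Lt.v, Lt.c] (pair_rel hinv hr (by decide +kernel)) h
    · rcases brec_true h with h | h
      · exact mRel_good (T := T) (by decide) [Lt.c, Lt.f, Lt.b, Lt.c, Lt.d, Lt.c, Lt.b, Lt.f, Lt.v] [Lt.f, Lt.b, Lt.c, Lt.d, Lt.c, Lt.b, Lt.f, Lt.v, Lt.c] (pair_rel hinv hr (by decide +kernel)) h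
      · exact mRel_good (T := T) (by decide) [Lt.v, Lt.c] [Lt.f, Lt.b, Lt.c, Lt.d, Lt.c, Lt.b, Lt.f, Lt.c, Lt.f, Lt.b, Lt.c, Lt.d, Lt.c, Lt.b, Lt.f, Lt.v] (pair_rel hinv hr (by decide +kernel)) h
theorem dM_9_s (hinv : ∀ x, g (inv x) = (g x)⁻¹) (hr : ∀ r ∈ rels, (r.map g).prod = 1) (j z1 z2 u : ℕ) (h : dM_9 j z1 z2 u = true) : GoodM (fa g) T MG M (cP g H) u := by
  unfold dM_9 at h
  rcases brec_true h with h | h
  · rcases brec_true h with h | h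
    · rcases brec_true h with h | h
      · exact mRel_good (T := T) (by decide) [Lt.f, Lt.c] [Lt.c, Lt.f] (pair_rel hinv hr (by decide +kernel)) h
      · exact mRel_good (T := T) (by decide) [Lt.b, Lt.c, Lt.d, Lt.c, Lt.b, Lt.f, Lt.b, Lt.f, Lt.b, Lt.c, Lt.d, Lt.c, Lt.b, Lt.f, Lt.v, Lt.b] [Lt.f, Lt.v] (pair_rel hinv hr (by decide +kernel)) h
    · rcases brec_true h with h | h
      · exact mRel_good (T := T) (by decide) [Lt.c, Lt.b, Lt.f, Lt.c, Lt.f, Lt.b, Lt.c, Lt.d, Lt.c, Lt.b, Lt.f, Lt.v, Lt.c] [Lt.d, Lt.c, Lt.b, Lt.f, Lt.v] (pair_rel hinv hr (by decide +kernel)) h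
      · rcases brec_true h with h | h
        · exact mRel_good (T := T) (by decide) [Lt.b, Lt.f, Lt.c, Lt.f, Lt.b, Lt.c, Lt.d, Lt.c, Lt.b, Lt.f, Lt.v, Lt.c] [Lt.c, Lt.d, Lt.c, Lt.b, Lt.f, Lt.v] (pair_rel hinv hr (by decide +kernel)) h
        · exact mRel_good (T := T) (by decide) [Lt.f, Lt.b, Lt.c, Lt.d, Lt.c, Lt.b, Lt.f, Lt.b, Lt.f, Lt.b, Lt.c, Lt.d, Lt.c, Lt.b, Lt.f, Lt.v] [Lt.v, Lt.b] (pair_rel hinv hr (by decide +kernel)) h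
  · rcases brec_true h with h | h
    · rcases brec_true h with h | h
      · exact mRel_good (T := T) (by decide) [Lt.f, Lt.b, Lt.c, Lt.d, Lt.c, Lt.b, Lt.f, Lt.b, Lt.f, Lt.b, Lt.c, Lt.d, Lt.c, Lt.b, Lt.f, Lt.v, Lt.b] [Lt.v] (pair_rel hinv hr (by decide +kernel)) h
      · exact mRel_good (T := T) (by decide) [Lt.d, Lt.c, Lt.b, Lt.f, Lt.c, Lt.f, Lt.b, Lt.c, Lt.d, Lt.c, Lt.b, Lt.f, Lt.v] [Lt.c, Lt.b, Lt.f, Lt.v, Lt.c] (pair_rel hinv hr (by decide +kernel)) h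
    · rcases brec_true h with h | h
      · exact mRel_good (T := T) (by decide) [Lt.c, Lt.b, Lt.c, Lt.b] [Lt.b, Lt.c] (pair_rel hinv hr (by decide +kernel)) h
      · rcases brec_true h with h | h
        · exact mRel_good (T := T) (by decide) [Lt.e, Lt.b, Lt.e] [Lt.b] (pair_rel hinv hr (by decide +kernel)) h
        · exact mRel_good (T := T) (by decide) [Lt.b, Lt.c, Lt.b, Lt.c] [Lt.c, Lt.b] (pair_rel hinv hr (by decide +kernel)) h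
theorem dM_10_s (hinv : ∀ x, g (inv x) = (g x)⁻¹) (hr : ∀ r ∈ rels, (r.map g).prod = 1) (j z1 z2 u : ℕ) (h : dM_10 j z1 z2 u = true) : GoodM (fa g) T MG M (cP g H) u := by
  unfold dM_10 at h
  rcases brec_true h with h | h
  · exact dM_8_s hinv hr j z1 z2 u h
  · exact dM_9_s hinv hr j z1 z2 u h
theorem dM_11_s (hinv : ∀ x, g (inv x) = (g x)⁻¹) (hr : ∀ r ∈ rels, (r.map g).prod = 1) (j z1 z2 u : ℕ) (h : dM_11 j z1 z2 u = true) : GoodM (fa g) T MG M (cP g H) u := by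
  unfold dM_11 at h
  rcases brec_true h with h | h
  · rcases brec_true h with h | h
    · rcases brec_true h with h | h
      · exact mRel_good (T := T) (by decide) [Lt.b, Lt.f, Lt.v, Lt.b] [Lt.c, Lt.d, Lt.c, Lt.b, Lt.f, Lt.b, Lt.f, Lt.b, Lt.c, Lt.d, Lt.c, Lt.b, Lt.f, Lt.v] (pair_rel hinv hr (by decide +kernel)) h
      · rcases brec_true h with h | h
        · exact mRel_good (T := T) (by decide) [Lt.f, Lt.b, Lt.c, Lt.d, Lt.c, Lt.b, Lt.f, Lt.c, Lt.f, Lt.b, Lt.c, Lt.d, Lt.c, Lt.b, Lt.f, Lt.v, Lt.c] [Lt.v] (pair_rel hinv hr (by decide +kernel)) h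
        · exact mRel_good (T := T) (by decide) [Lt.f, Lt.b, Lt.c, Lt.d, Lt.c, Lt.b, Lt.f, Lt.v, Lt.c] [Lt.c, Lt.f, Lt.b, Lt.c, Lt.d, Lt.c, Lt.b, Lt.f, Lt.v] (pair_rel hinv hr (by decide +kernel)) h
    · rcases brec_true h with h | h
      · exact mRel_good (T := T) (by decide) [Lt.d, Lt.c, Lt.b, Lt.f, Lt.v, Lt.c] [Lt.c, Lt.b, Lt.f, Lt.c, Lt.f, Lt.b, Lt.c, Lt.d, Lt.c, Lt.b, Lt.f, Lt.v] (pair_rel hinv hr (by decide +kernel)) h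
      · rcases brec_true h with h | h
        · exact mRel_good (T := T) (by decide) [Lt.c, Lt.e] [Lt.e, Lt.c] (pair_rel hinv hr (by decide +kernel)) h
        · exact mRel_good (T := T) (by decide) [Lt.b, Lt.f, Lt.b, Lt.c, Lt.d, Lt.c, Lt.b, Lt.f, Lt.v, Lt.b] [Lt.f, Lt.b, Lt.c, Lt.d, Lt.c, Lt.b, Lt.f, Lt.v] (pair_rel hinv hr (by decide +kernel)) h
  · rcases brec_true h with h | h
    · rcases brec_true h with h | h
      · exact mRel_good (T := T) (by decide) [Lt.b, Lt.c] [Lt.c, Lt.b, Lt.c, Lt.b] (pair_rel hinv hr (by decide +kernel)) h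
      · rcases brec_true h with h | h
        · exact mRel_good (T := T) (by decide) [Lt.f, Lt.d] [Lt.d, Lt.f] (pair_rel hinv hr (by decide +kernel)) h
        · exact mRel_good (T := T) (by decide) [Lt.a, Lt.c] [Lt.c, Lt.a] (pair_rel hinv hr (by decide +kernel)) h
    · rcases brec_true h with h | h
      · exact mRel_good (T := T) (by decide) [Lt.a, Lt.e] [Lt.e, Lt.a] (pair_rel hinv hr (by decide +kernel)) h
      · rcases brec_true h with h | h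
        · exact mRel_good (T := T) (by decide) [Lt.e, Lt.b] [Lt.b, Lt.e] (pair_rel hinv hr (by decide +kernel)) h
        · exact mRel_good (T := T) (by decide) [Lt.a, Lt.d] [Lt.d, Lt.a] (pair_rel hinv hr (by decide +kernel)) h
theorem dM_12_s (hinv : ∀ x, g (inv x) = (g x)⁻¹) (hr : ∀ r ∈ rels, (r.map g).prod = 1) (j z1 z2 u : ℕ) (h : dM_12 j z1 z2 u = true) : GoodM (fa g) T MG M (cP g H) u := by
  unfold dM_12 at h
  rcases brec_true h with h | h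
  · rcases brec_true h with h | h
    · exact mRel_good (T := T) (by decide) [Lt.e, Lt.a] [Lt.a, Lt.e] (pair_rel hinv hr (by decide +kernel)) h
    · rcases brec_true h with h | h
      · exact mRel_good (T := T) (by decide) [Lt.c, Lt.b, Lt.f, Lt.c, Lt.f, Lt.b, Lt.c, Lt.d, Lt.c, Lt.b, Lt.f, Lt.v] [Lt.d, Lt.c, Lt.b, Lt.f, Lt.v, Lt.c] (pair_rel hinv hr (by decide +kernel)) h
      · exact mRel_good (T := T) (by decide) [Lt.c, Lt.d, Lt.c, Lt.b, Lt.f, Lt.b, Lt.f, Lt.b, Lt.c, Lt.d, Lt.c, Lt.b, Lt.f, Lt.v, Lt.b, Lt.v] [Lt.b, Lt.f] (pair_rel hinv hr (by decide +kernel)) h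
  · rcases brec_true h with h | h
    · exact mRel_good (T := T) (by decide) [Lt.f, Lt.b, Lt.c, Lt.d, Lt.c, Lt.b, Lt.f, Lt.c, Lt.f, Lt.b, Lt.c, Lt.d, Lt.c, Lt.b, Lt.f] [Lt.v, Lt.c, Lt.v] (pair_rel hinv hr (by decide +kernel)) h
    · rcases brec_true h with h | h
      · exact mRel_good (T := T) (by decide) [Lt.c, Lt.b, Lt.f, Lt.b, Lt.f, Lt.b, Lt.c, Lt.d, Lt.c, Lt.b, Lt.f, Lt.v, Lt.b] [Lt.d, Lt.c, Lt.b, Lt.f, Lt.v] (pair_rel hinv hr (by decide +kernel)) h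
      · exact mRel_good (T := T) (by decide) [Lt.c, Lt.d, Lt.c, Lt.b, Lt.f, Lt.v] [Lt.b, Lt.f, Lt.b, Lt.f, Lt.b, Lt.c, Lt.d, Lt.c, Lt.b, Lt.f, Lt.v, Lt.b] (pair_rel hinv hr (by decide +kernel)) h
theorem dM_13_s (hinv : ∀ x, g (inv x) = (g x)⁻¹) (hr : ∀ r ∈ rels, (r.map g).prod = 1) (j z1 z2 u : ℕ) (h : dM_13 j z1 z2 u = true) : GoodM (fa g) T MG M (cP g H) u := by
  unfold dM_13 at h
  rcases brec_true h with h | h
  · rcases brec_true h with h | h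
    · exact mRel_good (T := T) (by decide) [Lt.b, Lt.f, Lt.b, Lt.c, Lt.d, Lt.c, Lt.b, Lt.f, Lt.v] [Lt.f, Lt.b, Lt.c, Lt.d, Lt.c, Lt.b, Lt.f, Lt.v, Lt.b] (pair_rel hinv hr (by decide +kernel)) h
    · rcases brec_true h with h | h
      · exact mRel_good (T := T) (by decide) [Lt.e, Lt.f, Lt.e] [Lt.f] (pair_rel hinv hr (by decide +kernel)) h
      · exact mRel_good (T := T) (by decide) [Lt.d, Lt.c, Lt.b, Lt.f, Lt.v] [Lt.c, Lt.b, Lt.f, Lt.b, Lt.f, Lt.b, Lt.c, Lt.d, Lt.c, Lt.b, Lt.f, Lt.v, Lt.b] (pair_rel hinv hr (by decide +kernel)) h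
  · rcases brec_true h with h | h
    · rcases brec_true h with h | h
      · exact mRel_good (T := T) (by decide) [Lt.b, Lt.c, Lt.d, Lt.c, Lt.b, Lt.f, Lt.v] [Lt.f, Lt.b, Lt.f, Lt.b, Lt.c, Lt.d, Lt.c, Lt.b, Lt.f, Lt.v, Lt.b] (pair_rel hinv hr (by decide +kernel)) h
      · exact mRel_good (T := T) (by decide) [Lt.e, Lt.c, Lt.e] [Lt.c] (pair_rel hinv hr (by decide +kernel)) h
    · rcases brec_true h with h | h
      · exact mRel_good (T := T) (by decide) [Lt.v, Lt.f, Lt.b, Lt.c, Lt.d, Lt.c, Lt.b, Lt.f, Lt.b, Lt.f, Lt.b, Lt.c, Lt.d, Lt.c, Lt.b, Lt.f, Lt.v] [Lt.b] (pair_rel hinv hr (by decide +kernel)) h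
      · exact mRel_good (T := T) (by decide) [Lt.b, Lt.c, Lt.d, Lt.c, Lt.b, Lt.f, Lt.c, Lt.f, Lt.b, Lt.c, Lt.d, Lt.c, Lt.b, Lt.f, Lt.v] [Lt.f, Lt.v, Lt.c] (pair_rel hinv hr (by decide +kernel)) h
theorem dM_14_s (hinv : ∀ x, g (inv x) = (g x)⁻¹) (hr : ∀ r ∈ rels, (r.map g).prod = 1) (j z1 z2 u : ℕ) (h : dM_14 j z1 z2 u = true) : GoodM (fa g) T MG M (cP g H) u := by
  unfold dM_14 at h
  rcases brec_true h with h | h
  · exact dM_12_s hinv hr j z1 z2 u h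
  · exact dM_13_s hinv hr j z1 z2 u h
theorem dM_15_s (hinv : ∀ x, g (inv x) = (g x)⁻¹) (hr : ∀ r ∈ rels, (r.map g).prod = 1) (j z1 z2 u : ℕ) (h : dM_15 j z1 z2 u = true) : GoodM (fa g) T MG M (cP g H) u := by
  unfold dM_15 at h
  rcases brec_true h with h | h
  · exact dM_11_s hinv hr j z1 z2 u h
  · exact dM_14_s hinv hr j z1 z2 u h
theorem dM_16_s (hinv : ∀ x, g (inv x) = (g x)⁻¹) (hr : ∀ r ∈ rels, (r.map g).prod = 1) (j z1 z2 u : ℕ) (h : dM_16 j z1 z2 u = true) : GoodM (fa g) T MG M (cP g H) u := by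
  unfold dM_16 at h
  rcases brec_true h with h | h
  · exact dM_10_s hinv hr j z1 z2 u h
  · exact dM_15_s hinv hr j z1 z2 u h
theorem dM_17_s (hinv : ∀ x, g (inv x) = (g x)⁻¹) (hr : ∀ r ∈ rels, (r.map g).prod = 1) (j z1 z2 u : ℕ) (h : dM_17 j z1 z2 u = true) : GoodM (fa g) T MG M (cP g H) u := by
  unfold dM_17 at h
  rcases brec_true h with h | h
  · exact dM_7_s hinv hr j z1 z2 u h
  · exact dM_16_s hinv hr j z1 z2 u h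
theorem dM_18_s (hinv : ∀ x, g (inv x) = (g x)⁻¹) (hr : ∀ r ∈ rels, (r.map g).prod = 1) (j z1 z2 u : ℕ) (h : dM_18 j z1 z2 u = true) : GoodM (fa g) T MG M (cP g H) u := by
  unfold dM_18 at h
  rcases brec_true h with h | h
  · rcases brec_true h with h | h
    · exact mRel_good (T := T) (by decide) [Lt.d, Lt.f, Lt.d] [Lt.f] (pair_rel hinv hr (by decide +kernel)) h
    · rcases brec_true h with h | h
      · exact mRel_good (T := T) (by decide) [Lt.d, Lt.c, Lt.b, Lt.f, Lt.v] [Lt.c, Lt.b, Lt.f, Lt.c, Lt.f, Lt.b, Lt.c, Lt.d, Lt.c, Lt.b, Lt.f, Lt.v, Lt.c] (pair_rel hinv hr (by decide +kernel)) h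
      · exact mRel_good (T := T) (by decide) [Lt.f, Lt.b, Lt.c, Lt.d, Lt.c, Lt.b, Lt.f, Lt.v, Lt.c, Lt.v] [Lt.c, Lt.f, Lt.b, Lt.c, Lt.d, Lt.c, Lt.b, Lt.f] (pair_rel hinv hr (by decide +kernel)) h
  · rcases brec_true h with h | h
    · rcases brec_true h with h | h
      · exact mRel_good (T := T) (by decide) [Lt.f, Lt.v, Lt.c, Lt.v] [Lt.b, Lt.c, Lt.d, Lt.c, Lt.b, Lt.f, Lt.c, Lt.f, Lt.b, Lt.c, Lt.d, Lt.c, Lt.b, Lt.f] (pair_rel hinv hr (by decide +kernel)) h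
      · exact mRel_good (T := T) (by decide) [Lt.v, Lt.f, Lt.b, Lt.c, Lt.d, Lt.c, Lt.b, Lt.f, Lt.a, Lt.b, Lt.c, Lt.d, Lt.f, Lt.b, Lt.c, Lt.d, Lt.c, Lt.b, Lt.f, Lt.v, Lt.d] [Lt.a, Lt.b, Lt.c] (pair_rel hinv hr (by decide +kernel)) h
    · rcases brec_true h with h | h
      · exact mRel_good (T := T) (by decide) [Lt.d, Lt.c, Lt.b, Lt.f, Lt.c, Lt.f, Lt.b, Lt.c, Lt.d, Lt.c, Lt.b, Lt.f, Lt.v, Lt.c, Lt.v] [Lt.c, Lt.b, Lt.f] (pair_rel hinv hr (by decide +kernel)) h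
      · exact mRel_good (T := T) (by decide) [Lt.v, Lt.d, Lt.c, Lt.b, Lt.a, Lt.v] [Lt.f, Lt.b, Lt.c, Lt.d, Lt.c, Lt.b, Lt.f, Lt.d, Lt.c, Lt.b, Lt.a, Lt.f, Lt.b, Lt.c, Lt.d, Lt.c, Lt.b, Lt.f] (pair_rel hinv hr (by decide +kernel)) h
theorem dM_19_s (hinv : ∀ x, g (inv x) = (g x)⁻¹) (hr : ∀ r ∈ rels, (r.map g).prod = 1) (j z1 z2 u : ℕ) (h : dM_19 j z1 z2 u = true) : GoodM (fa g) T MG M (cP g H) u := by
  unfold dM_19 at h
  rcases brec_true h with h | h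
  · rcases brec_true h with h | h
    · rcases brec_true h with h | h
      · exact mRel_good (T := T) (by decide) [Lt.c, Lt.a] [Lt.a, Lt.c] (pair_rel hinv hr (by decide +kernel)) h
      · exact mRel_good (T := T) (by decide) [Lt.f, Lt.c, Lt.f, Lt.b, Lt.c, Lt.d, Lt.c, Lt.b, Lt.f, Lt.v] [Lt.b, Lt.c, Lt.d, Lt.c, Lt.b, Lt.f, Lt.v, Lt.c] (pair_rel hinv hr (by decide +kernel)) h
    · rcases brec_true h with h | h
      · exact mRel_good (T := T) (by decide) [Lt.c, Lt.f] [Lt.f, Lt.c] (pair_rel hinv hr (by decide +kernel)) h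
      · exact mRel_good (T := T) (by decide) [Lt.e, Lt.f] [Lt.f, Lt.e] (pair_rel hinv hr (by decide +kernel)) h
  · rcases brec_true h with h | h
    · rcases brec_true h with h | h
      · exact mRel_good (T := T) (by decide) [Lt.f, Lt.b, Lt.c, Lt.d, Lt.c, Lt.b, Lt.f, Lt.v] [Lt.b, Lt.f, Lt.b, Lt.c, Lt.d, Lt.c, Lt.b, Lt.f, Lt.v, Lt.b] (pair_rel hinv hr (by decide +kernel)) h
      · exact mRel_good (T := T) (by decide) [Lt.e, Lt.c] [Lt.c, Lt.e] (pair_rel hinv hr (by decide +kernel)) h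
    · rcases brec_true h with h | h
      · exact mRel_good (T := T) (by decide) [Lt.c, Lt.d, Lt.c, Lt.b, Lt.f, Lt.v, Lt.b, Lt.v] [Lt.b, Lt.f, Lt.b, Lt.f, Lt.b, Lt.c, Lt.d, Lt.c, Lt.b, Lt.f] (pair_rel hinv hr (by decide +kernel)) h
      · exact mRel_good (T := T) (by decide) [Lt.b, Lt.f, Lt.b, Lt.f, Lt.b, Lt.c, Lt.d, Lt.c, Lt.b, Lt.f, Lt.v, Lt.b, Lt.v] [Lt.c, Lt.d, Lt.c, Lt.b, Lt.f] (pair_rel hinv hr (by decide +kernel)) h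
theorem dM_20_s (hinv : ∀ x, g (inv x) = (g x)⁻¹) (hr : ∀ r ∈ rels, (r.map g).prod = 1) (j z1 z2 u : ℕ) (h : dM_20 j z1 z2 u = true) : GoodM (fa g) T MG M (cP g H) u := by
  unfold dM_20 at h
  rcases brec_true h with h | h
  · exact dM_18_s hinv hr j z1 z2 u h
  · exact dM_19_s hinv hr j z1 z2 u h
theorem dM_21_s (hinv : ∀ x, g (inv x) = (g x)⁻¹) (hr : ∀ r ∈ rels, (r.map g).prod = 1) (j z1 z2 u : ℕ) (h : dM_21 j z1 z2 u = true) : GoodM (fa g) T MG M (cP g H) u := by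
  unfold dM_21 at h
  rcases brec_true h with h | h
  · rcases brec_true h with h | h
    · rcases brec_true h with h | h
      · exact mRel_good (T := T) (by decide) [Lt.b, Lt.c, Lt.b, Lt.c, Lt.b] [Lt.c] (pair_rel hinv hr (by decide +kernel)) h
      · exact mRel_good (T := T) (by decide) [Lt.v, Lt.f, Lt.b, Lt.c, Lt.d, Lt.c, Lt.b, Lt.f, Lt.b, Lt.f, Lt.b, Lt.c, Lt.d, Lt.c, Lt.b, Lt.f] [Lt.b, Lt.v] (pair_rel hinv hr (by decide +kernel)) h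
    · rcases brec_true h with h | h
      · exact mRel_good (T := T) (by decide) [Lt.b, Lt.f, Lt.c, Lt.f, Lt.b, Lt.c, Lt.d, Lt.c, Lt.b, Lt.f, Lt.v] [Lt.c, Lt.d, Lt.c, Lt.b, Lt.f, Lt.v, Lt.c] (pair_rel hinv hr (by decide +kernel)) h
      · exact mRel_good (T := T) (by decide) [Lt.v, Lt.d, Lt.c, Lt.b, Lt.a] [Lt.f, Lt.b, Lt.c, Lt.d, Lt.c, Lt.b, Lt.f, Lt.d, Lt.c, Lt.b, Lt.a, Lt.f, Lt.b, Lt.c, Lt.d, Lt.c, Lt.b, Lt.f, Lt.v] (pair_rel hinv hr (by decide +kernel)) h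
  · rcases brec_true h with h | h
    · rcases brec_true h with h | h
      · exact mRel_good (T := T) (by decide) [Lt.b, Lt.c, Lt.d, Lt.c, Lt.b, Lt.f, Lt.v] [Lt.f, Lt.c, Lt.f, Lt.b, Lt.c, Lt.d, Lt.c, Lt.b, Lt.f, Lt.v, Lt.c] (pair_rel hinv hr (by decide +kernel)) h
      · exact mRel_good (T := T) (by decide) [Lt.b, Lt.c, Lt.d, Lt.c, Lt.b, Lt.f, Lt.c, Lt.f, Lt.b, Lt.c, Lt.d, Lt.c, Lt.b, Lt.f, Lt.v, Lt.c, Lt.v] [Lt.f] (pair_rel hinv hr (by decide +kernel)) h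
    · rcases brec_true h with h | h
      · exact mRel_good (T := T) (by decide) [Lt.f, Lt.b, Lt.f, Lt.b, Lt.c, Lt.d, Lt.c, Lt.b, Lt.f, Lt.v] [Lt.b, Lt.c, Lt.d, Lt.c, Lt.b, Lt.f, Lt.v, Lt.b] (pair_rel hinv hr (by decide +kernel)) h
      · exact mRel_good (T := T) (by decide) [Lt.b, Lt.v] [Lt.v, Lt.f, Lt.b, Lt.c, Lt.d, Lt.c, Lt.b, Lt.f, Lt.b, Lt.f, Lt.b, Lt.c, Lt.d, Lt.c, Lt.b, Lt.f] (pair_rel hinv hr (by decide +kernel)) h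
theorem dM_22_s (hinv : ∀ x, g (inv x) = (g x)⁻¹) (hr : ∀ r ∈ rels, (r.map g).prod = 1) (j z1 z2 u : ℕ) (h : dM_22 j z1 z2 u = true) : GoodM (fa g) T MG M (cP g H) u := by
  unfold dM_22 at h
  rcases brec_true h with h | h
  · rcases brec_true h with h | h
    · rcases brec_true h with h | h
      · exact mRel_good (T := T) (by decide) [Lt.b, Lt.e, Lt.b] [Lt.e] (pair_rel hinv hr (by decide +kernel)) h
      · exact mRel_good (T := T) (by decide) [Lt.b, Lt.c, Lt.d, Lt.c, Lt.b, Lt.f, Lt.v, Lt.b, Lt.v] [Lt.f, Lt.b, Lt.f, Lt.b, Lt.c, Lt.d, Lt.c, Lt.b, Lt.f] (pair_rel hinv hr (by decide +kernel)) h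
    · rcases brec_true h with h | h
      · exact mRel_good (T := T) (by decide) [Lt.d, Lt.c, Lt.d, Lt.c, Lt.d, Lt.c, Lt.d, Lt.c, Lt.a] [] (pair_rel hinv hr (by decide +kernel)) h
      · exact mRel_good (T := T) (by decide) [Lt.f, Lt.b, Lt.c, Lt.d, Lt.c, Lt.b, Lt.f, Lt.v, Lt.b, Lt.v] [Lt.b, Lt.f, Lt.b, Lt.c, Lt.d, Lt.c, Lt.b, Lt.f] (pair_rel hinv hr (by decide +kernel)) h
  · rcases brec_true h with h | h
    · rcases brec_true h with h | h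
      · exact mRel_good (T := T) (by decide) [Lt.c, Lt.b, Lt.f, Lt.v, Lt.c, Lt.v] [Lt.d, Lt.c, Lt.b, Lt.f, Lt.c, Lt.f, Lt.b, Lt.c, Lt.d, Lt.c, Lt.b, Lt.f] (pair_rel hinv hr (by decide +kernel)) h
      · exact mRel_good (T := T) (by decide) [Lt.f, Lt.v, Lt.b] [Lt.b, Lt.c, Lt.d, Lt.c, Lt.b, Lt.f, Lt.b, Lt.f, Lt.b, Lt.c, Lt.d, Lt.c, Lt.b, Lt.f, Lt.v] (pair_rel hinv hr (by decide +kernel)) h
    · rcases brec_true h with h | h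
      · exact mRel_good (T := T) (by decide) [Lt.b, Lt.f, Lt.b, Lt.f, Lt.b, Lt.c, Lt.d, Lt.c, Lt.b, Lt.f, Lt.v] [Lt.c, Lt.d, Lt.c, Lt.b, Lt.f, Lt.v, Lt.b] (pair_rel hinv hr (by decide +kernel)) h
      · rcases brec_true h with h | h
        · exact mRel_good (T := T) (by decide) [Lt.c, Lt.b, Lt.f, Lt.c, Lt.f, Lt.b, Lt.c, Lt.d, Lt.c, Lt.b, Lt.f, Lt.v, Lt.c, Lt.v] [Lt.d, Lt.c, Lt.b, Lt.f] (pair_rel hinv hr (by decide +kernel)) h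
        · exact mRel_good (T := T) (by decide) [Lt.c, Lt.b, Lt.f, Lt.b, Lt.f, Lt.b, Lt.c, Lt.d, Lt.c, Lt.b, Lt.f, Lt.v, Lt.b, Lt.v] [Lt.d, Lt.c, Lt.b, Lt.f] (pair_rel hinv hr (by decide +kernel)) h
theorem dM_23_s (hinv : ∀ x, g (inv x) = (g x)⁻¹) (hr : ∀ r ∈ rels, (r.map g).prod = 1) (j z1 z2 u : ℕ) (h : dM_23 j z1 z2 u = true) : GoodM (fa g) T MG M (cP g H) u := by
  unfold dM_23 at h
  rcases brec_true h with h | h
  · exact dM_21_s hinv hr j z1 z2 u h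
  · exact dM_22_s hinv hr j z1 z2 u h
theorem dM_24_s (hinv : ∀ x, g (inv x) = (g x)⁻¹) (hr : ∀ r ∈ rels, (r.map g).prod = 1) (j z1 z2 u : ℕ) (h : dM_24 j z1 z2 u = true) : GoodM (fa g) T MG M (cP g H) u := by
  unfold dM_24 at h
  rcases brec_true h with h | h
  · exact dM_20_s hinv hr j z1 z2 u h
  · exact dM_23_s hinv hr j z1 z2 u h
theorem dM_25_s (hinv : ∀ x, g (inv x) = (g x)⁻¹) (hr : ∀ r ∈ rels, (r.map g).prod = 1) (j z1 z2 u : ℕ) (h : dM_25 j z1 z2 u = true) : GoodM (fa g) T MG M (cP g H) u := by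
  unfold dM_25 at h
  rcases brec_true h with h | h
  · rcases brec_true h with h | h
    · rcases brec_true h with h | h
      · exact mRel_good (T := T) (by decide) [Lt.b, Lt.f, Lt.b] [Lt.f, Lt.b, Lt.f] (pair_rel hinv hr (by decide +kernel)) h
      · exact mRel_good (T := T) (by decide) [Lt.v, Lt.f, Lt.b, Lt.c, Lt.d, Lt.c, Lt.b, Lt.f, Lt.d, Lt.c, Lt.b, Lt.a, Lt.f, Lt.b, Lt.c, Lt.d, Lt.c, Lt.b, Lt.f, Lt.v] [Lt.d, Lt.c, Lt.b, Lt.a] (pair_rel hinv hr (by decide +kernel)) h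
    · rcases brec_true h with h | h
      · exact mRel_good (T := T) (by decide) [Lt.f, Lt.v, Lt.c] [Lt.b, Lt.c, Lt.d, Lt.c, Lt.b, Lt.f, Lt.c, Lt.f, Lt.b, Lt.c, Lt.d, Lt.c, Lt.b, Lt.f, Lt.v] (pair_rel hinv hr (by decide +kernel)) h
      · rcases brec_true h with h | h
        · exact mRel_good (T := T) (by decide) [Lt.f, Lt.c, Lt.f, Lt.b, Lt.c, Lt.d, Lt.c, Lt.b, Lt.f, Lt.v, Lt.c, Lt.v] [Lt.b, Lt.c, Lt.d, Lt.c, Lt.b, Lt.f] (pair_rel hinv hr (by decide +kernel)) h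
        · exact mRel_good (T := T) (by decide) [Lt.b, Lt.c, Lt.b] [Lt.c, Lt.b, Lt.c] (pair_rel hinv hr (by decide +kernel)) h
  · rcases brec_true h with h | h
    · rcases brec_true h with h | h
      · exact mRel_good (T := T) (by decide) [Lt.b, Lt.c, Lt.d, Lt.c, Lt.b, Lt.f, Lt.b, Lt.f, Lt.b, Lt.c, Lt.d, Lt.c, Lt.b, Lt.f, Lt.v, Lt.b, Lt.v] [Lt.f] (pair_rel hinv hr (by decide +kernel)) h
      · exact mRel_good (T := T) (by decide) [Lt.b, Lt.d, Lt.b] [Lt.d] (pair_rel hinv hr (by decide +kernel)) h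
    · rcases brec_true h with h | h
      · exact mRel_good (T := T) (by decide) [Lt.d, Lt.c, Lt.b, Lt.f, Lt.v, Lt.c, Lt.v] [Lt.c, Lt.b, Lt.f, Lt.c, Lt.f, Lt.b, Lt.c, Lt.d, Lt.c, Lt.b, Lt.f] (pair_rel hinv hr (by decide +kernel)) h
      · rcases brec_true h with h | h
        · exact mRel_good (T := T) (by decide) [Lt.c, Lt.b, Lt.f, Lt.v] [Lt.d, Lt.c, Lt.b, Lt.f, Lt.c, Lt.f, Lt.b, Lt.c, Lt.d, Lt.c, Lt.b, Lt.f, Lt.v, Lt.c] (pair_rel hinv hr (by decide +kernel)) h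
        · exact mRel_good (T := T) (by decide) [Lt.f, Lt.c, Lt.f] [Lt.c] (pair_rel hinv hr (by decide +kernel)) h
theorem dM_26_s (hinv : ∀ x, g (inv x) = (g x)⁻¹) (hr : ∀ r ∈ rels, (r.map g).prod = 1) (j z1 z2 u : ℕ) (h : dM_26 j z1 z2 u = true) : GoodM (fa g) T MG M (cP g H) u := by
  unfold dM_26 at h
  rcases brec_true h with h | h
  · rcases brec_true h with h | h
    · rcases brec_true h with h | h
      · exact mRel_good (T := T) (by decide) [Lt.d, Lt.c, Lt.b, Lt.f, Lt.b, Lt.f, Lt.b, Lt.c, Lt.d, Lt.c, Lt.b, Lt.f, Lt.v, Lt.b, Lt.v] [Lt.c, Lt.b, Lt.f] (pair_rel hinv hr (by decide +kernel)) h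
      · exact mRel_good (T := T) (by decide) [Lt.b, Lt.f, Lt.b, Lt.f] [Lt.f, Lt.b] (pair_rel hinv hr (by decide +kernel)) h
    · rcases brec_true h with h | h
      · exact mRel_good (T := T) (by decide) [Lt.f, Lt.b] [Lt.b, Lt.f, Lt.b, Lt.f] (pair_rel hinv hr (by decide +kernel)) h
      · rcases brec_true h with h | h
        · exact mRel_good (T := T) (by decide) [Lt.f, Lt.a] [Lt.a, Lt.f] (pair_rel hinv hr (by decide +kernel)) h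
        · exact mRel_good (T := T) (by decide) [Lt.a, Lt.c, Lt.a] [Lt.c] (pair_rel hinv hr (by decide +kernel)) h
  · rcases brec_true h with h | h
    · rcases brec_true h with h | h
      · exact mRel_good (T := T) (by decide) [Lt.v, Lt.a, Lt.b, Lt.c, Lt.d, Lt.v] [Lt.f, Lt.b, Lt.c, Lt.d, Lt.c, Lt.b, Lt.f, Lt.a, Lt.b, Lt.c, Lt.d, Lt.f, Lt.b, Lt.c, Lt.d, Lt.c, Lt.b, Lt.f] (pair_rel hinv hr (by decide +kernel)) h
      · rcases brec_true h with h | h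
        · exact mRel_good (T := T) (by decide) [Lt.d, Lt.a] [Lt.a, Lt.d] (pair_rel hinv hr (by decide +kernel)) h
        · exact mRel_good (T := T) (by decide) [Lt.a, Lt.d, Lt.a] [Lt.d] (pair_rel hinv hr (by decide +kernel)) h
    · rcases brec_true h with h | h
      · exact mRel_good (T := T) (by decide) [Lt.f, Lt.b, Lt.c, Lt.d, Lt.c, Lt.b, Lt.f, Lt.b, Lt.f, Lt.b, Lt.c, Lt.d, Lt.c, Lt.b, Lt.f, Lt.v, Lt.b, Lt.v] [] (pair_rel hinv hr (by decide +kernel)) h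
      · rcases brec_true h with h | h
        · exact mRel_good (T := T) (by decide) [Lt.f, Lt.b, Lt.f, Lt.b, Lt.c, Lt.d, Lt.c, Lt.b, Lt.f, Lt.v, Lt.b, Lt.v] [Lt.b, Lt.c, Lt.d, Lt.c, Lt.b, Lt.f] (pair_rel hinv hr (by decide +kernel)) h
        · exact mRel_good (T := T) (by decide) [Lt.f, Lt.b, Lt.f, Lt.b, Lt.c, Lt.d, Lt.c, Lt.b, Lt.f] [Lt.b, Lt.c, Lt.d, Lt.c, Lt.b, Lt.f, Lt.v, Lt.b, Lt.v] (pair_rel hinv hr (by decide +kernel)) h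
theorem dM_27_s (hinv : ∀ x, g (inv x) = (g x)⁻¹) (hr : ∀ r ∈ rels, (r.map g).prod = 1) (j z1 z2 u : ℕ) (h : dM_27 j z1 z2 u = true) : GoodM (fa g) T MG M (cP g H) u := by
  unfold dM_27 at h
  rcases brec_true h with h | h
  · exact dM_25_s hinv hr j z1 z2 u h
  · exact dM_26_s hinv hr j z1 z2 u h
theorem dM_28_s (hinv : ∀ x, g (inv x) = (g x)⁻¹) (hr : ∀ r ∈ rels, (r.map g).prod = 1) (j z1 z2 u : ℕ) (h : dM_28 j z1 z2 u = true) : GoodM (fa g) T MG M (cP g H) u := by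
  unfold dM_28 at h
  rcases brec_true h with h | h
  · rcases brec_true h with h | h
    · exact mRel_good (T := T) (by decide) [Lt.c, Lt.b] [Lt.b, Lt.c, Lt.b, Lt.c] (pair_rel hinv hr (by decide +kernel)) h
    · rcases brec_true h with h | h
      · exact mRel_good (T := T) (by decide) [Lt.c, Lt.d, Lt.c, Lt.b, Lt.f, Lt.v] [Lt.b, Lt.f, Lt.c, Lt.f, Lt.b, Lt.c, Lt.d, Lt.c, Lt.b, Lt.f, Lt.v, Lt.c] (pair_rel hinv hr (by decide +kernel)) h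
      · exact mRel_good (T := T) (by decide) [Lt.c, Lt.b, Lt.f, Lt.v, Lt.b, Lt.v] [Lt.d, Lt.c, Lt.b, Lt.f, Lt.b, Lt.f, Lt.b, Lt.c, Lt.d, Lt.c, Lt.b, Lt.f] (pair_rel hinv hr (by decide +kernel)) h
  · rcases brec_true h with h | h
    · exact mRel_good (T := T) (by decide) [Lt.c, Lt.b, Lt.c] [Lt.b, Lt.c, Lt.b] (pair_rel hinv hr (by decide +kernel)) h
    · rcases brec_true h with h | h
      · exact mRel_good (T := T) (by decide) [Lt.b, Lt.f, Lt.v, Lt.c, Lt.v] [Lt.c, Lt.d, Lt.c, Lt.b, Lt.f, Lt.c, Lt.f, Lt.b, Lt.c, Lt.d, Lt.c, Lt.b, Lt.f] (pair_rel hinv hr (by decide +kernel)) h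
      · exact mRel_good (T := T) (by decide) [Lt.a, Lt.f] [Lt.f, Lt.a] (pair_rel hinv hr (by decide +kernel)) h
theorem dM_29_s (hinv : ∀ x, g (inv x) = (g x)⁻¹) (hr : ∀ r ∈ rels, (r.map g).prod = 1) (j z1 z2 u : ℕ) (h : dM_29 j z1 z2 u = true) : GoodM (fa g) T MG M (cP g H) u := by
  unfold dM_29 at h
  rcases brec_true h with h | h
  · rcases brec_true h with h | h
    · exact mRel_good (T := T) (by decide) [Lt.e, Lt.a, Lt.e] [Lt.a] (pair_rel hinv hr (by decide +kernel)) h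
    · rcases brec_true h with h | h
      · exact mRel_good (T := T) (by decide) [Lt.f, Lt.e] [Lt.e, Lt.f] (pair_rel hinv hr (by decide +kernel)) h
      · exact mRel_good (T := T) (by decide) [Lt.c, Lt.b, Lt.c, Lt.b, Lt.c] [Lt.b] (pair_rel hinv hr (by decide +kernel)) h
  · rcases brec_true h with h | h
    · rcases brec_true h with h | h
      · exact mRel_good (T := T) (by decide) [Lt.v, Lt.f, Lt.b, Lt.c, Lt.d, Lt.c, Lt.b, Lt.f, Lt.c, Lt.f, Lt.b, Lt.c, Lt.d, Lt.c, Lt.b, Lt.f, Lt.v] [Lt.c] (pair_rel hinv hr (by decide +kernel)) h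
      · exact mRel_good (T := T) (by decide) [Lt.f, Lt.b, Lt.c, Lt.d, Lt.c, Lt.b, Lt.f, Lt.b, Lt.f, Lt.b, Lt.c, Lt.d, Lt.c, Lt.b, Lt.f] [Lt.v, Lt.b, Lt.v] (pair_rel hinv hr (by decide +kernel)) h
    · rcases brec_true h with h | h
      · exact mRel_good (T := T) (by decide) [Lt.c, Lt.v] [Lt.v, Lt.f, Lt.b, Lt.c, Lt.d, Lt.c, Lt.b, Lt.f, Lt.c, Lt.f, Lt.b, Lt.c, Lt.d, Lt.c, Lt.b, Lt.f] (pair_rel hinv hr (by decide +kernel)) h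
      · exact mRel_good (T := T) (by decide) [Lt.c, Lt.d, Lt.c, Lt.b, Lt.f, Lt.v, Lt.c, Lt.v] [Lt.b, Lt.f, Lt.c, Lt.f, Lt.b, Lt.c, Lt.d, Lt.c, Lt.b, Lt.f] (pair_rel hinv hr (by decide +kernel)) h
theorem dM_30_s (hinv : ∀ x, g (inv x) = (g x)⁻¹) (hr : ∀ r ∈ rels, (r.map g).prod = 1) (j z1 z2 u : ℕ) (h : dM_30 j z1 z2 u = true) : GoodM (fa g) T MG M (cP g H) u := by
  unfold dM_30 at h
  rcases brec_true h with h | h
  · exact dM_28_s hinv hr j z1 z2 u h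
  · exact dM_29_s hinv hr j z1 z2 u h
theorem dM_31_s (hinv : ∀ x, g (inv x) = (g x)⁻¹) (hr : ∀ r ∈ rels, (r.map g).prod = 1) (j z1 z2 u : ℕ) (h : dM_31 j z1 z2 u = true) : GoodM (fa g) T MG M (cP g H) u := by
  unfold dM_31 at h
  rcases brec_true h with h | h
  · rcases brec_true h with h | h
    · rcases brec_true h with h | h
      · exact mRel_good (T := T) (by decide) [Lt.c, Lt.b, Lt.f, Lt.v, Lt.d, Lt.c, Lt.b] [Lt.d, Lt.c, Lt.b, Lt.f, Lt.d, Lt.c, Lt.b, Lt.a, Lt.f, Lt.b, Lt.c, Lt.d, Lt.c, Lt.b, Lt.f, Lt.v, Lt.a] (pair_rel hinv hr (by decide +kernel)) h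
      · exact mRel_good (T := T) (by decide) [Lt.b, Lt.c, Lt.d, Lt.c, Lt.b, Lt.f, Lt.b, Lt.f, Lt.b, Lt.c, Lt.d, Lt.c, Lt.b, Lt.f] [Lt.f, Lt.v, Lt.b, Lt.v] (pair_rel hinv hr (by decide +kernel)) h
    · rcases brec_true h with h | h
      · exact mRel_good (T := T) (by decide) [Lt.c, Lt.d, Lt.c, Lt.b, Lt.f, Lt.c, Lt.f, Lt.b, Lt.c, Lt.d, Lt.c, Lt.b, Lt.f, Lt.v, Lt.c, Lt.v] [Lt.b, Lt.f] (pair_rel hinv hr (by decide +kernel)) h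
      · exact mRel_good (T := T) (by decide) [Lt.b, Lt.f, Lt.v] [Lt.c, Lt.d, Lt.c, Lt.b, Lt.f, Lt.b, Lt.f, Lt.b, Lt.c, Lt.d, Lt.c, Lt.b, Lt.f, Lt.v, Lt.b] (pair_rel hinv hr (by decide +kernel)) h
  · rcases brec_true h with h | h
    · rcases brec_true h with h | h
      · exact mRel_good (T := T) (by decide) [Lt.f, Lt.b, Lt.c, Lt.d, Lt.c, Lt.b, Lt.f, Lt.v, Lt.b, Lt.v, Lt.f] [Lt.b, Lt.f, Lt.b, Lt.c, Lt.d, Lt.c, Lt.b] (pair_rel hinv hr (by decide +kernel)) h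
      · exact mRel_good (T := T) (by decide) [Lt.f, Lt.b, Lt.f, Lt.b] [Lt.b, Lt.f] (pair_rel hinv hr (by decide +kernel)) h
    · rcases brec_true h with h | h
      · exact mRel_good (T := T) (by decide) [Lt.b, Lt.f, Lt.v, Lt.b, Lt.v] [Lt.c, Lt.d, Lt.c, Lt.b, Lt.f, Lt.b, Lt.f, Lt.b, Lt.c, Lt.d, Lt.c, Lt.b, Lt.f] (pair_rel hinv hr (by decide +kernel)) h
      · exact mRel_good (T := T) (by decide) [Lt.a, Lt.e, Lt.a] [Lt.e] (pair_rel hinv hr (by decide +kernel)) h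
theorem dM_32_s (hinv : ∀ x, g (inv x) = (g x)⁻¹) (hr : ∀ r ∈ rels, (r.map g).prod = 1) (j z1 z2 u : ℕ) (h : dM_32 j z1 z2 u = true) : GoodM (fa g) T MG M (cP g H) u := by
  unfold dM_32 at h
  rcases brec_true h with h | h
  · rcases brec_true h with h | h
    · rcases brec_true h with h | h
      · exact mRel_good (T := T) (by decide) [Lt.v, Lt.a, Lt.b, Lt.c, Lt.d] [Lt.f, Lt.b, Lt.c, Lt.d, Lt.c, Lt.b, Lt.f, Lt.a, Lt.b, Lt.c, Lt.d, Lt.f, Lt.b, Lt.c, Lt.d, Lt.c, Lt.b, Lt.f, Lt.v] (pair_rel hinv hr (by decide +kernel)) h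
      · exact mRel_good (T := T) (by decide) [Lt.f, Lt.v, Lt.b, Lt.v] [Lt.b, Lt.c, Lt.d, Lt.c, Lt.b, Lt.f, Lt.b, Lt.f, Lt.b, Lt.c, Lt.d, Lt.c, Lt.b, Lt.f] (pair_rel hinv hr (by decide +kernel)) h
    · rcases brec_true h with h | h
      · exact mRel_good (T := T) (by decide) [Lt.v, Lt.b, Lt.v, Lt.f] [Lt.f, Lt.b, Lt.c, Lt.d, Lt.c, Lt.b, Lt.f, Lt.b, Lt.f, Lt.b, Lt.c, Lt.d, Lt.c, Lt.b] (pair_rel hinv hr (by decide +kernel)) h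
      · exact mRel_good (T := T) (by decide) [Lt.v, Lt.f, Lt.b, Lt.c, Lt.d, Lt.c, Lt.b, Lt.f, Lt.c, Lt.f, Lt.b, Lt.c, Lt.d, Lt.c, Lt.b, Lt.f] [Lt.c, Lt.v] (pair_rel hinv hr (by decide +kernel)) h
  · rcases brec_true h with h | h
    · rcases brec_true h with h | h
      · exact mRel_good (T := T) (by decide) [Lt.f, Lt.b, Lt.c, Lt.d, Lt.c, Lt.b, Lt.f, Lt.a, Lt.b, Lt.c, Lt.d, Lt.f, Lt.b, Lt.c, Lt.d, Lt.c, Lt.b, Lt.f, Lt.v] [Lt.v, Lt.a, Lt.b, Lt.c, Lt.d] (pair_rel hinv hr (by decide +kernel)) h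
      · exact mRel_good (T := T) (by decide) [Lt.b, Lt.c, Lt.d, Lt.c, Lt.b, Lt.f, Lt.c, Lt.f, Lt.b, Lt.c, Lt.d, Lt.c, Lt.b, Lt.f] [Lt.f, Lt.v, Lt.c, Lt.v] (pair_rel hinv hr (by decide +kernel)) h
    · rcases brec_true h with h | h
      · exact mRel_good (T := T) (by decide) [Lt.d, Lt.c, Lt.b, Lt.f, Lt.c, Lt.f, Lt.b, Lt.c, Lt.d, Lt.c, Lt.b, Lt.f, Lt.v, Lt.c, Lt.v, Lt.f] [Lt.c, Lt.b] (pair_rel hinv hr (by decide +kernel)) h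
      · rcases brec_true h with h | h
        · exact mRel_good (T := T) (by decide) [Lt.f, Lt.v] [Lt.b, Lt.c, Lt.d, Lt.c, Lt.b, Lt.f, Lt.b, Lt.f, Lt.b, Lt.c, Lt.d, Lt.c, Lt.b, Lt.f, Lt.v, Lt.b] (pair_rel hinv hr (by decide +kernel)) h
        · exact mRel_good (T := T) (by decide) [Lt.d, Lt.c, Lt.b, Lt.f, Lt.a, Lt.b, Lt.c, Lt.d, Lt.f, Lt.b, Lt.c, Lt.d, Lt.c, Lt.b, Lt.f, Lt.v, Lt.d, Lt.c, Lt.b, Lt.a] [Lt.c, Lt.b, Lt.f, Lt.v] (pair_rel hinv hr (by decide +kernel)) h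
theorem dM_33_s (hinv : ∀ x, g (inv x) = (g x)⁻¹) (hr : ∀ r ∈ rels, (r.map g).prod = 1) (j z1 z2 u : ℕ) (h : dM_33 j z1 z2 u = true) : GoodM (fa g) T MG M (cP g H) u := by
  unfold dM_33 at h
  rcases brec_true h with h | h
  · exact dM_31_s hinv hr j z1 z2 u h
  · exact dM_32_s hinv hr j z1 z2 u h
theorem dM_34_s (hinv : ∀ x, g (inv x) = (g x)⁻¹) (hr : ∀ r ∈ rels, (r.map g).prod = 1) (j z1 z2 u : ℕ) (h : dM_34 j z1 z2 u = true) : GoodM (fa g) T MG M (cP g H) u := by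
  unfold dM_34 at h
  rcases brec_true h with h | h
  · exact dM_30_s hinv hr j z1 z2 u h
  · exact dM_33_s hinv hr j z1 z2 u h
theorem dM_35_s (hinv : ∀ x, g (inv x) = (g x)⁻¹) (hr : ∀ r ∈ rels, (r.map g).prod = 1) (j z1 z2 u : ℕ) (h : dM_35 j z1 z2 u = true) : GoodM (fa g) T MG M (cP g H) u := by
  unfold dM_35 at h
  rcases brec_true h with h | h
  · exact dM_27_s hinv hr j z1 z2 u h
  · exact dM_34_s hinv hr j z1 z2 u h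
theorem dM_36_s (hinv : ∀ x, g (inv x) = (g x)⁻¹) (hr : ∀ r ∈ rels, (r.map g).prod = 1) (j z1 z2 u : ℕ) (h : dM_36 j z1 z2 u = true) : GoodM (fa g) T MG M (cP g H) u := by
  unfold dM_36 at h
  rcases brec_true h with h | h
  · exact dM_24_s hinv hr j z1 z2 u h
  · exact dM_35_s hinv hr j z1 z2 u h
theorem dM_37_s (hinv : ∀ x, g (inv x) = (g x)⁻¹) (hr : ∀ r ∈ rels, (r.map g).prod = 1) (j z1 z2 u : ℕ) (h : dM_37 j z1 z2 u = true) : GoodM (fa g) T MG M (cP g H) u := by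
  unfold dM_37 at h
  rcases brec_true h with h | h
  · rcases brec_true h with h | h
    · rcases brec_true h with h | h
      · exact mRel_good (T := T) (by decide) [Lt.f, Lt.c, Lt.f, Lt.b, Lt.c, Lt.d, Lt.c, Lt.b, Lt.f, Lt.v, Lt.c, Lt.v, Lt.f] [Lt.b, Lt.c, Lt.d, Lt.c, Lt.b] (pair_rel hinv hr (by decide +kernel)) h
      · exact mRel_good (T := T) (by decide) [Lt.c, Lt.d, Lt.c, Lt.b, Lt.f, Lt.v, Lt.b, Lt.v, Lt.f] [Lt.b, Lt.f, Lt.b, Lt.f, Lt.b, Lt.c, Lt.d, Lt.c, Lt.b] (pair_rel hinv hr (by decide +kernel)) h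
    · rcases brec_true h with h | h
      · exact mRel_good (T := T) (by decide) [Lt.d, Lt.a, Lt.d] [Lt.a] (pair_rel hinv hr (by decide +kernel)) h
      · rcases brec_true h with h | h
        · exact mRel_good (T := T) (by decide) [Lt.d, Lt.c, Lt.b, Lt.f, Lt.b, Lt.f, Lt.b, Lt.c, Lt.d, Lt.c, Lt.b, Lt.f, Lt.v, Lt.b, Lt.v, Lt.f] [Lt.c, Lt.b] (pair_rel hinv hr (by decide +kernel)) h
        · exact mRel_good (T := T) (by decide) [Lt.c, Lt.e, Lt.c, Lt.e] [] (pair_rel hinv hr (by decide +kernel)) h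
  · rcases brec_true h with h | h
    · rcases brec_true h with h | h
      · exact mRel_good (T := T) (by decide) [Lt.c, Lt.b, Lt.f, Lt.d, Lt.c, Lt.b, Lt.a, Lt.f, Lt.b, Lt.c, Lt.d, Lt.c, Lt.b, Lt.f, Lt.v, Lt.a, Lt.b, Lt.c] [Lt.d, Lt.c, Lt.b, Lt.f, Lt.v, Lt.d] (pair_rel hinv hr (by decide +kernel)) h
      · exact mRel_good (T := T) (by decide) [Lt.f, Lt.v] [Lt.b, Lt.c, Lt.d, Lt.c, Lt.b, Lt.f, Lt.c, Lt.f, Lt.b, Lt.c, Lt.d, Lt.c, Lt.b, Lt.f, Lt.v, Lt.c] (pair_rel hinv hr (by decide +kernel)) h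
    · rcases brec_true h with h | h
      · exact mRel_good (T := T) (by decide) [Lt.b, Lt.c, Lt.d, Lt.c, Lt.b, Lt.f, Lt.v, Lt.b, Lt.v, Lt.f] [Lt.f, Lt.b, Lt.f, Lt.b, Lt.c, Lt.d, Lt.c, Lt.b] (pair_rel hinv hr (by decide +kernel)) h
      · rcases brec_true h with h | h
        · exact mRel_good (T := T) (by decide) [Lt.b, Lt.f, Lt.v, Lt.c, Lt.v, Lt.f] [Lt.c, Lt.d, Lt.c, Lt.b, Lt.f, Lt.c, Lt.f, Lt.b, Lt.c, Lt.d, Lt.c, Lt.b] (pair_rel hinv hr (by decide +kernel)) h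
        · exact mRel_good (T := T) (by decide) [Lt.d, Lt.c, Lt.b, Lt.f, Lt.v, Lt.b, Lt.v] [Lt.c, Lt.b, Lt.f, Lt.b, Lt.f, Lt.b, Lt.c, Lt.d, Lt.c, Lt.b, Lt.f] (pair_rel hinv hr (by decide +kernel)) h
theorem dM_38_s (hinv : ∀ x, g (inv x) = (g x)⁻¹) (hr : ∀ r ∈ rels, (r.map g).prod = 1) (j z1 z2 u : ℕ) (h : dM_38 j z1 z2 u = true) : GoodM (fa g) T MG M (cP g H) u := by
  unfold dM_38 at h
  rcases brec_true h with h | h
  · rcases brec_true h with h | h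
    · rcases brec_true h with h | h
      · exact mRel_good (T := T) (by decide) [Lt.b, Lt.f, Lt.b, Lt.f, Lt.b, Lt.c, Lt.d, Lt.c, Lt.b, Lt.f, Lt.v, Lt.b, Lt.v, Lt.f, Lt.b] [Lt.c, Lt.d, Lt.c] (pair_rel hinv hr (by decide +kernel)) h
      · exact mRel_good (T := T) (by decide) [Lt.d, Lt.c, Lt.b, Lt.f, Lt.c, Lt.f, Lt.b, Lt.c, Lt.d, Lt.c, Lt.b, Lt.f, Lt.v, Lt.c, Lt.v, Lt.f, Lt.b] [Lt.c] (pair_rel hinv hr (by decide +kernel)) h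
    · rcases brec_true h with h | h
      · exact mRel_good (T := T) (by decide) [Lt.c, Lt.d, Lt.c, Lt.b, Lt.f, Lt.v, Lt.c, Lt.v, Lt.f, Lt.b] [Lt.b, Lt.f, Lt.c, Lt.f, Lt.b, Lt.c, Lt.d, Lt.c] (pair_rel hinv hr (by decide +kernel)) h
      · rcases brec_true h with h | h
        · exact mRel_good (T := T) (by decide) [Lt.b, Lt.f, Lt.c, Lt.f, Lt.b, Lt.c, Lt.d, Lt.c, Lt.b, Lt.f, Lt.v, Lt.c, Lt.v] [Lt.c, Lt.d, Lt.c, Lt.b, Lt.f] (pair_rel hinv hr (by decide +kernel)) h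
        · exact mRel_good (T := T) (by decide) [Lt.c, Lt.f, Lt.c] [Lt.f] (pair_rel hinv hr (by decide +kernel)) h
  · rcases brec_true h with h | h
    · rcases brec_true h with h | h
      · exact mRel_good (T := T) (by decide) [Lt.c, Lt.f, Lt.b, Lt.c, Lt.d, Lt.c, Lt.b, Lt.f, Lt.v, Lt.c, Lt.v] [Lt.f, Lt.b, Lt.c, Lt.d, Lt.c, Lt.b, Lt.f] (pair_rel hinv hr (by decide +kernel)) h
      · rcases brec_true h with h | h
        · exact mRel_good (T := T) (by decide) [Lt.c, Lt.b, Lt.f, Lt.v, Lt.c, Lt.v, Lt.f] [Lt.d, Lt.c, Lt.b, Lt.f, Lt.c, Lt.f, Lt.b, Lt.c, Lt.d, Lt.c, Lt.b] (pair_rel hinv hr (by decide +kernel)) h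
        · exact mRel_good (T := T) (by decide) [Lt.a, Lt.d, Lt.c] [Lt.c, Lt.d, Lt.c, Lt.d, Lt.c, Lt.d] (pair_rel hinv hr (by decide +kernel)) h
    · rcases brec_true h with h | h
      · exact mRel_good (T := T) (by decide) [Lt.f, Lt.v, Lt.d, Lt.c] [Lt.b, Lt.c, Lt.d, Lt.c, Lt.b, Lt.f, Lt.d, Lt.c, Lt.b, Lt.a, Lt.f, Lt.b, Lt.c, Lt.d, Lt.c, Lt.b, Lt.f, Lt.v, Lt.a, Lt.b] (pair_rel hinv hr (by decide +kernel)) h
      · rcases brec_true h with h | h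
        · exact mRel_good (T := T) (by decide) [Lt.v, Lt.f, Lt.b, Lt.c, Lt.d, Lt.c, Lt.b, Lt.f, Lt.d, Lt.c, Lt.b, Lt.a, Lt.f, Lt.b, Lt.c, Lt.d, Lt.c, Lt.b, Lt.f] [Lt.d, Lt.c, Lt.b, Lt.a, Lt.v] (pair_rel hinv hr (by decide +kernel)) h
        · exact mRel_good (T := T) (by decide) [Lt.c, Lt.d, Lt.c, Lt.d, Lt.c, Lt.d, Lt.c, Lt.a, Lt.d] [] (pair_rel hinv hr (by decide +kernel)) h
theorem dM_39_s (hinv : ∀ x, g (inv x) = (g x)⁻¹) (hr : ∀ r ∈ rels, (r.map g).prod = 1) (j z1 z2 u : ℕ) (h : dM_39 j z1 z2 u = true) : GoodM (fa g) T MG M (cP g H) u := by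
  unfold dM_39 at h
  rcases brec_true h with h | h
  · exact dM_37_s hinv hr j z1 z2 u h
  · exact dM_38_s hinv hr j z1 z2 u h
theorem dM_40_s (hinv : ∀ x, g (inv x) = (g x)⁻¹) (hr : ∀ r ∈ rels, (r.map g).prod = 1) (j z1 z2 u : ℕ) (h : dM_40 j z1 z2 u = true) : GoodM (fa g) T MG M (cP g H) u := by
  unfold dM_40 at h
  rcases brec_true h with h | h
  · rcases brec_true h with h | h
    · exact mRel_good (T := T) (by decide) [Lt.b, Lt.f] [Lt.c, Lt.d, Lt.c, Lt.b, Lt.f, Lt.b, Lt.f, Lt.b, Lt.c, Lt.d, Lt.c, Lt.b, Lt.f, Lt.v, Lt.b, Lt.v] (pair_rel hinv hr (by decide +kernel)) h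
    · rcases brec_true h with h | h
      · exact mRel_good (T := T) (by decide) [Lt.b, Lt.f] [Lt.f, Lt.b, Lt.f, Lt.b] (pair_rel hinv hr (by decide +kernel)) h
      · exact mRel_good (T := T) (by decide) [Lt.c, Lt.b, Lt.f, Lt.b, Lt.f, Lt.b, Lt.c, Lt.d, Lt.c, Lt.b, Lt.f, Lt.v, Lt.b, Lt.v, Lt.f] [Lt.d, Lt.c, Lt.b] (pair_rel hinv hr (by decide +kernel)) h
  · rcases brec_true h with h | h
    · exact mRel_good (T := T) (by decide) [Lt.c, Lt.b, Lt.a, Lt.v] [Lt.d, Lt.v, Lt.f, Lt.b, Lt.c, Lt.d, Lt.c, Lt.b, Lt.f, Lt.d, Lt.c, Lt.b, Lt.a, Lt.f, Lt.b, Lt.c, Lt.d, Lt.c, Lt.b, Lt.f] (pair_rel hinv hr (by decide +kernel)) h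
    · rcases brec_true h with h | h
      · exact mRel_good (T := T) (by decide) [Lt.e, Lt.b, Lt.c, Lt.d, Lt.c, Lt.b, Lt.f, Lt.e, Lt.v, Lt.f, Lt.b, Lt.c, Lt.d, Lt.c, Lt.b, Lt.f, Lt.e, Lt.f, Lt.b] [Lt.f, Lt.v, Lt.f, Lt.b, Lt.c, Lt.d, Lt.c] (pair_rel hinv hr (by decide +kernel)) h
      · exact mRel_good (T := T) (by decide) [Lt.f, Lt.b, Lt.c, Lt.d, Lt.c, Lt.b, Lt.f, Lt.c, Lt.f, Lt.b, Lt.c, Lt.d, Lt.c, Lt.b, Lt.f, Lt.v, Lt.c, Lt.v] [] (pair_rel hinv hr (by decide +kernel)) h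
theorem dM_41_s (hinv : ∀ x, g (inv x) = (g x)⁻¹) (hr : ∀ r ∈ rels, (r.map g).prod = 1) (j z1 z2 u : ℕ) (h : dM_41 j z1 z2 u = true) : GoodM (fa g) T MG M (cP g H) u := by
  unfold dM_41 at h
  rcases brec_true h with h | h
  · rcases brec_true h with h | h
    · rcases brec_true h with h | h
      · exact mRel_good (T := T) (by decide) [Lt.a, Lt.b, Lt.c, Lt.f, Lt.a] [Lt.f, Lt.c, Lt.b, Lt.a, Lt.f, Lt.c, Lt.b, Lt.a, Lt.f, Lt.c, Lt.b, Lt.a, Lt.f, Lt.c, Lt.b] (pair_rel hinv hr (by decide +kernel)) h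
      · exact mRel_good (T := T) (by decide) [Lt.f, Lt.b, Lt.c, Lt.d, Lt.c, Lt.b, Lt.f, Lt.d, Lt.c, Lt.b, Lt.a, Lt.f, Lt.b, Lt.c, Lt.d, Lt.c, Lt.b, Lt.f, Lt.v] [Lt.v, Lt.d, Lt.c, Lt.b, Lt.a] (pair_rel hinv hr (by decide +kernel)) h
    · rcases brec_true h with h | h
      · exact mRel_good (T := T) (by decide) [Lt.b, Lt.c, Lt.d, Lt.f, Lt.b, Lt.c, Lt.d, Lt.c, Lt.b, Lt.f, Lt.v] [Lt.a, Lt.f, Lt.b, Lt.c, Lt.d, Lt.c, Lt.b, Lt.f, Lt.v, Lt.a, Lt.b, Lt.c, Lt.d] (pair_rel hinv hr (by decide +kernel)) h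
      · exact mRel_good (T := T) (by decide) [Lt.f, Lt.b, Lt.c, Lt.d, Lt.c, Lt.b, Lt.f] [Lt.b, Lt.f, Lt.b, Lt.c, Lt.d, Lt.c, Lt.b, Lt.f, Lt.v, Lt.b, Lt.v] (pair_rel hinv hr (by decide +kernel)) h
  · rcases brec_true h with h | h
    · rcases brec_true h with h | h
      · exact mRel_good (T := T) (by decide) [Lt.c, Lt.d, Lt.c, Lt.b, Lt.f, Lt.v, Lt.c, Lt.v, Lt.f] [Lt.b, Lt.f, Lt.c, Lt.f, Lt.b, Lt.c, Lt.d, Lt.c, Lt.b] (pair_rel hinv hr (by decide +kernel)) h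
      · exact mRel_good (T := T) (by decide) [Lt.b, Lt.v, Lt.f, Lt.b, Lt.c, Lt.d, Lt.c, Lt.b, Lt.f, Lt.b, Lt.f, Lt.b, Lt.c, Lt.d, Lt.c, Lt.b, Lt.f, Lt.v] [] (pair_rel hinv hr (by decide +kernel)) h
    · rcases brec_true h with h | h
      · exact mRel_good (T := T) (by decide) [Lt.b, Lt.c, Lt.d, Lt.c, Lt.b, Lt.f, Lt.v, Lt.b, Lt.v, Lt.f, Lt.b] [Lt.f, Lt.b, Lt.f, Lt.b, Lt.c, Lt.d, Lt.c] (pair_rel hinv hr (by decide +kernel)) h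
      · exact mRel_good (T := T) (by decide) [Lt.c, Lt.d, Lt.c, Lt.b, Lt.f, Lt.a, Lt.b, Lt.c, Lt.d, Lt.f, Lt.b, Lt.c, Lt.d, Lt.c, Lt.b, Lt.f, Lt.v] [Lt.b, Lt.f, Lt.v, Lt.a, Lt.b, Lt.c, Lt.d] (pair_rel hinv hr (by decide +kernel)) h
theorem dM_42_s (hinv : ∀ x, g (inv x) = (g x)⁻¹) (hr : ∀ r ∈ rels, (r.map g).prod = 1) (j z1 z2 u : ℕ) (h : dM_42 j z1 z2 u = true) : GoodM (fa g) T MG M (cP g H) u := by
  unfold dM_42 at h
  rcases brec_true h with h | h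
  · exact dM_40_s hinv hr j z1 z2 u h
  · exact dM_41_s hinv hr j z1 z2 u h
theorem dM_43_s (hinv : ∀ x, g (inv x) = (g x)⁻¹) (hr : ∀ r ∈ rels, (r.map g).prod = 1) (j z1 z2 u : ℕ) (h : dM_43 j z1 z2 u = true) : GoodM (fa g) T MG M (cP g H) u := by
  unfold dM_43 at h
  rcases brec_true h with h | h
  · rcases brec_true h with h | h
    · rcases brec_true h with h | h
      · exact mRel_good (T := T) (by decide) [Lt.c, Lt.d, Lt.c, Lt.b, Lt.f, Lt.d, Lt.c, Lt.b, Lt.a, Lt.f, Lt.b, Lt.c, Lt.d, Lt.c, Lt.b, Lt.f, Lt.v, Lt.a, Lt.b, Lt.c, Lt.d, Lt.v] [Lt.b, Lt.f] (pair_rel hinv hr (by decide +kernel)) h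
      · exact mRel_good (T := T) (by decide) [Lt.c, Lt.a, Lt.c] [Lt.a] (pair_rel hinv hr (by decide +kernel)) h
    · rcases brec_true h with h | h
      · exact mRel_good (T := T) (by decide) [Lt.v, Lt.f, Lt.b, Lt.c, Lt.d, Lt.c, Lt.b, Lt.f, Lt.v, Lt.f, Lt.b, Lt.c, Lt.d, Lt.c, Lt.b] [Lt.f, Lt.b, Lt.c, Lt.d, Lt.c, Lt.b, Lt.f, Lt.v, Lt.f] (pair_rel hinv hr (by decide +kernel)) h
      · exact mRel_good (T := T) (by decide) [Lt.v, Lt.f, Lt.b, Lt.c, Lt.d, Lt.c, Lt.b, Lt.f, Lt.b, Lt.f, Lt.b, Lt.c, Lt.d, Lt.c, Lt.b, Lt.f, Lt.v, Lt.b] [] (pair_rel hinv hr (by decide +kernel)) h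
  · rcases brec_true h with h | h
    · rcases brec_true h with h | h
      · exact mRel_good (T := T) (by decide) [Lt.d, Lt.c, Lt.b, Lt.f, Lt.d, Lt.c, Lt.b, Lt.a, Lt.f, Lt.b, Lt.c, Lt.d, Lt.c, Lt.b, Lt.f, Lt.v] [Lt.c, Lt.b, Lt.f, Lt.v, Lt.d, Lt.c, Lt.b, Lt.a] (pair_rel hinv hr (by decide +kernel)) h
      · exact mRel_good (T := T) (by decide) [Lt.b, Lt.f, Lt.b, Lt.f, Lt.b, Lt.c, Lt.d, Lt.c, Lt.b, Lt.f] [Lt.c, Lt.d, Lt.c, Lt.b, Lt.f, Lt.v, Lt.b, Lt.v] (pair_rel hinv hr (by decide +kernel)) h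
    · rcases brec_true h with h | h
      · exact mRel_good (T := T) (by decide) [Lt.v, Lt.f, Lt.b, Lt.c, Lt.d, Lt.c, Lt.b, Lt.f, Lt.v, Lt.f, Lt.b, Lt.c, Lt.d] [Lt.f, Lt.b, Lt.c, Lt.d, Lt.c, Lt.b, Lt.f, Lt.v, Lt.f, Lt.b, Lt.c] (pair_rel hinv hr (by decide +kernel)) h
      · exact mRel_good (T := T) (by decide) [Lt.c, Lt.b, Lt.f, Lt.v, Lt.a, Lt.b, Lt.c, Lt.d] [Lt.d, Lt.c, Lt.b, Lt.f, Lt.a, Lt.b, Lt.c, Lt.d, Lt.f, Lt.b, Lt.c, Lt.d, Lt.c, Lt.b, Lt.f, Lt.v] (pair_rel hinv hr (by decide +kernel)) h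
theorem dM_44_s (hinv : ∀ x, g (inv x) = (g x)⁻¹) (hr : ∀ r ∈ rels, (r.map g).prod = 1) (j z1 z2 u : ℕ) (h : dM_44 j z1 z2 u = true) : GoodM (fa g) T MG M (cP g H) u := by
  unfold dM_44 at h
  rcases brec_true h with h | h
  · rcases brec_true h with h | h
    · rcases brec_true h with h | h
      · exact mRel_good (T := T) (by decide) [Lt.c, Lt.b, Lt.f, Lt.v, Lt.d, Lt.c, Lt.b, Lt.a] [Lt.d, Lt.c, Lt.b, Lt.f, Lt.d, Lt.c, Lt.b, Lt.a, Lt.f, Lt.b, Lt.c, Lt.d, Lt.c, Lt.b, Lt.f, Lt.v] (pair_rel hinv hr (by decide +kernel)) h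
      · exact mRel_good (T := T) (by decide) [Lt.d, Lt.e] [Lt.e, Lt.d, Lt.e, Lt.d] (pair_rel hinv hr (by decide +kernel)) h
    · rcases brec_true h with h | h
      · exact mRel_good (T := T) (by decide) [Lt.f, Lt.v] [Lt.b, Lt.c, Lt.d, Lt.c, Lt.b, Lt.f, Lt.a, Lt.b, Lt.c, Lt.d, Lt.f, Lt.b, Lt.c, Lt.d, Lt.c, Lt.b, Lt.f, Lt.v, Lt.d, Lt.c, Lt.b, Lt.a] (pair_rel hinv hr (by decide +kernel)) h
      · exact mRel_good (T := T) (by decide) [Lt.d, Lt.c, Lt.b, Lt.f, Lt.b, Lt.f, Lt.b, Lt.c, Lt.d, Lt.c, Lt.b, Lt.f, Lt.v, Lt.b, Lt.v, Lt.f, Lt.b] [Lt.c] (pair_rel hinv hr (by decide +kernel)) h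
  · rcases brec_true h with h | h
    · rcases brec_true h with h | h
      · exact mRel_good (T := T) (by decide) [Lt.v, Lt.f, Lt.b, Lt.c, Lt.d, Lt.c, Lt.b, Lt.f, Lt.v, Lt.f, Lt.b, Lt.c, Lt.d, Lt.c] [Lt.f, Lt.b, Lt.c, Lt.d, Lt.c, Lt.b, Lt.f, Lt.v, Lt.f, Lt.b] (pair_rel hinv hr (by decide +kernel)) h
      · exact mRel_good (T := T) (by decide) [Lt.f, Lt.b, Lt.c, Lt.d, Lt.c, Lt.b, Lt.f, Lt.v, Lt.c, Lt.v, Lt.f] [Lt.c, Lt.f, Lt.b, Lt.c, Lt.d, Lt.c, Lt.b] (pair_rel hinv hr (by decide +kernel)) h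
    · rcases brec_true h with h | h
      · exact mRel_good (T := T) (by decide) [Lt.c, Lt.b, Lt.f] [Lt.d, Lt.c, Lt.b, Lt.f, Lt.b, Lt.f, Lt.b, Lt.c, Lt.d, Lt.c, Lt.b, Lt.f, Lt.v, Lt.b, Lt.v] (pair_rel hinv hr (by decide +kernel)) h
      · exact mRel_good (T := T) (by decide) [Lt.c, Lt.b, Lt.f, Lt.v, Lt.c, Lt.v, Lt.f, Lt.b] [Lt.d, Lt.c, Lt.b, Lt.f, Lt.c, Lt.f, Lt.b, Lt.c, Lt.d, Lt.c] (pair_rel hinv hr (by decide +kernel)) h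
theorem dM_45_s (hinv : ∀ x, g (inv x) = (g x)⁻¹) (hr : ∀ r ∈ rels, (r.map g).prod = 1) (j z1 z2 u : ℕ) (h : dM_45 j z1 z2 u = true) : GoodM (fa g) T MG M (cP g H) u := by
  unfold dM_45 at h
  rcases brec_true h with h | h
  · exact dM_43_s hinv hr j z1 z2 u h
  · exact dM_44_s hinv hr j z1 z2 u h
theorem dM_46_s (hinv : ∀ x, g (inv x) = (g x)⁻¹) (hr : ∀ r ∈ rels, (r.map g).prod = 1) (j z1 z2 u : ℕ) (h : dM_46 j z1 z2 u = true) : GoodM (fa g) T MG M (cP g H) u := by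
  unfold dM_46 at h
  rcases brec_true h with h | h
  · exact dM_42_s hinv hr j z1 z2 u h
  · exact dM_45_s hinv hr j z1 z2 u h
theorem dM_47_s (hinv : ∀ x, g (inv x) = (g x)⁻¹) (hr : ∀ r ∈ rels, (r.map g).prod = 1) (j z1 z2 u : ℕ) (h : dM_47 j z1 z2 u = true) : GoodM (fa g) T MG M (cP g H) u := by
  unfold dM_47 at h
  rcases brec_true h with h | h
  · exact dM_39_s hinv hr j z1 z2 u h
  · exact dM_46_s hinv hr j z1 z2 u h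
theorem dM_48_s (hinv : ∀ x, g (inv x) = (g x)⁻¹) (hr : ∀ r ∈ rels, (r.map g).prod = 1) (j z1 z2 u : ℕ) (h : dM_48 j z1 z2 u = true) : GoodM (fa g) T MG M (cP g H) u := by
  unfold dM_48 at h
  rcases brec_true h with h | h
  · rcases brec_true h with h | h
    · rcases brec_true h with h | h
      · exact mRel_good (T := T) (by decide) [Lt.c, Lt.b, Lt.f, Lt.v, Lt.b, Lt.v, Lt.f] [Lt.d, Lt.c, Lt.b, Lt.f, Lt.b, Lt.f, Lt.b, Lt.c, Lt.d, Lt.c, Lt.b] (pair_rel hinv hr (by decide +kernel)) h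
      · exact mRel_good (T := T) (by decide) [Lt.b, Lt.f, Lt.v, Lt.b, Lt.v, Lt.f] [Lt.c, Lt.d, Lt.c, Lt.b, Lt.f, Lt.b, Lt.f, Lt.b, Lt.c, Lt.d, Lt.c, Lt.b] (pair_rel hinv hr (by decide +kernel)) h
    · rcases brec_true h with h | h
      · exact mRel_good (T := T) (by decide) [Lt.a, Lt.d, Lt.c, Lt.d] [Lt.c, Lt.d, Lt.c, Lt.d, Lt.c] (pair_rel hinv hr (by decide +kernel)) h
      · exact mRel_good (T := T) (by decide) [Lt.f, Lt.b, Lt.c, Lt.d, Lt.c, Lt.b, Lt.f, Lt.a, Lt.b, Lt.c, Lt.d, Lt.f, Lt.b, Lt.c, Lt.d, Lt.c, Lt.b, Lt.f, Lt.v, Lt.d, Lt.c, Lt.b, Lt.a, Lt.v] [] (pair_rel hinv hr (by decide +kernel)) h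
  · rcases brec_true h with h | h
    · rcases brec_true h with h | h
      · exact mRel_good (T := T) (by decide) [Lt.c, Lt.d, Lt.c, Lt.b, Lt.f, Lt.v, Lt.b, Lt.v, Lt.f, Lt.b] [Lt.b, Lt.f, Lt.b, Lt.f, Lt.b, Lt.c, Lt.d, Lt.c] (pair_rel hinv hr (by decide +kernel)) h
      · exact mRel_good (T := T) (by decide) [Lt.f, Lt.b, Lt.c, Lt.d, Lt.c, Lt.b, Lt.f, Lt.a, Lt.b, Lt.c, Lt.d, Lt.f, Lt.b, Lt.c, Lt.d, Lt.c, Lt.b, Lt.f, Lt.v, Lt.d, Lt.c, Lt.b, Lt.a] [Lt.v] (pair_rel hinv hr (by decide +kernel)) h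
    · rcases brec_true h with h | h
      · exact mRel_good (T := T) (by decide) [Lt.d, Lt.c, Lt.b, Lt.a] [Lt.v, Lt.f, Lt.b, Lt.c, Lt.d, Lt.c, Lt.b, Lt.f, Lt.d, Lt.c, Lt.b, Lt.a, Lt.f, Lt.b, Lt.c, Lt.d, Lt.c, Lt.b, Lt.f, Lt.v] (pair_rel hinv hr (by decide +kernel)) h
      · exact mRel_good (T := T) (by decide) [Lt.c, Lt.d, Lt.c, Lt.b, Lt.f, Lt.c, Lt.f, Lt.b, Lt.c, Lt.d, Lt.c, Lt.b, Lt.f, Lt.v, Lt.c, Lt.v, Lt.f] [Lt.b] (pair_rel hinv hr (by decide +kernel)) h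
theorem dM_49_s (hinv : ∀ x, g (inv x) = (g x)⁻¹) (hr : ∀ r ∈ rels, (r.map g).prod = 1) (j z1 z2 u : ℕ) (h : dM_49 j z1 z2 u = true) : GoodM (fa g) T MG M (cP g H) u := by
  unfold dM_49 at h
  rcases brec_true h with h | h
  · rcases brec_true h with h | h
    · rcases brec_true h with h | h
      · exact mRel_good (T := T) (by decide) [Lt.b, Lt.f, Lt.v] [Lt.c, Lt.d, Lt.c, Lt.b, Lt.f, Lt.d, Lt.c, Lt.b, Lt.a, Lt.f, Lt.b, Lt.c, Lt.d, Lt.c, Lt.b, Lt.f, Lt.v, Lt.a, Lt.b, Lt.c, Lt.d] (pair_rel hinv hr (by decide +kernel)) h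
      · exact mRel_good (T := T) (by decide) [Lt.c, Lt.d, Lt.c, Lt.b, Lt.f, Lt.b, Lt.f, Lt.b, Lt.c, Lt.d, Lt.c, Lt.b, Lt.f] [Lt.b, Lt.f, Lt.v, Lt.b, Lt.v] (pair_rel hinv hr (by decide +kernel)) h
    · rcases brec_true h with h | h
      · exact mRel_good (T := T) (by decide) [Lt.a, Lt.b, Lt.a, Lt.b, Lt.a] [Lt.b, Lt.a, Lt.b, Lt.a, Lt.b] (pair_rel hinv hr (by decide +kernel)) h
      · exact mRel_good (T := T) (by decide) [Lt.b, Lt.c, Lt.d, Lt.c, Lt.b, Lt.f, Lt.c, Lt.f, Lt.b, Lt.c, Lt.d, Lt.c, Lt.b, Lt.f, Lt.v, Lt.c, Lt.v, Lt.f] [] (pair_rel hinv hr (by decide +kernel)) h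
  · rcases brec_true h with h | h
    · rcases brec_true h with h | h
      · exact mRel_good (T := T) (by decide) [Lt.c, Lt.d, Lt.c, Lt.d, Lt.c, Lt.d] [Lt.d, Lt.a, Lt.c] (pair_rel hinv hr (by decide +kernel)) h
      · exact mRel_good (T := T) (by decide) [Lt.b, Lt.a] [Lt.c, Lt.d, Lt.v, Lt.f, Lt.b, Lt.c, Lt.d, Lt.c, Lt.b, Lt.f, Lt.d, Lt.c, Lt.b, Lt.a, Lt.f, Lt.b, Lt.c, Lt.d, Lt.c, Lt.b, Lt.f, Lt.v] (pair_rel hinv hr (by decide +kernel)) h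
    · rcases brec_true h with h | h
      · exact mRel_good (T := T) (by decide) [Lt.c, Lt.b, Lt.f, Lt.a, Lt.b, Lt.c, Lt.d, Lt.f, Lt.b, Lt.c, Lt.d, Lt.c, Lt.b, Lt.f, Lt.v, Lt.d] [Lt.d, Lt.c, Lt.b, Lt.f, Lt.v, Lt.a, Lt.b, Lt.c] (pair_rel hinv hr (by decide +kernel)) h
      · exact mRel_good (T := T) (by decide) [Lt.f, Lt.b, Lt.f, Lt.b, Lt.c, Lt.d, Lt.c, Lt.b, Lt.f, Lt.v, Lt.b, Lt.v, Lt.f] [Lt.b, Lt.c, Lt.d, Lt.c, Lt.b] (pair_rel hinv hr (by decide +kernel)) h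
theorem dM_50_s (hinv : ∀ x, g (inv x) = (g x)⁻¹) (hr : ∀ r ∈ rels, (r.map g).prod = 1) (j z1 z2 u : ℕ) (h : dM_50 j z1 z2 u = true) : GoodM (fa g) T MG M (cP g H) u := by
  unfold dM_50 at h
  rcases brec_true h with h | h
  · exact dM_48_s hinv hr j z1 z2 u h
  · exact dM_49_s hinv hr j z1 z2 u h
theorem dM_51_s (hinv : ∀ x, g (inv x) = (g x)⁻¹) (hr : ∀ r ∈ rels, (r.map g).prod = 1) (j z1 z2 u : ℕ) (h : dM_51 j z1 z2 u = true) : GoodM (fa g) T MG M (cP g H) u := by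
  unfold dM_51 at h
  rcases brec_true h with h | h
  · rcases brec_true h with h | h
    · rcases brec_true h with h | h
      · exact mRel_good (T := T) (by decide) [Lt.f, Lt.d, Lt.f] [Lt.d] (pair_rel hinv hr (by decide +kernel)) h
      · exact mRel_good (T := T) (by decide) [Lt.d, Lt.c, Lt.d, Lt.c, Lt.a] [Lt.c, Lt.d, Lt.c, Lt.d] (pair_rel hinv hr (by decide +kernel)) h
    · rcases brec_true h with h | h
      · exact mRel_good (T := T) (by decide) [Lt.c, Lt.d, Lt.c, Lt.d, Lt.c] [Lt.d, Lt.a, Lt.c, Lt.d] (pair_rel hinv hr (by decide +kernel)) h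
      · exact mRel_good (T := T) (by decide) [Lt.f, Lt.v, Lt.d, Lt.c, Lt.b] [Lt.b, Lt.c, Lt.d, Lt.c, Lt.b, Lt.f, Lt.d, Lt.c, Lt.b, Lt.a, Lt.f, Lt.b, Lt.c, Lt.d, Lt.c, Lt.b, Lt.f, Lt.v, Lt.a] (pair_rel hinv hr (by decide +kernel)) h
  · rcases brec_true h with h | h
    · rcases brec_true h with h | h
      · exact mRel_good (T := T) (by decide) [Lt.b, Lt.f, Lt.a, Lt.b, Lt.c, Lt.d, Lt.f, Lt.b, Lt.c, Lt.d, Lt.c, Lt.b, Lt.f, Lt.v, Lt.d, Lt.c, Lt.b] [Lt.c, Lt.d, Lt.c, Lt.b, Lt.f, Lt.v, Lt.a] (pair_rel hinv hr (by decide +kernel)) h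
      · exact mRel_good (T := T) (by decide) [Lt.d, Lt.c, Lt.b, Lt.f, Lt.e, Lt.v, Lt.f, Lt.b, Lt.c, Lt.d, Lt.c, Lt.b, Lt.f, Lt.e, Lt.f, Lt.b] [Lt.c, Lt.b, Lt.e, Lt.f, Lt.v, Lt.f, Lt.b, Lt.c, Lt.d, Lt.c] (pair_rel hinv hr (by decide +kernel)) h
    · rcases brec_true h with h | h
      · exact mRel_good (T := T) (by decide) [Lt.d, Lt.c, Lt.b, Lt.f, Lt.a, Lt.b, Lt.c, Lt.d, Lt.f, Lt.b, Lt.c, Lt.d, Lt.c, Lt.b, Lt.f, Lt.v] [Lt.c, Lt.b, Lt.f, Lt.v, Lt.a, Lt.b, Lt.c, Lt.d] (pair_rel hinv hr (by decide +kernel)) h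
      · exact mRel_good (T := T) (by decide) [Lt.b, Lt.a, Lt.b, Lt.a, Lt.b, Lt.a, Lt.b, Lt.a] [Lt.a, Lt.b] (pair_rel hinv hr (by decide +kernel)) h
theorem dM_52_s (hinv : ∀ x, g (inv x) = (g x)⁻¹) (hr : ∀ r ∈ rels, (r.map g).prod = 1) (j z1 z2 u : ℕ) (h : dM_52 j z1 z2 u = true) : GoodM (fa g) T MG M (cP g H) u := by
  unfold dM_52 at h
  rcases brec_true h with h | h
  · rcases brec_true h with h | h
    · rcases brec_true h with h | h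
      · exact mRel_good (T := T) (by decide) [Lt.f, Lt.v, Lt.d, Lt.c, Lt.b, Lt.a] [Lt.b, Lt.c, Lt.d, Lt.c, Lt.b, Lt.f, Lt.d, Lt.c, Lt.b, Lt.a, Lt.f, Lt.b, Lt.c, Lt.d, Lt.c, Lt.b, Lt.f, Lt.v] (pair_rel hinv hr (by decide +kernel)) h
      · exact mRel_good (T := T) (by decide) [Lt.f, Lt.b, Lt.c, Lt.d, Lt.c, Lt.b, Lt.f, Lt.a, Lt.b, Lt.c, Lt.d, Lt.f, Lt.b, Lt.c, Lt.d, Lt.c, Lt.b, Lt.f] [Lt.v, Lt.a, Lt.b, Lt.c, Lt.d, Lt.v] (pair_rel hinv hr (by decide +kernel)) h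
    · rcases brec_true h with h | h
      · exact mRel_good (T := T) (by decide) [Lt.b, Lt.c, Lt.d, Lt.c, Lt.b, Lt.f, Lt.d, Lt.c, Lt.b, Lt.a, Lt.f, Lt.b, Lt.c, Lt.d, Lt.c, Lt.b, Lt.f, Lt.v, Lt.a, Lt.b, Lt.c] [Lt.f, Lt.v, Lt.d] (pair_rel hinv hr (by decide +kernel)) h
      · exact mRel_good (T := T) (by decide) [Lt.b, Lt.f, Lt.v] [Lt.c, Lt.d, Lt.c, Lt.b, Lt.f, Lt.c, Lt.f, Lt.b, Lt.c, Lt.d, Lt.c, Lt.b, Lt.f, Lt.v, Lt.c] (pair_rel hinv hr (by decide +kernel)) h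
  · rcases brec_true h with h | h
    · rcases brec_true h with h | h
      · exact mRel_good (T := T) (by decide) [Lt.f, Lt.a, Lt.b, Lt.c, Lt.d, Lt.f, Lt.b, Lt.c, Lt.d, Lt.c, Lt.b, Lt.f, Lt.v, Lt.d] [Lt.b, Lt.c, Lt.d, Lt.c, Lt.b, Lt.f, Lt.v, Lt.a, Lt.b, Lt.c] (pair_rel hinv hr (by decide +kernel)) h
      · exact mRel_good (T := T) (by decide) [Lt.f, Lt.b, Lt.c, Lt.d, Lt.c, Lt.b, Lt.f, Lt.v, Lt.a, Lt.b, Lt.c, Lt.d, Lt.v, Lt.f] [Lt.a, Lt.b, Lt.c, Lt.d, Lt.f, Lt.b, Lt.c, Lt.d, Lt.c, Lt.b] (pair_rel hinv hr (by decide +kernel)) h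
    · rcases brec_true h with h | h
      · exact mRel_good (T := T) (by decide) [Lt.c, Lt.d, Lt.c, Lt.b, Lt.f, Lt.v, Lt.a, Lt.b, Lt.c] [Lt.b, Lt.f, Lt.a, Lt.b, Lt.c, Lt.d, Lt.f, Lt.b, Lt.c, Lt.d, Lt.c, Lt.b, Lt.f, Lt.v, Lt.d] (pair_rel hinv hr (by decide +kernel)) h
      · exact mRel_good (T := T) (by decide) [Lt.c, Lt.d, Lt.c, Lt.b, Lt.f, Lt.v, Lt.a, Lt.b] [Lt.b, Lt.f, Lt.a, Lt.b, Lt.c, Lt.d, Lt.f, Lt.b, Lt.c, Lt.d, Lt.c, Lt.b, Lt.f, Lt.v, Lt.d, Lt.c] (pair_rel hinv hr (by decide +kernel)) h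
theorem dM_53_s (hinv : ∀ x, g (inv x) = (g x)⁻¹) (hr : ∀ r ∈ rels, (r.map g).prod = 1) (j z1 z2 u : ℕ) (h : dM_53 j z1 z2 u = true) : GoodM (fa g) T MG M (cP g H) u := by
  unfold dM_53 at h
  rcases brec_true h with h | h
  · exact dM_51_s hinv hr j z1 z2 u h
  · exact dM_52_s hinv hr j z1 z2 u h
theorem dM_54_s (hinv : ∀ x, g (inv x) = (g x)⁻¹) (hr : ∀ r ∈ rels, (r.map g).prod = 1) (j z1 z2 u : ℕ) (h : dM_54 j z1 z2 u = true) : GoodM (fa g) T MG M (cP g H) u := by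
  unfold dM_54 at h
  rcases brec_true h with h | h
  · exact dM_50_s hinv hr j z1 z2 u h
  · exact dM_53_s hinv hr j z1 z2 u h
theorem dM_55_s (hinv : ∀ x, g (inv x) = (g x)⁻¹) (hr : ∀ r ∈ rels, (r.map g).prod = 1) (j z1 z2 u : ℕ) (h : dM_55 j z1 z2 u = true) : GoodM (fa g) T MG M (cP g H) u := by
  unfold dM_55 at h
  rcases brec_true h with h | h
  · rcases brec_true h with h | h
    · rcases brec_true h with h | h
      · exact mRel_good (T := T) (by decide) [Lt.d, Lt.c, Lt.b, Lt.f, Lt.v, Lt.a, Lt.b, Lt.c] [Lt.c, Lt.b, Lt.f, Lt.a, Lt.b, Lt.c, Lt.d, Lt.f, Lt.b, Lt.c, Lt.d, Lt.c, Lt.b, Lt.f, Lt.v, Lt.d] (pair_rel hinv hr (by decide +kernel)) h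
      · exact mRel_good (T := T) (by decide) [Lt.v, Lt.f, Lt.b, Lt.c, Lt.d, Lt.c, Lt.b, Lt.f, Lt.v] [Lt.f, Lt.b, Lt.c, Lt.d, Lt.c, Lt.b, Lt.f, Lt.v, Lt.f, Lt.b, Lt.c, Lt.d, Lt.c, Lt.b, Lt.f] (pair_rel hinv hr (by decide +kernel)) h
    · rcases brec_true h with h | h
      · exact mRel_good (T := T) (by decide) [Lt.a, Lt.f, Lt.a] [Lt.f] (pair_rel hinv hr (by decide +kernel)) h
      · exact mRel_good (T := T) (by decide) [Lt.c, Lt.b, Lt.f, Lt.d, Lt.c, Lt.b, Lt.a, Lt.f, Lt.b, Lt.c, Lt.d, Lt.c, Lt.b, Lt.f, Lt.v, Lt.a, Lt.b, Lt.c, Lt.d, Lt.v] [Lt.d, Lt.c, Lt.b, Lt.f] (pair_rel hinv hr (by decide +kernel)) h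
  · rcases brec_true h with h | h
    · rcases brec_true h with h | h
      · exact mRel_good (T := T) (by decide) [Lt.b, Lt.a, Lt.b, Lt.a] [Lt.a, Lt.b, Lt.a, Lt.b, Lt.a, Lt.b] (pair_rel hinv hr (by decide +kernel)) h
      · exact mRel_good (T := T) (by decide) [Lt.v, Lt.d, Lt.c, Lt.b, Lt.a, Lt.v, Lt.f] [Lt.f, Lt.b, Lt.c, Lt.d, Lt.c, Lt.b, Lt.f, Lt.d, Lt.c, Lt.b, Lt.a, Lt.f, Lt.b, Lt.c, Lt.d, Lt.c, Lt.b] (pair_rel hinv hr (by decide +kernel)) h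
    · rcases brec_true h with h | h
      · exact mRel_good (T := T) (by decide) [Lt.f, Lt.b, Lt.c, Lt.d, Lt.c, Lt.b, Lt.f, Lt.d, Lt.c, Lt.b, Lt.a, Lt.f, Lt.b, Lt.c, Lt.d, Lt.c, Lt.b, Lt.f, Lt.v, Lt.a, Lt.b] [Lt.v, Lt.d, Lt.c] (pair_rel hinv hr (by decide +kernel)) h
      · exact mRel_good (T := T) (by decide) [Lt.a, Lt.v, Lt.f, Lt.b, Lt.c, Lt.d, Lt.c, Lt.b, Lt.f, Lt.a, Lt.b, Lt.c, Lt.d, Lt.f, Lt.b, Lt.c, Lt.d, Lt.c, Lt.b, Lt.f] [Lt.b, Lt.c, Lt.d, Lt.v] (pair_rel hinv hr (by decide +kernel)) h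
theorem dM_56_s (hinv : ∀ x, g (inv x) = (g x)⁻¹) (hr : ∀ r ∈ rels, (r.map g).prod = 1) (j z1 z2 u : ℕ) (h : dM_56 j z1 z2 u = true) : GoodM (fa g) T MG M (cP g H) u := by
  unfold dM_56 at h
  rcases brec_true h with h | h
  · rcases brec_true h with h | h
    · rcases brec_true h with h | h
      · exact mRel_good (T := T) (by decide) [Lt.a, Lt.d, Lt.c, Lt.d, Lt.c, Lt.d] [Lt.c, Lt.d, Lt.c] (pair_rel hinv hr (by decide +kernel)) h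
      · exact mRel_good (T := T) (by decide) [Lt.f, Lt.b, Lt.c, Lt.d, Lt.c, Lt.b, Lt.f, Lt.v] [Lt.c, Lt.f, Lt.b, Lt.c, Lt.d, Lt.c, Lt.b, Lt.f, Lt.v, Lt.c] (pair_rel hinv hr (by decide +kernel)) h
    · rcases brec_true h with h | h
      · exact mRel_good (T := T) (by decide) [Lt.a, Lt.d, Lt.c, Lt.d, Lt.c, Lt.d, Lt.c] [Lt.c, Lt.d] (pair_rel hinv hr (by decide +kernel)) h
      · exact mRel_good (T := T) (by decide) [Lt.f, Lt.b, Lt.c, Lt.d, Lt.c, Lt.b, Lt.f, Lt.d, Lt.c, Lt.b, Lt.a, Lt.f, Lt.b, Lt.c, Lt.d, Lt.c, Lt.b, Lt.f, Lt.v, Lt.a] [Lt.v, Lt.d, Lt.c, Lt.b] (pair_rel hinv hr (by decide +kernel)) h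
  · rcases brec_true h with h | h
    · rcases brec_true h with h | h
      · exact mRel_good (T := T) (by decide) [Lt.c, Lt.b, Lt.f, Lt.v, Lt.f, Lt.b, Lt.c, Lt.d, Lt.c, Lt.b, Lt.f, Lt.v, Lt.f, Lt.b, Lt.c, Lt.d, Lt.c, Lt.b, Lt.f, Lt.v] [Lt.d, Lt.c, Lt.b, Lt.f] (pair_rel hinv hr (by decide +kernel)) h
      · exact mRel_good (T := T) (by decide) [Lt.b, Lt.c, Lt.d, Lt.c, Lt.b, Lt.f, Lt.v, Lt.d, Lt.c, Lt.b, Lt.a] [Lt.f, Lt.d, Lt.c, Lt.b, Lt.a, Lt.f, Lt.b, Lt.c, Lt.d, Lt.c, Lt.b, Lt.f, Lt.v] (pair_rel hinv hr (by decide +kernel)) h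
    · rcases brec_true h with h | h
      · exact mRel_good (T := T) (by decide) [Lt.b, Lt.c, Lt.d] [Lt.a, Lt.v, Lt.f, Lt.b, Lt.c, Lt.d, Lt.c, Lt.b, Lt.f, Lt.a, Lt.b, Lt.c, Lt.d, Lt.f, Lt.b, Lt.c, Lt.d, Lt.c, Lt.b, Lt.f, Lt.v] (pair_rel hinv hr (by decide +kernel)) h
      · exact mRel_good (T := T) (by decide) [Lt.e, Lt.d, Lt.e, Lt.d] [Lt.d, Lt.e] (pair_rel hinv hr (by decide +kernel)) h
theorem dM_57_s (hinv : ∀ x, g (inv x) = (g x)⁻¹) (hr : ∀ r ∈ rels, (r.map g).prod = 1) (j z1 z2 u : ℕ) (h : dM_57 j z1 z2 u = true) : GoodM (fa g) T MG M (cP g H) u := by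
  unfold dM_57 at h
  rcases brec_true h with h | h
  · exact dM_55_s hinv hr j z1 z2 u h
  · exact dM_56_s hinv hr j z1 z2 u h
theorem dM_58_s (hinv : ∀ x, g (inv x) = (g x)⁻¹) (hr : ∀ r ∈ rels, (r.map g).prod = 1) (j z1 z2 u : ℕ) (h : dM_58 j z1 z2 u = true) : GoodM (fa g) T MG M (cP g H) u := by
  unfold dM_58 at h
  rcases brec_true h with h | h
  · rcases brec_true h with h | h
    · rcases brec_true h with h | h
      · exact mRel_good (T := T) (by decide) [Lt.b, Lt.a, Lt.f, Lt.b, Lt.c, Lt.d, Lt.c, Lt.b, Lt.f, Lt.v] [Lt.c, Lt.d, Lt.f, Lt.b, Lt.c, Lt.d, Lt.c, Lt.b, Lt.f, Lt.v, Lt.d, Lt.c, Lt.b, Lt.a] (pair_rel hinv hr (by decide +kernel)) h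
      · exact mRel_good (T := T) (by decide) [Lt.f, Lt.v, Lt.b, Lt.v, Lt.f] [Lt.b, Lt.c, Lt.d, Lt.c, Lt.b, Lt.f, Lt.b, Lt.f, Lt.b, Lt.c, Lt.d, Lt.c, Lt.b] (pair_rel hinv hr (by decide +kernel)) h
    · rcases brec_true h with h | h
      · exact mRel_good (T := T) (by decide) [Lt.b, Lt.a, Lt.f, Lt.b, Lt.c, Lt.d, Lt.c, Lt.b, Lt.f, Lt.v, Lt.a, Lt.b, Lt.c, Lt.d] [Lt.c, Lt.d, Lt.f, Lt.b, Lt.c, Lt.d, Lt.c, Lt.b, Lt.f, Lt.v] (pair_rel hinv hr (by decide +kernel)) h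
      · exact mRel_good (T := T) (by decide) [Lt.d, Lt.c, Lt.b, Lt.f, Lt.a, Lt.b, Lt.c, Lt.d, Lt.f, Lt.b, Lt.c, Lt.d, Lt.c, Lt.b, Lt.f, Lt.v, Lt.d, Lt.c] [Lt.c, Lt.b, Lt.f, Lt.v, Lt.a, Lt.b] (pair_rel hinv hr (by decide +kernel)) h
  · rcases brec_true h with h | h
    · rcases brec_true h with h | h
      · exact mRel_good (T := T) (by decide) [Lt.c, Lt.d, Lt.c, Lt.b, Lt.f, Lt.b, Lt.f, Lt.b, Lt.c, Lt.d, Lt.c, Lt.b, Lt.f, Lt.v, Lt.b, Lt.v, Lt.f] [Lt.b] (pair_rel hinv hr (by decide +kernel)) h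
      · exact mRel_good (T := T) (by decide) [Lt.a, Lt.b, Lt.a, Lt.b, Lt.a, Lt.b, Lt.a, Lt.b] [Lt.b, Lt.a] (pair_rel hinv hr (by decide +kernel)) h
    · rcases brec_true h with h | h
      · exact mRel_good (T := T) (by decide) [Lt.f, Lt.b, Lt.f, Lt.b, Lt.f] [Lt.b] (pair_rel hinv hr (by decide +kernel)) h
      · exact mRel_good (T := T) (by decide) [Lt.c, Lt.b, Lt.f, Lt.c, Lt.f, Lt.b, Lt.c, Lt.d, Lt.c, Lt.b, Lt.f] [Lt.d, Lt.c, Lt.b, Lt.f, Lt.v, Lt.c, Lt.v] (pair_rel hinv hr (by decide +kernel)) h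
theorem dM_59_s (hinv : ∀ x, g (inv x) = (g x)⁻¹) (hr : ∀ r ∈ rels, (r.map g).prod = 1) (j z1 z2 u : ℕ) (h : dM_59 j z1 z2 u = true) : GoodM (fa g) T MG M (cP g H) u := by
  unfold dM_59 at h
  rcases brec_true h with h | h
  · rcases brec_true h with h | h
    · rcases brec_true h with h | h
      · exact mRel_good (T := T) (by decide) [Lt.a, Lt.b, Lt.c, Lt.d, Lt.v] [Lt.v, Lt.f, Lt.b, Lt.c, Lt.d, Lt.c, Lt.b, Lt.f, Lt.a, Lt.b, Lt.c, Lt.d, Lt.f, Lt.b, Lt.c, Lt.d, Lt.c, Lt.b, Lt.f] (pair_rel hinv hr (by decide +kernel)) h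
      · exact mRel_good (T := T) (by decide) [Lt.c, Lt.b, Lt.f, Lt.b, Lt.f, Lt.b, Lt.c, Lt.d, Lt.c, Lt.b, Lt.f] [Lt.d, Lt.c, Lt.b, Lt.f, Lt.v, Lt.b, Lt.v] (pair_rel hinv hr (by decide +kernel)) h
    · rcases brec_true h with h | h
      · exact mRel_good (T := T) (by decide) [Lt.d, Lt.c, Lt.b, Lt.a, Lt.v] [Lt.v, Lt.f, Lt.b, Lt.c, Lt.d, Lt.c, Lt.b, Lt.f, Lt.d, Lt.c, Lt.b, Lt.a, Lt.f, Lt.b, Lt.c, Lt.d, Lt.c, Lt.b, Lt.f] (pair_rel hinv hr (by decide +kernel)) h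
      · exact mRel_good (T := T) (by decide) [Lt.f, Lt.c, Lt.f, Lt.b, Lt.c, Lt.d, Lt.c, Lt.b, Lt.f] [Lt.b, Lt.c, Lt.d, Lt.c, Lt.b, Lt.f, Lt.v, Lt.c, Lt.v] (pair_rel hinv hr (by decide +kernel)) h
  · rcases brec_true h with h | h
    · rcases brec_true h with h | h
      · exact mRel_good (T := T) (by decide) [Lt.b, Lt.c, Lt.d, Lt.c, Lt.b, Lt.f, Lt.v, Lt.d, Lt.c, Lt.b, Lt.a, Lt.v] [Lt.f, Lt.d, Lt.c, Lt.b, Lt.a, Lt.f, Lt.b, Lt.c, Lt.d, Lt.c, Lt.b, Lt.f] (pair_rel hinv hr (by decide +kernel)) h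
      · exact mRel_good (T := T) (by decide) [Lt.c, Lt.d] [Lt.b, Lt.a, Lt.v, Lt.f, Lt.b, Lt.c, Lt.d, Lt.c, Lt.b, Lt.f, Lt.a, Lt.b, Lt.c, Lt.d, Lt.f, Lt.b, Lt.c, Lt.d, Lt.c, Lt.b, Lt.f, Lt.v] (pair_rel hinv hr (by decide +kernel)) h
    · rcases brec_true h with h | h
      · exact mRel_good (T := T) (by decide) [Lt.c, Lt.b] [Lt.d, Lt.v, Lt.f, Lt.b, Lt.c, Lt.d, Lt.c, Lt.b, Lt.f, Lt.d, Lt.c, Lt.b, Lt.a, Lt.f, Lt.b, Lt.c, Lt.d, Lt.c, Lt.b, Lt.f, Lt.v, Lt.a] (pair_rel hinv hr (by decide +kernel)) h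
      · exact mRel_good (T := T) (by decide) [Lt.c, Lt.d, Lt.c, Lt.d, Lt.c, Lt.d, Lt.c, Lt.a] [Lt.d] (pair_rel hinv hr (by decide +kernel)) h
theorem dM_60_s (hinv : ∀ x, g (inv x) = (g x)⁻¹) (hr : ∀ r ∈ rels, (r.map g).prod = 1) (j z1 z2 u : ℕ) (h : dM_60 j z1 z2 u = true) : GoodM (fa g) T MG M (cP g H) u := by
  unfold dM_60 at h
  rcases brec_true h with h | h
  · exact dM_58_s hinv hr j z1 z2 u h
  · exact dM_59_s hinv hr j z1 z2 u h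
theorem dM_61_s (hinv : ∀ x, g (inv x) = (g x)⁻¹) (hr : ∀ r ∈ rels, (r.map g).prod = 1) (j z1 z2 u : ℕ) (h : dM_61 j z1 z2 u = true) : GoodM (fa g) T MG M (cP g H) u := by
  unfold dM_61 at h
  rcases brec_true h with h | h
  · exact dM_57_s hinv hr j z1 z2 u h
  · exact dM_60_s hinv hr j z1 z2 u h
theorem dM_62_s (hinv : ∀ x, g (inv x) = (g x)⁻¹) (hr : ∀ r ∈ rels, (r.map g).prod = 1) (j z1 z2 u : ℕ) (h : dM_62 j z1 z2 u = true) : GoodM (fa g) T MG M (cP g H) u := by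
  unfold dM_62 at h
  rcases brec_true h with h | h
  · exact dM_54_s hinv hr j z1 z2 u h
  · exact dM_61_s hinv hr j z1 z2 u h
theorem dM_63_s (hinv : ∀ x, g (inv x) = (g x)⁻¹) (hr : ∀ r ∈ rels, (r.map g).prod = 1) (j z1 z2 u : ℕ) (h : dM_63 j z1 z2 u = true) : GoodM (fa g) T MG M (cP g H) u := by
  unfold dM_63 at h
  rcases brec_true h with h | h
  · exact dM_47_s hinv hr j z1 z2 u h
  · exact dM_62_s hinv hr j z1 z2 u h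
theorem dM_64_s (hinv : ∀ x, g (inv x) = (g x)⁻¹) (hr : ∀ r ∈ rels, (r.map g).prod = 1) (j z1 z2 u : ℕ) (h : dM_64 j z1 z2 u = true) : GoodM (fa g) T MG M (cP g H) u := by
  unfold dM_64 at h
  rcases brec_true h with h | h
  · rcases brec_true h with h | h
    · rcases brec_true h with h | h
      · exact mRel_good (T := T) (by decide) [Lt.d, Lt.c, Lt.b, Lt.f, Lt.v, Lt.a, Lt.b, Lt.c, Lt.d] [Lt.c, Lt.b, Lt.f, Lt.a, Lt.b, Lt.c, Lt.d, Lt.f, Lt.b, Lt.c, Lt.d, Lt.c, Lt.b, Lt.f, Lt.v] (pair_rel hinv hr (by decide +kernel)) h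
      · exact mRel_good (T := T) (by decide) [Lt.v, Lt.f, Lt.b, Lt.c, Lt.d, Lt.c, Lt.b, Lt.f, Lt.d, Lt.c, Lt.b, Lt.a, Lt.f, Lt.b, Lt.c, Lt.d, Lt.c, Lt.b, Lt.f, Lt.v, Lt.a] [Lt.d, Lt.c, Lt.b] (pair_rel hinv hr (by decide +kernel)) h
    · rcases brec_true h with h | h
      · exact mRel_good (T := T) (by decide) [Lt.c, Lt.b, Lt.a, Lt.v, Lt.f, Lt.b, Lt.c, Lt.d, Lt.c, Lt.b, Lt.f, Lt.a, Lt.b, Lt.c, Lt.d, Lt.f, Lt.b, Lt.c, Lt.d, Lt.c, Lt.b, Lt.f, Lt.v] [Lt.d] (pair_rel hinv hr (by decide +kernel)) h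
      · exact mRel_good (T := T) (by decide) [Lt.a, Lt.b, Lt.a, Lt.b, Lt.a, Lt.b, Lt.a, Lt.b, Lt.a, Lt.b] [] (pair_rel hinv hr (by decide +kernel)) h
  · rcases brec_true h with h | h
    · rcases brec_true h with h | h
      · rcases brec_true h with h | h
        · exact mRel_good (T := T) (by decide) [Lt.b, Lt.c, Lt.d, Lt.c, Lt.b, Lt.f, Lt.d, Lt.c, Lt.b] [Lt.f, Lt.v, Lt.d, Lt.c, Lt.b, Lt.a, Lt.v, Lt.f, Lt.b, Lt.c, Lt.d, Lt.c, Lt.b, Lt.f, Lt.a] (pair_rel hinv hr (by decide +kernel)) h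
        · exact mRel_good (T := T) (by decide) [Lt.c, Lt.d, Lt.c, Lt.b, Lt.f, Lt.e, Lt.v, Lt.f, Lt.b, Lt.c, Lt.d, Lt.c, Lt.b, Lt.f, Lt.e, Lt.f, Lt.b, Lt.c, Lt.d, Lt.c, Lt.b, Lt.f] [Lt.b, Lt.e, Lt.f, Lt.v] (pair_rel hinv hr (by decide +kernel)) h
      · rcases brec_true h with h | h
        · exact mRel_good (T := T) (by decide) [Lt.v, Lt.f, Lt.b, Lt.c, Lt.d, Lt.c, Lt.b, Lt.f] [Lt.e, Lt.f, Lt.b, Lt.c, Lt.d, Lt.c, Lt.b, Lt.e, Lt.f, Lt.v, Lt.f, Lt.b, Lt.c, Lt.d, Lt.c, Lt.b, Lt.f, Lt.e] (pair_rel hinv hr (by decide +kernel)) h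
        · exact mRel_good (T := T) (by decide) [Lt.c, Lt.d, Lt.c, Lt.b, Lt.f, Lt.v] [Lt.b, Lt.f, Lt.v, Lt.f, Lt.b, Lt.c, Lt.d, Lt.c, Lt.b, Lt.f, Lt.v, Lt.f, Lt.b, Lt.c, Lt.d, Lt.c, Lt.b, Lt.f] (pair_rel hinv hr (by decide +kernel)) h
    · rcases brec_true h with h | h
      · rcases brec_true h with h | h
        · exact mRel_good (T := T) (by decide) [Lt.c, Lt.b, Lt.a, Lt.v, Lt.f, Lt.b, Lt.c, Lt.d, Lt.c, Lt.b, Lt.f, Lt.a, Lt.b, Lt.c, Lt.d, Lt.f, Lt.b, Lt.c, Lt.d, Lt.c, Lt.b, Lt.f, Lt.v, Lt.d] [] (pair_rel hinv hr (by decide +kernel)) h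
        · exact mRel_good (T := T) (by decide) [Lt.d, Lt.c, Lt.b, Lt.f, Lt.e, Lt.v] [Lt.c, Lt.b, Lt.e, Lt.f, Lt.v, Lt.f, Lt.b, Lt.c, Lt.d, Lt.c, Lt.b, Lt.f, Lt.e, Lt.f, Lt.b, Lt.c, Lt.d, Lt.c, Lt.b, Lt.f] (pair_rel hinv hr (by decide +kernel)) h
      · rcases brec_true h with h | h
        · exact mRel_good (T := T) (by decide) [Lt.f, Lt.v, Lt.f] [Lt.b, Lt.c, Lt.d, Lt.c, Lt.b, Lt.f, Lt.e, Lt.f, Lt.b, Lt.c, Lt.d, Lt.c, Lt.b, Lt.f, Lt.v, Lt.e, Lt.f, Lt.b, Lt.c, Lt.d, Lt.c, Lt.b, Lt.e] (pair_rel hinv hr (by decide +kernel)) h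
        · exact mRel_good (T := T) (by decide) [Lt.b, Lt.f, Lt.v, Lt.d, Lt.c, Lt.b, Lt.a] [Lt.c, Lt.d, Lt.c, Lt.b, Lt.f, Lt.d, Lt.c, Lt.b, Lt.a, Lt.f, Lt.b, Lt.c, Lt.d, Lt.c, Lt.b, Lt.f, Lt.v] (pair_rel hinv hr (by decide +kernel)) h
theorem dM_65_s (hinv : ∀ x, g (inv x) = (g x)⁻¹) (hr : ∀ r ∈ rels, (r.map g).prod = 1) (j z1 z2 u : ℕ) (h : dM_65 j z1 z2 u = true) : GoodM (fa g) T MG M (cP g H) u := by
  unfold dM_65 at h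
  rcases brec_true h with h | h
  · rcases brec_true h with h | h
    · rcases brec_true h with h | h
      · exact mRel_good (T := T) (by decide) [Lt.v, Lt.f, Lt.b, Lt.c, Lt.d, Lt.c, Lt.b, Lt.f, Lt.a, Lt.b, Lt.c, Lt.d, Lt.f, Lt.b, Lt.c, Lt.d] [Lt.a, Lt.b, Lt.c, Lt.d, Lt.v, Lt.f, Lt.b, Lt.c] (pair_rel hinv hr (by decide +kernel)) h
      · exact mRel_good (T := T) (by decide) [Lt.f, Lt.d, Lt.c, Lt.b, Lt.a, Lt.f, Lt.b, Lt.c, Lt.d, Lt.c, Lt.b, Lt.f, Lt.v] [Lt.b, Lt.c, Lt.d, Lt.c, Lt.b, Lt.f, Lt.v, Lt.d, Lt.c, Lt.b, Lt.a] (pair_rel hinv hr (by decide +kernel)) h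
    · rcases brec_true h with h | h
      · exact mRel_good (T := T) (by decide) [Lt.a, Lt.b, Lt.c, Lt.f, Lt.a, Lt.b, Lt.c, Lt.f, Lt.a, Lt.b, Lt.c, Lt.f, Lt.a, Lt.b, Lt.c, Lt.f, Lt.a, Lt.b, Lt.c, Lt.f] [] (pair_rel hinv hr (by decide +kernel)) h
      · exact mRel_good (T := T) (by decide) [Lt.e, Lt.v, Lt.f, Lt.b, Lt.c, Lt.d, Lt.c] [Lt.f, Lt.b, Lt.c, Lt.d, Lt.c, Lt.b, Lt.e, Lt.f, Lt.v, Lt.f, Lt.b, Lt.c, Lt.d, Lt.c, Lt.b, Lt.f, Lt.e, Lt.f, Lt.b] (pair_rel hinv hr (by decide +kernel)) h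
  · rcases brec_true h with h | h
    · rcases brec_true h with h | h
      · exact mRel_good (T := T) (by decide) [Lt.b, Lt.f, Lt.a, Lt.b, Lt.c, Lt.d, Lt.f, Lt.b, Lt.c, Lt.d, Lt.c, Lt.b, Lt.f, Lt.v] [Lt.c, Lt.d, Lt.c, Lt.b, Lt.f, Lt.v, Lt.a, Lt.b, Lt.c, Lt.d] (pair_rel hinv hr (by decide +kernel)) h
      · exact mRel_good (T := T) (by decide) [Lt.f, Lt.v, Lt.f, Lt.b, Lt.c, Lt.d, Lt.c, Lt.b, Lt.f] [Lt.b, Lt.c, Lt.d, Lt.c, Lt.b, Lt.f, Lt.v, Lt.f, Lt.b, Lt.c, Lt.d, Lt.c, Lt.b, Lt.f, Lt.v] (pair_rel hinv hr (by decide +kernel)) h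
    · rcases brec_true h with h | h
      · exact mRel_good (T := T) (by decide) [Lt.b, Lt.f, Lt.c, Lt.f, Lt.b, Lt.c, Lt.d, Lt.c, Lt.b, Lt.f, Lt.v, Lt.c, Lt.v, Lt.f, Lt.b] [Lt.c, Lt.d, Lt.c] (pair_rel hinv hr (by decide +kernel)) h
      · exact mRel_good (T := T) (by decide) [Lt.b, Lt.f, Lt.v, Lt.f] [Lt.c, Lt.d, Lt.c, Lt.b, Lt.f, Lt.v, Lt.f, Lt.b, Lt.c, Lt.d, Lt.c, Lt.b, Lt.f, Lt.v, Lt.f, Lt.b, Lt.c, Lt.d, Lt.c, Lt.b] (pair_rel hinv hr (by decide +kernel)) h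
theorem dM_66_s (hinv : ∀ x, g (inv x) = (g x)⁻¹) (hr : ∀ r ∈ rels, (r.map g).prod = 1) (j z1 z2 u : ℕ) (h : dM_66 j z1 z2 u = true) : GoodM (fa g) T MG M (cP g H) u := by
  unfold dM_66 at h
  rcases brec_true h with h | h
  · rcases brec_true h with h | h
    · rcases brec_true h with h | h
      · exact mRel_good (T := T) (by decide) [Lt.c, Lt.b, Lt.f, Lt.d, Lt.c, Lt.b, Lt.a, Lt.f, Lt.b, Lt.c, Lt.d, Lt.c, Lt.b, Lt.f, Lt.v, Lt.a, Lt.b, Lt.c, Lt.d] [Lt.d, Lt.c, Lt.b, Lt.f, Lt.v] (pair_rel hinv hr (by decide +kernel)) h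
      · exact mRel_good (T := T) (by decide) [Lt.b, Lt.c, Lt.d, Lt.c, Lt.b, Lt.f, Lt.b, Lt.f, Lt.b, Lt.c, Lt.d, Lt.c, Lt.b, Lt.f, Lt.v, Lt.b, Lt.v, Lt.f] [] (pair_rel hinv hr (by decide +kernel)) h
    · rcases brec_true h with h | h
      · exact mRel_good (T := T) (by decide) [Lt.e, Lt.b, Lt.c, Lt.d, Lt.c, Lt.b, Lt.f, Lt.e, Lt.v, Lt.f, Lt.b, Lt.c, Lt.d, Lt.c, Lt.b, Lt.f, Lt.e, Lt.f, Lt.b, Lt.c, Lt.d, Lt.c, Lt.b, Lt.f] [Lt.f, Lt.v] (pair_rel hinv hr (by decide +kernel)) h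
      · exact mRel_good (T := T) (by decide) [Lt.f] [Lt.b, Lt.c, Lt.d, Lt.c, Lt.b, Lt.f, Lt.c, Lt.f, Lt.b, Lt.c, Lt.d, Lt.c, Lt.b, Lt.f, Lt.v, Lt.c, Lt.v] (pair_rel hinv hr (by decide +kernel)) h
  · rcases brec_true h with h | h
    · rcases brec_true h with h | h
      · exact mRel_good (T := T) (by decide) [Lt.v, Lt.f, Lt.e, Lt.b, Lt.c, Lt.d, Lt.c, Lt.b, Lt.f, Lt.e, Lt.v] [Lt.f, Lt.b, Lt.c, Lt.d, Lt.c, Lt.b, Lt.f, Lt.e, Lt.f, Lt.b, Lt.c, Lt.d, Lt.c, Lt.b, Lt.f] (pair_rel hinv hr (by decide +kernel)) h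
      · exact mRel_good (T := T) (by decide) [Lt.b, Lt.f, Lt.v, Lt.f, Lt.b, Lt.c, Lt.d, Lt.c, Lt.b, Lt.f, Lt.v, Lt.f, Lt.b, Lt.c, Lt.d, Lt.c, Lt.b, Lt.f, Lt.v] [Lt.c, Lt.d, Lt.c, Lt.b, Lt.f] (pair_rel hinv hr (by decide +kernel)) h
    · rcases brec_true h with h | h
      · exact mRel_good (T := T) (by decide) [Lt.d, Lt.c, Lt.b, Lt.f, Lt.v, Lt.d, Lt.c] [Lt.c, Lt.b, Lt.f, Lt.d, Lt.c, Lt.b, Lt.a, Lt.f, Lt.b, Lt.c, Lt.d, Lt.c, Lt.b, Lt.f, Lt.v, Lt.a, Lt.b] (pair_rel hinv hr (by decide +kernel)) h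
      · exact mRel_good (T := T) (by decide) [Lt.c, Lt.f, Lt.b, Lt.c, Lt.d, Lt.c, Lt.b, Lt.f, Lt.v, Lt.c, Lt.v, Lt.f] [Lt.f, Lt.b, Lt.c, Lt.d, Lt.c, Lt.b] (pair_rel hinv hr (by decide +kernel)) h
theorem dM_67_s (hinv : ∀ x, g (inv x) = (g x)⁻¹) (hr : ∀ r ∈ rels, (r.map g).prod = 1) (j z1 z2 u : ℕ) (h : dM_67 j z1 z2 u = true) : GoodM (fa g) T MG M (cP g H) u := by
  unfold dM_67 at h
  rcases brec_true h with h | h
  · exact dM_65_s hinv hr j z1 z2 u h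
  · exact dM_66_s hinv hr j z1 z2 u h
theorem dM_68_s (hinv : ∀ x, g (inv x) = (g x)⁻¹) (hr : ∀ r ∈ rels, (r.map g).prod = 1) (j z1 z2 u : ℕ) (h : dM_68 j z1 z2 u = true) : GoodM (fa g) T MG M (cP g H) u := by
  unfold dM_68 at h
  rcases brec_true h with h | h
  · exact dM_64_s hinv hr j z1 z2 u h
  · exact dM_67_s hinv hr j z1 z2 u h
theorem dM_69_s (hinv : ∀ x, g (inv x) = (g x)⁻¹) (hr : ∀ r ∈ rels, (r.map g).prod = 1) (j z1 z2 u : ℕ) (h : dM_69 j z1 z2 u = true) : GoodM (fa g) T MG M (cP g H) u := by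
  unfold dM_69 at h
  rcases brec_true h with h | h
  · rcases brec_true h with h | h
    · rcases brec_true h with h | h
      · exact mRel_good (T := T) (by decide) [Lt.c, Lt.f, Lt.b, Lt.c, Lt.d, Lt.c, Lt.b, Lt.f, Lt.v, Lt.c, Lt.v, Lt.f, Lt.b, Lt.c, Lt.d] [Lt.f, Lt.b, Lt.c] (pair_rel hinv hr (by decide +kernel)) h
      · exact mRel_good (T := T) (by decide) [Lt.b, Lt.f, Lt.d, Lt.c, Lt.b, Lt.a, Lt.f, Lt.b, Lt.c, Lt.d, Lt.c, Lt.b, Lt.f, Lt.v, Lt.a, Lt.b, Lt.c, Lt.d] [Lt.c, Lt.d, Lt.c, Lt.b, Lt.f, Lt.v] (pair_rel hinv hr (by decide +kernel)) h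
    · rcases brec_true h with h | h
      · exact mRel_good (T := T) (by decide) [Lt.b, Lt.f, Lt.v] [Lt.c, Lt.d, Lt.c, Lt.b, Lt.f, Lt.v, Lt.f, Lt.b, Lt.c, Lt.d, Lt.c, Lt.b, Lt.f, Lt.v, Lt.f, Lt.b, Lt.c, Lt.d, Lt.c, Lt.b, Lt.f] (pair_rel hinv hr (by decide +kernel)) h
      · exact mRel_good (T := T) (by decide) [Lt.c, Lt.b, Lt.f, Lt.e, Lt.v] [Lt.d, Lt.c, Lt.b, Lt.e, Lt.f, Lt.v, Lt.f, Lt.b, Lt.c, Lt.d, Lt.c, Lt.b, Lt.f, Lt.e, Lt.f, Lt.b, Lt.c, Lt.d, Lt.c, Lt.b, Lt.f] (pair_rel hinv hr (by decide +kernel)) h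
  · rcases brec_true h with h | h
    · rcases brec_true h with h | h
      · exact mRel_good (T := T) (by decide) [Lt.d, Lt.c, Lt.b, Lt.f, Lt.a, Lt.b, Lt.c, Lt.d, Lt.f, Lt.b, Lt.c, Lt.d, Lt.c, Lt.b, Lt.f, Lt.v, Lt.d] [Lt.c, Lt.b, Lt.f, Lt.v, Lt.a, Lt.b, Lt.c] (pair_rel hinv hr (by decide +kernel)) h
      · exact mRel_good (T := T) (by decide) [Lt.d, Lt.f, Lt.b, Lt.c, Lt.d, Lt.c, Lt.b, Lt.f, Lt.v] [Lt.c, Lt.b, Lt.a, Lt.f, Lt.b, Lt.c, Lt.d, Lt.c, Lt.b, Lt.f, Lt.v, Lt.a, Lt.b, Lt.c, Lt.d] (pair_rel hinv hr (by decide +kernel)) h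
    · rcases brec_true h with h | h
      · exact mRel_good (T := T) (by decide) [Lt.c, Lt.d, Lt.c, Lt.b, Lt.f, Lt.v] [Lt.b, Lt.f, Lt.a, Lt.b, Lt.c, Lt.d, Lt.f, Lt.b, Lt.c, Lt.d, Lt.c, Lt.b, Lt.f, Lt.v, Lt.d, Lt.c, Lt.b, Lt.a] (pair_rel hinv hr (by decide +kernel)) h
      · exact mRel_good (T := T) (by decide) [Lt.f, Lt.d, Lt.c, Lt.b, Lt.a, Lt.f, Lt.b, Lt.c, Lt.d, Lt.c, Lt.b, Lt.f, Lt.v, Lt.a, Lt.b] [Lt.b, Lt.c, Lt.d, Lt.c, Lt.b, Lt.f, Lt.v, Lt.d, Lt.c] (pair_rel hinv hr (by decide +kernel)) h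
theorem dM_70_s (hinv : ∀ x, g (inv x) = (g x)⁻¹) (hr : ∀ r ∈ rels, (r.map g).prod = 1) (j z1 z2 u : ℕ) (h : dM_70 j z1 z2 u = true) : GoodM (fa g) T MG M (cP g H) u := by
  unfold dM_70 at h
  rcases brec_true h with h | h
  · rcases brec_true h with h | h
    · rcases brec_true h with h | h
      · exact mRel_good (T := T) (by decide) [Lt.c, Lt.d, Lt.c, Lt.b, Lt.f, Lt.d, Lt.c, Lt.b, Lt.a, Lt.f, Lt.b, Lt.c, Lt.d, Lt.c, Lt.b, Lt.f, Lt.v] [Lt.b, Lt.f, Lt.v, Lt.d, Lt.c, Lt.b, Lt.a] (pair_rel hinv hr (by decide +kernel)) h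
      · exact mRel_good (T := T) (by decide) [Lt.c, Lt.d, Lt.f, Lt.b, Lt.c, Lt.d, Lt.c, Lt.b, Lt.f, Lt.v, Lt.d, Lt.c, Lt.b, Lt.a] [Lt.b, Lt.a, Lt.f, Lt.b, Lt.c, Lt.d, Lt.c, Lt.b, Lt.f, Lt.v] (pair_rel hinv hr (by decide +kernel)) h
    · rcases brec_true h with h | h
      · exact mRel_good (T := T) (by decide) [Lt.b, Lt.f, Lt.v, Lt.d, Lt.c, Lt.b] [Lt.c, Lt.d, Lt.c, Lt.b, Lt.f, Lt.d, Lt.c, Lt.b, Lt.a, Lt.f, Lt.b, Lt.c, Lt.d, Lt.c, Lt.b, Lt.f, Lt.v, Lt.a] (pair_rel hinv hr (by decide +kernel)) h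
      · exact mRel_good (T := T) (by decide) [Lt.a, Lt.f, Lt.b, Lt.c, Lt.d, Lt.c, Lt.b, Lt.f, Lt.v, Lt.a, Lt.b, Lt.c, Lt.d, Lt.v] [Lt.b, Lt.c, Lt.d, Lt.f, Lt.b, Lt.c, Lt.d, Lt.c, Lt.b, Lt.f] (pair_rel hinv hr (by decide +kernel)) h
  · rcases brec_true h with h | h
    · rcases brec_true h with h | h
      · exact mRel_good (T := T) (by decide) [Lt.d, Lt.c, Lt.b, Lt.f, Lt.d, Lt.c, Lt.b, Lt.a, Lt.f, Lt.b, Lt.c, Lt.d, Lt.c, Lt.b, Lt.f, Lt.v, Lt.a, Lt.b, Lt.c] [Lt.c, Lt.b, Lt.f, Lt.v, Lt.d] (pair_rel hinv hr (by decide +kernel)) h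
      · exact mRel_good (T := T) (by decide) [Lt.c, Lt.d, Lt.c, Lt.b, Lt.f, Lt.v, Lt.f, Lt.b, Lt.c, Lt.d, Lt.c, Lt.b, Lt.f, Lt.v, Lt.f, Lt.b, Lt.c, Lt.d, Lt.c] [Lt.b, Lt.f, Lt.v, Lt.f, Lt.b] (pair_rel hinv hr (by decide +kernel)) h
    · rcases brec_true h with h | h
      · exact mRel_good (T := T) (by decide) [Lt.c, Lt.b, Lt.f, Lt.v, Lt.d, Lt.c, Lt.b, Lt.a, Lt.v] [Lt.d, Lt.c, Lt.b, Lt.f, Lt.d, Lt.c, Lt.b, Lt.a, Lt.f, Lt.b, Lt.c, Lt.d, Lt.c, Lt.b, Lt.f] (pair_rel hinv hr (by decide +kernel)) h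
      · exact mRel_good (T := T) (by decide) [Lt.d, Lt.f, Lt.b, Lt.c, Lt.d, Lt.c, Lt.b, Lt.f, Lt.v, Lt.d, Lt.c] [Lt.c, Lt.b, Lt.a, Lt.f, Lt.b, Lt.c, Lt.d, Lt.c, Lt.b, Lt.f, Lt.v, Lt.a, Lt.b] (pair_rel hinv hr (by decide +kernel)) h
theorem dM_71_s (hinv : ∀ x, g (inv x) = (g x)⁻¹) (hr : ∀ r ∈ rels, (r.map g).prod = 1) (j z1 z2 u : ℕ) (h : dM_71 j z1 z2 u = true) : GoodM (fa g) T MG M (cP g H) u := by
  unfold dM_71 at h
  rcases brec_true h with h | h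
  · exact dM_69_s hinv hr j z1 z2 u h
  · exact dM_70_s hinv hr j z1 z2 u h
theorem dM_72_s (hinv : ∀ x, g (inv x) = (g x)⁻¹) (hr : ∀ r ∈ rels, (r.map g).prod = 1) (j z1 z2 u : ℕ) (h : dM_72 j z1 z2 u = true) : GoodM (fa g) T MG M (cP g H) u := by
  unfold dM_72 at h
  rcases brec_true h with h | h
  · rcases brec_true h with h | h
    · rcases brec_true h with h | h
      · exact mRel_good (T := T) (by decide) [Lt.a, Lt.b, Lt.a, Lt.b, Lt.a, Lt.b, Lt.a] [Lt.b, Lt.a, Lt.b] (pair_rel hinv hr (by decide +kernel)) h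
      · exact mRel_good (T := T) (by decide) [Lt.b, Lt.a, Lt.b, Lt.a, Lt.b, Lt.a] [Lt.a, Lt.b, Lt.a, Lt.b] (pair_rel hinv hr (by decide +kernel)) h
    · rcases brec_true h with h | h
      · exact mRel_good (T := T) (by decide) [Lt.c, Lt.b, Lt.f, Lt.e, Lt.v, Lt.f, Lt.b, Lt.c, Lt.d, Lt.c, Lt.b, Lt.f, Lt.e, Lt.f, Lt.b, Lt.c, Lt.d, Lt.c, Lt.b, Lt.f, Lt.v, Lt.f, Lt.e] [Lt.d, Lt.c, Lt.b] (pair_rel hinv hr (by decide +kernel)) h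
      · exact mRel_good (T := T) (by decide) [Lt.a, Lt.b, Lt.c, Lt.d, Lt.v, Lt.f, Lt.b, Lt.c, Lt.d, Lt.c, Lt.b, Lt.f, Lt.d, Lt.c, Lt.b, Lt.a, Lt.f, Lt.b, Lt.c, Lt.d, Lt.c, Lt.b, Lt.f] [Lt.v] (pair_rel hinv hr (by decide +kernel)) h
  · rcases brec_true h with h | h
    · rcases brec_true h with h | h
      · exact mRel_good (T := T) (by decide) [Lt.a, Lt.f, Lt.b, Lt.c, Lt.d, Lt.c, Lt.b, Lt.f, Lt.v] [Lt.b, Lt.c, Lt.d, Lt.f, Lt.b, Lt.c, Lt.d, Lt.c, Lt.b, Lt.f, Lt.v, Lt.d, Lt.c, Lt.b, Lt.a] (pair_rel hinv hr (by decide +kernel)) h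
      · exact mRel_good (T := T) (by decide) [Lt.v, Lt.f, Lt.b, Lt.c, Lt.d, Lt.c, Lt.b, Lt.f, Lt.a, Lt.b, Lt.c, Lt.d, Lt.f, Lt.b, Lt.c, Lt.d, Lt.c, Lt.b, Lt.f, Lt.v, Lt.d, Lt.c] [Lt.a, Lt.b] (pair_rel hinv hr (by decide +kernel)) h
    · rcases brec_true h with h | h
      · exact mRel_good (T := T) (by decide) [Lt.f, Lt.a] [Lt.c, Lt.b, Lt.a, Lt.f, Lt.c, Lt.b, Lt.a, Lt.f, Lt.c, Lt.b, Lt.a, Lt.f, Lt.c, Lt.b, Lt.a, Lt.f, Lt.c, Lt.b] (pair_rel hinv hr (by decide +kernel)) h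
      · exact mRel_good (T := T) (by decide) [Lt.a, Lt.b, Lt.a, Lt.b, Lt.a, Lt.b] [Lt.b, Lt.a, Lt.b, Lt.a] (pair_rel hinv hr (by decide +kernel)) h
theorem dM_73_s (hinv : ∀ x, g (inv x) = (g x)⁻¹) (hr : ∀ r ∈ rels, (r.map g).prod = 1) (j z1 z2 u : ℕ) (h : dM_73 j z1 z2 u = true) : GoodM (fa g) T MG M (cP g H) u := by
  unfold dM_73 at h
  rcases brec_true h with h | h
  · rcases brec_true h with h | h
    · rcases brec_true h with h | h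
      · exact mRel_good (T := T) (by decide) [Lt.a, Lt.b, Lt.c, Lt.f, Lt.a, Lt.b, Lt.c, Lt.f, Lt.a, Lt.b] [Lt.f, Lt.c, Lt.b, Lt.a, Lt.f, Lt.c, Lt.b, Lt.a, Lt.f, Lt.c] (pair_rel hinv hr (by decide +kernel)) h
      · exact mRel_good (T := T) (by decide) [Lt.b, Lt.c, Lt.d, Lt.c, Lt.b, Lt.f, Lt.v, Lt.d, Lt.c] [Lt.f, Lt.d, Lt.c, Lt.b, Lt.a, Lt.f, Lt.b, Lt.c, Lt.d, Lt.c, Lt.b, Lt.f, Lt.v, Lt.a, Lt.b] (pair_rel hinv hr (by decide +kernel)) h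
    · rcases brec_true h with h | h
      · exact mRel_good (T := T) (by decide) [Lt.d, Lt.c, Lt.b, Lt.a, Lt.f, Lt.b, Lt.c, Lt.d, Lt.c, Lt.b, Lt.f, Lt.v, Lt.a, Lt.b, Lt.c] [Lt.f, Lt.b, Lt.c, Lt.d, Lt.c, Lt.b, Lt.f, Lt.v, Lt.d] (pair_rel hinv hr (by decide +kernel)) h
      · exact mRel_good (T := T) (by decide) [Lt.c, Lt.d, Lt.c, Lt.b, Lt.f, Lt.a, Lt.b, Lt.c, Lt.d, Lt.f, Lt.b, Lt.c, Lt.d, Lt.c, Lt.b, Lt.f, Lt.v, Lt.d, Lt.c, Lt.b] [Lt.b, Lt.f, Lt.v, Lt.a] (pair_rel hinv hr (by decide +kernel)) h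
  · rcases brec_true h with h | h
    · rcases brec_true h with h | h
      · exact mRel_good (T := T) (by decide) [Lt.b, Lt.c, Lt.d, Lt.f, Lt.b, Lt.c, Lt.d, Lt.c, Lt.b, Lt.f, Lt.v, Lt.d, Lt.c, Lt.b, Lt.a, Lt.v] [Lt.a, Lt.f, Lt.b, Lt.c, Lt.d, Lt.c, Lt.b, Lt.f] (pair_rel hinv hr (by decide +kernel)) h
      · exact mRel_good (T := T) (by decide) [Lt.b, Lt.f, Lt.v] [Lt.c, Lt.d, Lt.c, Lt.b, Lt.f, Lt.a, Lt.b, Lt.c, Lt.d, Lt.f, Lt.b, Lt.c, Lt.d, Lt.c, Lt.b, Lt.f, Lt.v, Lt.d, Lt.c, Lt.b, Lt.a] (pair_rel hinv hr (by decide +kernel)) h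
    · rcases brec_true h with h | h
      · exact mRel_good (T := T) (by decide) [Lt.d, Lt.c, Lt.b, Lt.f, Lt.a, Lt.b, Lt.c, Lt.d, Lt.f, Lt.b, Lt.c, Lt.d, Lt.c, Lt.b, Lt.f, Lt.v, Lt.d, Lt.c, Lt.b] [Lt.c, Lt.b, Lt.f, Lt.v, Lt.a] (pair_rel hinv hr (by decide +kernel)) h
      · exact mRel_good (T := T) (by decide) [Lt.a, Lt.b, Lt.c, Lt.d, Lt.f, Lt.b, Lt.c, Lt.d, Lt.c, Lt.b, Lt.f, Lt.v, Lt.d, Lt.c, Lt.b, Lt.a, Lt.v] [Lt.f, Lt.b, Lt.c, Lt.d, Lt.c, Lt.b, Lt.f] (pair_rel hinv hr (by decide +kernel)) h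
theorem dM_74_s (hinv : ∀ x, g (inv x) = (g x)⁻¹) (hr : ∀ r ∈ rels, (r.map g).prod = 1) (j z1 z2 u : ℕ) (h : dM_74 j z1 z2 u = true) : GoodM (fa g) T MG M (cP g H) u := by
  unfold dM_74 at h
  rcases brec_true h with h | h
  · exact dM_72_s hinv hr j z1 z2 u h
  · exact dM_73_s hinv hr j z1 z2 u h
theorem dM_75_s (hinv : ∀ x, g (inv x) = (g x)⁻¹) (hr : ∀ r ∈ rels, (r.map g).prod = 1) (j z1 z2 u : ℕ) (h : dM_75 j z1 z2 u = true) : GoodM (fa g) T MG M (cP g H) u := by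
  unfold dM_75 at h
  rcases brec_true h with h | h
  · exact dM_71_s hinv hr j z1 z2 u h
  · exact dM_74_s hinv hr j z1 z2 u h
theorem dM_76_s (hinv : ∀ x, g (inv x) = (g x)⁻¹) (hr : ∀ r ∈ rels, (r.map g).prod = 1) (j z1 z2 u : ℕ) (h : dM_76 j z1 z2 u = true) : GoodM (fa g) T MG M (cP g H) u := by
  unfold dM_76 at h
  rcases brec_true h with h | h
  · exact dM_68_s hinv hr j z1 z2 u h
  · exact dM_75_s hinv hr j z1 z2 u h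
theorem dM_77_s (hinv : ∀ x, g (inv x) = (g x)⁻¹) (hr : ∀ r ∈ rels, (r.map g).prod = 1) (j z1 z2 u : ℕ) (h : dM_77 j z1 z2 u = true) : GoodM (fa g) T MG M (cP g H) u := by
  unfold dM_77 at h
  rcases brec_true h with h | h
  · rcases brec_true h with h | h
    · rcases brec_true h with h | h
      · exact mRel_good (T := T) (by decide) [Lt.c, Lt.d, Lt.c, Lt.b, Lt.f, Lt.e, Lt.v, Lt.f, Lt.b, Lt.c] [Lt.b, Lt.e, Lt.f, Lt.v, Lt.f, Lt.b, Lt.c, Lt.d, Lt.c, Lt.b, Lt.f, Lt.e, Lt.f, Lt.b, Lt.c, Lt.d] (pair_rel hinv hr (by decide +kernel)) h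
      · exact mRel_good (T := T) (by decide) [Lt.b, Lt.f, Lt.b, Lt.c, Lt.d, Lt.c, Lt.b, Lt.f, Lt.v, Lt.b, Lt.v, Lt.f] [Lt.f, Lt.b, Lt.c, Lt.d, Lt.c, Lt.b] (pair_rel hinv hr (by decide +kernel)) h
    · rcases brec_true h with h | h
      · exact mRel_good (T := T) (by decide) [Lt.b, Lt.c, Lt.d, Lt.c, Lt.b, Lt.f, Lt.a, Lt.b, Lt.c, Lt.d, Lt.f, Lt.b, Lt.c, Lt.d, Lt.c, Lt.b, Lt.f, Lt.v, Lt.d] [Lt.f, Lt.v, Lt.a, Lt.b, Lt.c] (pair_rel hinv hr (by decide +kernel)) h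
      · exact mRel_good (T := T) (by decide) [Lt.f, Lt.d, Lt.c, Lt.b, Lt.a, Lt.f, Lt.b, Lt.c, Lt.d, Lt.c, Lt.b, Lt.f, Lt.v, Lt.a] [Lt.b, Lt.c, Lt.d, Lt.c, Lt.b, Lt.f, Lt.v, Lt.d, Lt.c, Lt.b] (pair_rel hinv hr (by decide +kernel)) h
  · rcases brec_true h with h | h
    · rcases brec_true h with h | h
      · exact mRel_good (T := T) (by decide) [Lt.a, Lt.b, Lt.a, Lt.b] [Lt.b, Lt.a, Lt.b, Lt.a, Lt.b, Lt.a] (pair_rel hinv hr (by decide +kernel)) h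
      · exact mRel_good (T := T) (by decide) [Lt.c, Lt.e, Lt.c] [Lt.e] (pair_rel hinv hr (by decide +kernel)) h
    · rcases brec_true h with h | h
      · exact mRel_good (T := T) (by decide) [Lt.b, Lt.c, Lt.d, Lt.c, Lt.b, Lt.f] [Lt.f, Lt.b, Lt.f, Lt.b, Lt.c, Lt.d, Lt.c, Lt.b, Lt.f, Lt.v, Lt.b, Lt.v] (pair_rel hinv hr (by decide +kernel)) h
      · exact mRel_good (T := T) (by decide) [Lt.b, Lt.c, Lt.d, Lt.c, Lt.b, Lt.f, Lt.v, Lt.a, Lt.b, Lt.c, Lt.d, Lt.v] [Lt.f, Lt.a, Lt.b, Lt.c, Lt.d, Lt.f, Lt.b, Lt.c, Lt.d, Lt.c, Lt.b, Lt.f] (pair_rel hinv hr (by decide +kernel)) h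
theorem dM_78_s (hinv : ∀ x, g (inv x) = (g x)⁻¹) (hr : ∀ r ∈ rels, (r.map g).prod = 1) (j z1 z2 u : ℕ) (h : dM_78 j z1 z2 u = true) : GoodM (fa g) T MG M (cP g H) u := by
  unfold dM_78 at h
  rcases brec_true h with h | h
  · rcases brec_true h with h | h
    · rcases brec_true h with h | h
      · exact mRel_good (T := T) (by decide) [Lt.b, Lt.c, Lt.d, Lt.c, Lt.b, Lt.f, Lt.v] [Lt.f, Lt.v, Lt.f, Lt.b, Lt.c, Lt.d, Lt.c, Lt.b, Lt.f, Lt.v, Lt.f, Lt.b, Lt.c, Lt.d, Lt.c, Lt.b, Lt.f] (pair_rel hinv hr (by decide +kernel)) h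
      · exact mRel_good (T := T) (by decide) [Lt.c, Lt.b, Lt.f, Lt.v, Lt.b, Lt.v, Lt.f, Lt.b, Lt.c, Lt.d, Lt.c, Lt.b, Lt.f, Lt.b, Lt.f] [Lt.d, Lt.c, Lt.b] (pair_rel hinv hr (by decide +kernel)) h
    · rcases brec_true h with h | h
      · exact mRel_good (T := T) (by decide) [Lt.e] [Lt.b, Lt.e, Lt.b] (pair_rel hinv hr (by decide +kernel)) h
      · exact mRel_good (T := T) (by decide) [Lt.b, Lt.f, Lt.a, Lt.b, Lt.c, Lt.d, Lt.f, Lt.b, Lt.c, Lt.d, Lt.c, Lt.b, Lt.f] [Lt.c, Lt.d, Lt.c, Lt.b, Lt.f, Lt.v, Lt.a, Lt.b, Lt.c, Lt.d, Lt.v] (pair_rel hinv hr (by decide +kernel)) h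
  · rcases brec_true h with h | h
    · rcases brec_true h with h | h
      · exact mRel_good (T := T) (by decide) [Lt.b, Lt.c, Lt.d, Lt.c, Lt.b, Lt.f, Lt.a, Lt.b, Lt.c, Lt.d, Lt.f, Lt.b, Lt.c, Lt.d, Lt.c, Lt.b, Lt.f, Lt.v, Lt.d, Lt.c, Lt.b, Lt.a] [Lt.f, Lt.v] (pair_rel hinv hr (by decide +kernel)) h
      · exact mRel_good (T := T) (by decide) [Lt.e, Lt.v, Lt.f, Lt.b, Lt.c, Lt.d, Lt.c, Lt.b, Lt.f, Lt.e, Lt.f, Lt.b, Lt.c, Lt.d, Lt.c, Lt.b, Lt.f, Lt.v, Lt.f] [Lt.f, Lt.b, Lt.c, Lt.d, Lt.c, Lt.b, Lt.e] (pair_rel hinv hr (by decide +kernel)) h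
    · rcases brec_true h with h | h
      · exact mRel_good (T := T) (by decide) [Lt.c, Lt.a, Lt.d] [Lt.d, Lt.c, Lt.d, Lt.c, Lt.d, Lt.c] (pair_rel hinv hr (by decide +kernel)) h
      · exact mRel_good (T := T) (by decide) [Lt.c, Lt.d, Lt.c] [Lt.d, Lt.a, Lt.c, Lt.d, Lt.c, Lt.d] (pair_rel hinv hr (by decide +kernel)) h
theorem dM_79_s (hinv : ∀ x, g (inv x) = (g x)⁻¹) (hr : ∀ r ∈ rels, (r.map g).prod = 1) (j z1 z2 u : ℕ) (h : dM_79 j z1 z2 u = true) : GoodM (fa g) T MG M (cP g H) u := by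
  unfold dM_79 at h
  rcases brec_true h with h | h
  · exact dM_77_s hinv hr j z1 z2 u h
  · exact dM_78_s hinv hr j z1 z2 u h
theorem dM_80_s (hinv : ∀ x, g (inv x) = (g x)⁻¹) (hr : ∀ r ∈ rels, (r.map g).prod = 1) (j z1 z2 u : ℕ) (h : dM_80 j z1 z2 u = true) : GoodM (fa g) T MG M (cP g H) u := by
  unfold dM_80 at h
  rcases brec_true h with h | h
  · rcases brec_true h with h | h
    · rcases brec_true h with h | h
      · exact mRel_good (T := T) (by decide) [Lt.b, Lt.c, Lt.d, Lt.v, Lt.f, Lt.b, Lt.c, Lt.d, Lt.c, Lt.b, Lt.f, Lt.d, Lt.c, Lt.b, Lt.a, Lt.f, Lt.b, Lt.c, Lt.d, Lt.c, Lt.b, Lt.f, Lt.v] [Lt.a] (pair_rel hinv hr (by decide +kernel)) h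
      · exact mRel_good (T := T) (by decide) [Lt.b, Lt.f, Lt.b, Lt.c, Lt.d, Lt.c, Lt.b, Lt.f, Lt.v, Lt.b, Lt.v] [Lt.f, Lt.b, Lt.c, Lt.d, Lt.c, Lt.b, Lt.f] (pair_rel hinv hr (by decide +kernel)) h
    · rcases brec_true h with h | h
      · exact mRel_good (T := T) (by decide) [Lt.d, Lt.c, Lt.b, Lt.f, Lt.v] [Lt.c, Lt.b, Lt.f, Lt.v, Lt.f, Lt.b, Lt.c, Lt.d, Lt.c, Lt.b, Lt.f, Lt.v, Lt.f, Lt.b, Lt.c, Lt.d, Lt.c, Lt.b, Lt.f] (pair_rel hinv hr (by decide +kernel)) h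
      · exact mRel_good (T := T) (by decide) [Lt.v, Lt.f, Lt.b, Lt.c, Lt.d, Lt.c, Lt.b, Lt.f, Lt.v, Lt.f, Lt.b, Lt.c, Lt.d, Lt.c, Lt.b, Lt.f, Lt.v, Lt.f, Lt.b, Lt.c, Lt.d, Lt.c] [Lt.f, Lt.b] (pair_rel hinv hr (by decide +kernel)) h
  · rcases brec_true h with h | h
    · rcases brec_true h with h | h
      · exact mRel_good (T := T) (by decide) [Lt.d, Lt.c, Lt.d, Lt.c, Lt.d] [Lt.c, Lt.d, Lt.c, Lt.a] (pair_rel hinv hr (by decide +kernel)) h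
      · exact mRel_good (T := T) (by decide) [Lt.d, Lt.c, Lt.b, Lt.f, Lt.d, Lt.c, Lt.b, Lt.a, Lt.f, Lt.b, Lt.c, Lt.d, Lt.c, Lt.b, Lt.f, Lt.v, Lt.a, Lt.b] [Lt.c, Lt.b, Lt.f, Lt.v, Lt.d, Lt.c] (pair_rel hinv hr (by decide +kernel)) h
    · rcases brec_true h with h | h
      · exact mRel_good (T := T) (by decide) [Lt.f, Lt.a, Lt.b, Lt.c, Lt.f, Lt.a, Lt.b, Lt.c, Lt.f, Lt.a, Lt.b] [Lt.c, Lt.b, Lt.a, Lt.f, Lt.c, Lt.b, Lt.a, Lt.f, Lt.c] (pair_rel hinv hr (by decide +kernel)) h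
      · exact mRel_good (T := T) (by decide) [Lt.d, Lt.c, Lt.d, Lt.c] [Lt.a, Lt.c, Lt.d, Lt.c, Lt.d] (pair_rel hinv hr (by decide +kernel)) h
theorem dM_81_s (hinv : ∀ x, g (inv x) = (g x)⁻¹) (hr : ∀ r ∈ rels, (r.map g).prod = 1) (j z1 z2 u : ℕ) (h : dM_81 j z1 z2 u = true) : GoodM (fa g) T MG M (cP g H) u := by
  unfold dM_81 at h
  rcases brec_true h with h | h
  · rcases brec_true h with h | h
    · rcases brec_true h with h | h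
      · exact mRel_good (T := T) (by decide) [Lt.b, Lt.f, Lt.d, Lt.c, Lt.b, Lt.a, Lt.f, Lt.b, Lt.c, Lt.d, Lt.c, Lt.b, Lt.f, Lt.v, Lt.a, Lt.b, Lt.c] [Lt.c, Lt.d, Lt.c, Lt.b, Lt.f, Lt.v, Lt.d] (pair_rel hinv hr (by decide +kernel)) h
      · exact mRel_good (T := T) (by decide) [Lt.b, Lt.c, Lt.d, Lt.v, Lt.f, Lt.b] [Lt.a, Lt.v, Lt.f, Lt.b, Lt.c, Lt.d, Lt.c, Lt.b, Lt.f, Lt.a, Lt.b, Lt.c, Lt.d, Lt.f, Lt.b, Lt.c, Lt.d, Lt.c] (pair_rel hinv hr (by decide +kernel)) h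
    · rcases brec_true h with h | h
      · exact mRel_good (T := T) (by decide) [Lt.d, Lt.c, Lt.b, Lt.f, Lt.d, Lt.c, Lt.b, Lt.a, Lt.f, Lt.b, Lt.c, Lt.d, Lt.c, Lt.b, Lt.f, Lt.v, Lt.a] [Lt.c, Lt.b, Lt.f, Lt.v, Lt.d, Lt.c, Lt.b] (pair_rel hinv hr (by decide +kernel)) h
      · exact mRel_good (T := T) (by decide) [Lt.f, Lt.v, Lt.a, Lt.b] [Lt.b, Lt.c, Lt.d, Lt.c, Lt.b, Lt.f, Lt.a, Lt.b, Lt.c, Lt.d, Lt.f, Lt.b, Lt.c, Lt.d, Lt.c, Lt.b, Lt.f, Lt.v, Lt.d, Lt.c] (pair_rel hinv hr (by decide +kernel)) h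
  · rcases brec_true h with h | h
    · rcases brec_true h with h | h
      · exact mRel_good (T := T) (by decide) [Lt.b, Lt.f, Lt.d, Lt.c, Lt.b, Lt.a, Lt.f, Lt.b, Lt.c, Lt.d, Lt.c, Lt.b, Lt.f, Lt.v, Lt.a, Lt.b, Lt.c, Lt.d, Lt.v] [Lt.c, Lt.d, Lt.c, Lt.b, Lt.f] (pair_rel hinv hr (by decide +kernel)) h
      · exact mRel_good (T := T) (by decide) [Lt.b, Lt.f, Lt.b, Lt.f, Lt.b, Lt.f] [] (pair_rel hinv hr (by decide +kernel)) h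
    · rcases brec_true h with h | h
      · exact mRel_good (T := T) (by decide) [Lt.b] [Lt.f, Lt.b, Lt.f, Lt.b, Lt.f] (pair_rel hinv hr (by decide +kernel)) h
      · exact mRel_good (T := T) (by decide) [Lt.f, Lt.v, Lt.a, Lt.b, Lt.c] [Lt.b, Lt.c, Lt.d, Lt.c, Lt.b, Lt.f, Lt.a, Lt.b, Lt.c, Lt.d, Lt.f, Lt.b, Lt.c, Lt.d, Lt.c, Lt.b, Lt.f, Lt.v, Lt.d] (pair_rel hinv hr (by decide +kernel)) h
theorem dM_82_s (hinv : ∀ x, g (inv x) = (g x)⁻¹) (hr : ∀ r ∈ rels, (r.map g).prod = 1) (j z1 z2 u : ℕ) (h : dM_82 j z1 z2 u = true) : GoodM (fa g) T MG M (cP g H) u := by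
  unfold dM_82 at h
  rcases brec_true h with h | h
  · exact dM_80_s hinv hr j z1 z2 u h
  · exact dM_81_s hinv hr j z1 z2 u h
theorem dM_83_s (hinv : ∀ x, g (inv x) = (g x)⁻¹) (hr : ∀ r ∈ rels, (r.map g).prod = 1) (j z1 z2 u : ℕ) (h : dM_83 j z1 z2 u = true) : GoodM (fa g) T MG M (cP g H) u := by
  unfold dM_83 at h
  rcases brec_true h with h | h
  · exact dM_79_s hinv hr j z1 z2 u h
  · exact dM_82_s hinv hr j z1 z2 u h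
theorem dM_84_s (hinv : ∀ x, g (inv x) = (g x)⁻¹) (hr : ∀ r ∈ rels, (r.map g).prod = 1) (j z1 z2 u : ℕ) (h : dM_84 j z1 z2 u = true) : GoodM (fa g) T MG M (cP g H) u := by
  unfold dM_84 at h
  rcases brec_true h with h | h
  · rcases brec_true h with h | h
    · rcases brec_true h with h | h
      · exact mRel_good (T := T) (by decide) [Lt.b, Lt.c, Lt.d, Lt.f, Lt.b, Lt.c, Lt.d, Lt.c, Lt.b, Lt.f, Lt.v, Lt.d, Lt.c, Lt.b, Lt.a] [Lt.a, Lt.f, Lt.b, Lt.c, Lt.d, Lt.c, Lt.b, Lt.f, Lt.v] (pair_rel hinv hr (by decide +kernel)) h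
      · exact mRel_good (T := T) (by decide) [Lt.d, Lt.c, Lt.b, Lt.f, Lt.v, Lt.d, Lt.c, Lt.b, Lt.a, Lt.v, Lt.f, Lt.b, Lt.c, Lt.d, Lt.c, Lt.b, Lt.f, Lt.a] [Lt.c, Lt.b, Lt.f, Lt.d, Lt.c, Lt.b] (pair_rel hinv hr (by decide +kernel)) h
    · rcases brec_true h with h | h
      · exact mRel_good (T := T) (by decide) [Lt.b, Lt.f, Lt.c, Lt.f, Lt.b, Lt.c, Lt.d, Lt.c, Lt.b, Lt.f] [Lt.c, Lt.d, Lt.c, Lt.b, Lt.f, Lt.v, Lt.c, Lt.v] (pair_rel hinv hr (by decide +kernel)) h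
      · exact mRel_good (T := T) (by decide) [Lt.f, Lt.d, Lt.f, Lt.d] [] (pair_rel hinv hr (by decide +kernel)) h
  · rcases brec_true h with h | h
    · rcases brec_true h with h | h
      · exact mRel_good (T := T) (by decide) [Lt.b, Lt.c, Lt.d, Lt.f, Lt.b, Lt.c, Lt.d, Lt.c, Lt.b, Lt.f, Lt.v, Lt.d] [Lt.a, Lt.f, Lt.b, Lt.c, Lt.d, Lt.c, Lt.b, Lt.f, Lt.v, Lt.a, Lt.b, Lt.c] (pair_rel hinv hr (by decide +kernel)) h
      · exact mRel_good (T := T) (by decide) [Lt.b, Lt.c, Lt.d, Lt.c, Lt.b, Lt.f, Lt.v, Lt.c, Lt.v] [Lt.f, Lt.c, Lt.f, Lt.b, Lt.c, Lt.d, Lt.c, Lt.b, Lt.f] (pair_rel hinv hr (by decide +kernel)) h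
    · rcases brec_true h with h | h
      · exact mRel_good (T := T) (by decide) [Lt.c, Lt.d, Lt.c, Lt.b, Lt.f, Lt.v, Lt.b, Lt.v, Lt.f, Lt.b, Lt.c] [Lt.b, Lt.f, Lt.b, Lt.f, Lt.b, Lt.c, Lt.d] (pair_rel hinv hr (by decide +kernel)) h
      · exact mRel_good (T := T) (by decide) [Lt.c, Lt.b, Lt.f, Lt.c, Lt.f, Lt.b, Lt.c, Lt.d, Lt.c, Lt.b, Lt.f, Lt.v, Lt.c, Lt.v, Lt.f, Lt.b, Lt.c] [Lt.d] (pair_rel hinv hr (by decide +kernel)) h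
theorem dM_85_s (hinv : ∀ x, g (inv x) = (g x)⁻¹) (hr : ∀ r ∈ rels, (r.map g).prod = 1) (j z1 z2 u : ℕ) (h : dM_85 j z1 z2 u = true) : GoodM (fa g) T MG M (cP g H) u := by
  unfold dM_85 at h
  rcases brec_true h with h | h
  · rcases brec_true h with h | h
    · rcases brec_true h with h | h
      · exact mRel_good (T := T) (by decide) [Lt.f, Lt.b, Lt.c, Lt.d, Lt.c, Lt.b, Lt.f, Lt.v, Lt.d, Lt.c] [Lt.d, Lt.c, Lt.b, Lt.a, Lt.f, Lt.b, Lt.c, Lt.d, Lt.c, Lt.b, Lt.f, Lt.v, Lt.a, Lt.b] (pair_rel hinv hr (by decide +kernel)) h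
      · exact mRel_good (T := T) (by decide) [Lt.b, Lt.f, Lt.d, Lt.c, Lt.b, Lt.a, Lt.f, Lt.b, Lt.c, Lt.d, Lt.c, Lt.b, Lt.f] [Lt.c, Lt.d, Lt.c, Lt.b, Lt.f, Lt.v, Lt.d, Lt.c, Lt.b, Lt.a, Lt.v] (pair_rel hinv hr (by decide +kernel)) h
    · rcases brec_true h with h | h
      · exact mRel_good (T := T) (by decide) [Lt.b, Lt.c, Lt.d, Lt.c, Lt.b, Lt.f, Lt.v, Lt.c, Lt.v, Lt.f] [Lt.f, Lt.c, Lt.f, Lt.b, Lt.c, Lt.d, Lt.c, Lt.b] (pair_rel hinv hr (by decide +kernel)) h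
      · exact mRel_good (T := T) (by decide) [Lt.c, Lt.d, Lt.f, Lt.b, Lt.c, Lt.d, Lt.c, Lt.b, Lt.f, Lt.v] [Lt.b, Lt.a, Lt.f, Lt.b, Lt.c, Lt.d, Lt.c, Lt.b, Lt.f, Lt.v, Lt.a, Lt.b, Lt.c, Lt.d] (pair_rel hinv hr (by decide +kernel)) h
  · rcases brec_true h with h | h
    · rcases brec_true h with h | h
      · exact mRel_good (T := T) (by decide) [Lt.d, Lt.c, Lt.b, Lt.f, Lt.v, Lt.c, Lt.v, Lt.f] [Lt.c, Lt.b, Lt.f, Lt.c, Lt.f, Lt.b, Lt.c, Lt.d, Lt.c, Lt.b] (pair_rel hinv hr (by decide +kernel)) h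
      · exact mRel_good (T := T) (by decide) [Lt.v, Lt.f, Lt.b, Lt.c, Lt.d, Lt.c, Lt.b, Lt.f, Lt.v, Lt.f] [Lt.f, Lt.b, Lt.c, Lt.d, Lt.c, Lt.b, Lt.f, Lt.v, Lt.f, Lt.b, Lt.c, Lt.d, Lt.c, Lt.b] (pair_rel hinv hr (by decide +kernel)) h
    · rcases brec_true h with h | h
      · exact mRel_good (T := T) (by decide) [Lt.a, Lt.c, Lt.d, Lt.c, Lt.d, Lt.c] [Lt.d, Lt.c, Lt.d] (pair_rel hinv hr (by decide +kernel)) h
      · exact mRel_good (T := T) (by decide) [Lt.d, Lt.e, Lt.d] [Lt.e, Lt.d, Lt.e] (pair_rel hinv hr (by decide +kernel)) h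
theorem dM_86_s (hinv : ∀ x, g (inv x) = (g x)⁻¹) (hr : ∀ r ∈ rels, (r.map g).prod = 1) (j z1 z2 u : ℕ) (h : dM_86 j z1 z2 u = true) : GoodM (fa g) T MG M (cP g H) u := by
  unfold dM_86 at h
  rcases brec_true h with h | h
  · exact dM_84_s hinv hr j z1 z2 u h
  · exact dM_85_s hinv hr j z1 z2 u h
theorem dM_87_s (hinv : ∀ x, g (inv x) = (g x)⁻¹) (hr : ∀ r ∈ rels, (r.map g).prod = 1) (j z1 z2 u : ℕ) (h : dM_87 j z1 z2 u = true) : GoodM (fa g) T MG M (cP g H) u := by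
  unfold dM_87 at h
  rcases brec_true h with h | h
  · rcases brec_true h with h | h
    · rcases brec_true h with h | h
      · exact mRel_good (T := T) (by decide) [Lt.c, Lt.b, Lt.f, Lt.d, Lt.c, Lt.b, Lt.a, Lt.f, Lt.b, Lt.c, Lt.d, Lt.c, Lt.b, Lt.f] [Lt.d, Lt.c, Lt.b, Lt.f, Lt.v, Lt.d, Lt.c, Lt.b, Lt.a, Lt.v] (pair_rel hinv hr (by decide +kernel)) h
      · exact mRel_good (T := T) (by decide) [Lt.e, Lt.d, Lt.e, Lt.d, Lt.e, Lt.d] [] (pair_rel hinv hr (by decide +kernel)) h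
    · rcases brec_true h with h | h
      · exact mRel_good (T := T) (by decide) [Lt.b, Lt.c, Lt.b, Lt.c, Lt.b, Lt.c] [] (pair_rel hinv hr (by decide +kernel)) h
      · exact mRel_good (T := T) (by decide) [Lt.d, Lt.f, Lt.b, Lt.c, Lt.d, Lt.c, Lt.b, Lt.f, Lt.v, Lt.d, Lt.c, Lt.b] [Lt.c, Lt.b, Lt.a, Lt.f, Lt.b, Lt.c, Lt.d, Lt.c, Lt.b, Lt.f, Lt.v, Lt.a] (pair_rel hinv hr (by decide +kernel)) h
  · rcases brec_true h with h | h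
    · rcases brec_true h with h | h
      · exact mRel_good (T := T) (by decide) [Lt.b, Lt.c, Lt.d, Lt.c, Lt.b, Lt.f, Lt.d, Lt.c, Lt.b, Lt.a, Lt.f, Lt.b, Lt.c, Lt.d, Lt.c, Lt.b, Lt.f, Lt.v, Lt.a, Lt.b] [Lt.f, Lt.v, Lt.d, Lt.c] (pair_rel hinv hr (by decide +kernel)) h
      · exact mRel_good (T := T) (by decide) [Lt.f, Lt.c, Lt.b, Lt.a, Lt.f, Lt.c, Lt.b, Lt.a, Lt.f, Lt.c, Lt.b, Lt.a, Lt.f, Lt.c] [Lt.a, Lt.b, Lt.c, Lt.f, Lt.a, Lt.b] (pair_rel hinv hr (by decide +kernel)) h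
    · rcases brec_true h with h | h
      · exact mRel_good (T := T) (by decide) [Lt.f, Lt.v, Lt.b, Lt.v, Lt.f, Lt.b] [Lt.b, Lt.c, Lt.d, Lt.c, Lt.b, Lt.f, Lt.b, Lt.f, Lt.b, Lt.c, Lt.d, Lt.c] (pair_rel hinv hr (by decide +kernel)) h
      · exact mRel_good (T := T) (by decide) [Lt.f, Lt.a, Lt.b, Lt.c, Lt.d, Lt.f, Lt.b, Lt.c, Lt.d, Lt.c, Lt.b, Lt.f, Lt.v, Lt.d, Lt.c, Lt.b, Lt.a] [Lt.b, Lt.c, Lt.d, Lt.c, Lt.b, Lt.f, Lt.v] (pair_rel hinv hr (by decide +kernel)) h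
theorem dM_88_s (hinv : ∀ x, g (inv x) = (g x)⁻¹) (hr : ∀ r ∈ rels, (r.map g).prod = 1) (j z1 z2 u : ℕ) (h : dM_88 j z1 z2 u = true) : GoodM (fa g) T MG M (cP g H) u := by
  unfold dM_88 at h
  rcases brec_true h with h | h
  · rcases brec_true h with h | h
    · rcases brec_true h with h | h
      · exact mRel_good (T := T) (by decide) [Lt.c, Lt.b, Lt.f, Lt.e, Lt.f, Lt.b, Lt.c, Lt.d, Lt.c, Lt.b, Lt.f, Lt.v, Lt.f, Lt.e, Lt.b, Lt.c, Lt.d, Lt.c, Lt.b, Lt.f, Lt.e, Lt.v] [Lt.d, Lt.c, Lt.b, Lt.f] (pair_rel hinv hr (by decide +kernel)) h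
      · exact mRel_good (T := T) (by decide) [Lt.b, Lt.f, Lt.e, Lt.v, Lt.f, Lt.b, Lt.c, Lt.d, Lt.c, Lt.b, Lt.f, Lt.e, Lt.f, Lt.b, Lt.c, Lt.d, Lt.c, Lt.b, Lt.f, Lt.v] [Lt.c, Lt.d, Lt.c, Lt.b, Lt.e, Lt.f] (pair_rel hinv hr (by decide +kernel)) h
    · rcases brec_true h with h | h
      · exact mRel_good (T := T) (by decide) [Lt.c, Lt.d, Lt.c, Lt.b, Lt.f, Lt.v, Lt.a, Lt.b, Lt.c, Lt.d] [Lt.b, Lt.f, Lt.a, Lt.b, Lt.c, Lt.d, Lt.f, Lt.b, Lt.c, Lt.d, Lt.c, Lt.b, Lt.f, Lt.v] (pair_rel hinv hr (by decide +kernel)) h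
      · exact mRel_good (T := T) (by decide) [Lt.c, Lt.d, Lt.c, Lt.b, Lt.f, Lt.v, Lt.d, Lt.c, Lt.b, Lt.a] [Lt.b, Lt.f, Lt.d, Lt.c, Lt.b, Lt.a, Lt.f, Lt.b, Lt.c, Lt.d, Lt.c, Lt.b, Lt.f, Lt.v] (pair_rel hinv hr (by decide +kernel)) h
  · rcases brec_true h with h | h
    · rcases brec_true h with h | h
      · exact mRel_good (T := T) (by decide) [Lt.a, Lt.b, Lt.c, Lt.d, Lt.f, Lt.b, Lt.c, Lt.d, Lt.c, Lt.b, Lt.f, Lt.v, Lt.d, Lt.c, Lt.b] [Lt.f, Lt.b, Lt.c, Lt.d, Lt.c, Lt.b, Lt.f, Lt.v, Lt.a] (pair_rel hinv hr (by decide +kernel)) h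
      · exact mRel_good (T := T) (by decide) [Lt.b, Lt.f, Lt.c, Lt.f, Lt.b, Lt.c, Lt.d, Lt.c, Lt.b, Lt.f, Lt.v, Lt.c, Lt.v, Lt.f] [Lt.c, Lt.d, Lt.c, Lt.b] (pair_rel hinv hr (by decide +kernel)) h
    · rcases brec_true h with h | h
      · exact mRel_good (T := T) (by decide) [Lt.f, Lt.v, Lt.a, Lt.b, Lt.c, Lt.d] [Lt.b, Lt.c, Lt.d, Lt.c, Lt.b, Lt.f, Lt.a, Lt.b, Lt.c, Lt.d, Lt.f, Lt.b, Lt.c, Lt.d, Lt.c, Lt.b, Lt.f, Lt.v] (pair_rel hinv hr (by decide +kernel)) h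
      · rcases brec_true h with h | h
        · exact mRel_good (T := T) (by decide) [Lt.d, Lt.c, Lt.d, Lt.c] [Lt.c, Lt.d, Lt.a, Lt.c, Lt.d] (pair_rel hinv hr (by decide +kernel)) h
        · exact mRel_good (T := T) (by decide) [Lt.v, Lt.f, Lt.b, Lt.c, Lt.d, Lt.c, Lt.b, Lt.f] [Lt.f, Lt.b, Lt.c, Lt.d, Lt.c, Lt.b, Lt.f, Lt.v, Lt.f, Lt.b, Lt.c, Lt.d, Lt.c, Lt.b, Lt.f, Lt.v] (pair_rel hinv hr (by decide +kernel)) h
theorem dM_89_s (hinv : ∀ x, g (inv x) = (g x)⁻¹) (hr : ∀ r ∈ rels, (r.map g).prod = 1) (j z1 z2 u : ℕ) (h : dM_89 j z1 z2 u = true) : GoodM (fa g) T MG M (cP g H) u := by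
  unfold dM_89 at h
  rcases brec_true h with h | h
  · exact dM_87_s hinv hr j z1 z2 u h
  · exact dM_88_s hinv hr j z1 z2 u h
theorem dM_90_s (hinv : ∀ x, g (inv x) = (g x)⁻¹) (hr : ∀ r ∈ rels, (r.map g).prod = 1) (j z1 z2 u : ℕ) (h : dM_90 j z1 z2 u = true) : GoodM (fa g) T MG M (cP g H) u := by
  unfold dM_90 at h
  rcases brec_true h with h | h
  · exact dM_86_s hinv hr j z1 z2 u h
  · exact dM_89_s hinv hr j z1 z2 u h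
theorem dM_91_s (hinv : ∀ x, g (inv x) = (g x)⁻¹) (hr : ∀ r ∈ rels, (r.map g).prod = 1) (j z1 z2 u : ℕ) (h : dM_91 j z1 z2 u = true) : GoodM (fa g) T MG M (cP g H) u := by
  unfold dM_91 at h
  rcases brec_true h with h | h
  · exact dM_83_s hinv hr j z1 z2 u h
  · exact dM_90_s hinv hr j z1 z2 u h
theorem dM_92_s (hinv : ∀ x, g (inv x) = (g x)⁻¹) (hr : ∀ r ∈ rels, (r.map g).prod = 1) (j z1 z2 u : ℕ) (h : dM_92 j z1 z2 u = true) : GoodM (fa g) T MG M (cP g H) u := by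
  unfold dM_92 at h
  rcases brec_true h with h | h
  · exact dM_76_s hinv hr j z1 z2 u h
  · exact dM_91_s hinv hr j z1 z2 u h
theorem dM_93_s (hinv : ∀ x, g (inv x) = (g x)⁻¹) (hr : ∀ r ∈ rels, (r.map g).prod = 1) (j z1 z2 u : ℕ) (h : dM_93 j z1 z2 u = true) : GoodM (fa g) T MG M (cP g H) u := by
  unfold dM_93 at h
  rcases brec_true h with h | h
  · rcases brec_true h with h | h
    · rcases brec_true h with h | h
      · exact mRel_good (T := T) (by decide) [Lt.c, Lt.b, Lt.f] [Lt.d, Lt.c, Lt.b, Lt.f, Lt.d, Lt.c, Lt.b, Lt.a, Lt.f, Lt.b, Lt.c, Lt.d, Lt.c, Lt.b, Lt.f, Lt.v, Lt.a, Lt.b, Lt.c, Lt.d, Lt.v] (pair_rel hinv hr (by decide +kernel)) h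
      · exact mRel_good (T := T) (by decide) [Lt.b, Lt.c, Lt.d, Lt.c, Lt.b, Lt.f, Lt.v, Lt.f, Lt.e, Lt.b, Lt.c, Lt.d, Lt.c, Lt.b, Lt.f, Lt.e, Lt.v, Lt.f] [Lt.f, Lt.e, Lt.f, Lt.b, Lt.c, Lt.d, Lt.c, Lt.b] (pair_rel hinv hr (by decide +kernel)) h
    · rcases brec_true h with h | h
      · exact mRel_good (T := T) (by decide) [Lt.c, Lt.b, Lt.f, Lt.a, Lt.b, Lt.c, Lt.d, Lt.f, Lt.b, Lt.c, Lt.d, Lt.c, Lt.b, Lt.f, Lt.v, Lt.d, Lt.c, Lt.b] [Lt.d, Lt.c, Lt.b, Lt.f, Lt.v, Lt.a] (pair_rel hinv hr (by decide +kernel)) h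
      · exact mRel_good (T := T) (by decide) [Lt.c, Lt.d] [Lt.d, Lt.c, Lt.d, Lt.c, Lt.d, Lt.a, Lt.c] (pair_rel hinv hr (by decide +kernel)) h
  · rcases brec_true h with h | h
    · rcases brec_true h with h | h
      · exact mRel_good (T := T) (by decide) [Lt.c, Lt.b, Lt.a, Lt.f, Lt.b, Lt.c, Lt.d, Lt.c, Lt.b, Lt.f, Lt.v] [Lt.d, Lt.f, Lt.b, Lt.c, Lt.d, Lt.c, Lt.b, Lt.f, Lt.v, Lt.d, Lt.c, Lt.b, Lt.a] (pair_rel hinv hr (by decide +kernel)) h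
      · exact mRel_good (T := T) (by decide) [Lt.c, Lt.b, Lt.a, Lt.f, Lt.c, Lt.b, Lt.a, Lt.f, Lt.c, Lt.b, Lt.a, Lt.f, Lt.c, Lt.b] [Lt.f, Lt.a, Lt.b, Lt.c, Lt.f, Lt.a] (pair_rel hinv hr (by decide +kernel)) h
    · rcases brec_true h with h | h
      · exact mRel_good (T := T) (by decide) [Lt.b, Lt.c, Lt.d, Lt.c, Lt.b, Lt.f, Lt.v, Lt.d, Lt.c, Lt.b, Lt.a, Lt.v, Lt.f] [Lt.f, Lt.d, Lt.c, Lt.b, Lt.a, Lt.f, Lt.b, Lt.c, Lt.d, Lt.c, Lt.b] (pair_rel hinv hr (by decide +kernel)) h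
      · exact mRel_good (T := T) (by decide) [Lt.f, Lt.v, Lt.b, Lt.v, Lt.f, Lt.b, Lt.c, Lt.d, Lt.c, Lt.b, Lt.f, Lt.b] [Lt.b, Lt.c, Lt.d, Lt.c, Lt.b, Lt.f] (pair_rel hinv hr (by decide +kernel)) h
theorem dM_94_s (hinv : ∀ x, g (inv x) = (g x)⁻¹) (hr : ∀ r ∈ rels, (r.map g).prod = 1) (j z1 z2 u : ℕ) (h : dM_94 j z1 z2 u = true) : GoodM (fa g) T MG M (cP g H) u := by
  unfold dM_94 at h
  rcases brec_true h with h | h
  · rcases brec_true h with h | h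
    · rcases brec_true h with h | h
      · exact mRel_good (T := T) (by decide) [Lt.b, Lt.c, Lt.d, Lt.c, Lt.b, Lt.f, Lt.e, Lt.f, Lt.b, Lt.c, Lt.d, Lt.c, Lt.b, Lt.f, Lt.v, Lt.f] [Lt.f, Lt.v, Lt.e, Lt.f, Lt.b, Lt.c, Lt.d, Lt.c, Lt.b, Lt.e] (pair_rel hinv hr (by decide +kernel)) h
      · exact mRel_good (T := T) (by decide) [Lt.a, Lt.v] [Lt.b, Lt.c, Lt.d, Lt.v, Lt.f, Lt.b, Lt.c, Lt.d, Lt.c, Lt.b, Lt.f, Lt.d, Lt.c, Lt.b, Lt.a, Lt.f, Lt.b, Lt.c, Lt.d, Lt.c, Lt.b, Lt.f] (pair_rel hinv hr (by decide +kernel)) h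
    · rcases brec_true h with h | h
      · exact mRel_good (T := T) (by decide) [Lt.b, Lt.f, Lt.b, Lt.f, Lt.b] [Lt.f] (pair_rel hinv hr (by decide +kernel)) h
      · exact mRel_good (T := T) (by decide) [Lt.d, Lt.c, Lt.d, Lt.c, Lt.d, Lt.c, Lt.d, Lt.a] [Lt.c] (pair_rel hinv hr (by decide +kernel)) h
  · rcases brec_true h with h | h
    · rcases brec_true h with h | h
      · exact mRel_good (T := T) (by decide) [Lt.c, Lt.b, Lt.f] [Lt.d, Lt.c, Lt.b, Lt.f, Lt.v, Lt.c, Lt.v, Lt.f, Lt.b, Lt.c, Lt.d, Lt.c, Lt.b, Lt.f, Lt.c] (pair_rel hinv hr (by decide +kernel)) h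
      · exact mRel_good (T := T) (by decide) [Lt.b, Lt.c, Lt.d, Lt.c, Lt.b, Lt.f, Lt.e, Lt.v, Lt.f] [Lt.e, Lt.f, Lt.v, Lt.f, Lt.b, Lt.c, Lt.d, Lt.c, Lt.b, Lt.f, Lt.e, Lt.f, Lt.b, Lt.c, Lt.d, Lt.c, Lt.b] (pair_rel hinv hr (by decide +kernel)) h
    · rcases brec_true h with h | h
      · exact mRel_good (T := T) (by decide) [Lt.c, Lt.b, Lt.f, Lt.a, Lt.b, Lt.c, Lt.d, Lt.f, Lt.b, Lt.c, Lt.d, Lt.c, Lt.b, Lt.f, Lt.v, Lt.d, Lt.c, Lt.b, Lt.a] [Lt.d, Lt.c, Lt.b, Lt.f, Lt.v] (pair_rel hinv hr (by decide +kernel)) h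
      · exact mRel_good (T := T) (by decide) [Lt.d, Lt.c, Lt.b, Lt.f, Lt.a, Lt.b, Lt.c, Lt.d, Lt.f, Lt.b, Lt.c, Lt.d, Lt.c, Lt.b, Lt.f, Lt.v, Lt.d, Lt.c, Lt.b, Lt.a, Lt.v, Lt.f] [Lt.c, Lt.b] (pair_rel hinv hr (by decide +kernel)) h
theorem dM_95_s (hinv : ∀ x, g (inv x) = (g x)⁻¹) (hr : ∀ r ∈ rels, (r.map g).prod = 1) (j z1 z2 u : ℕ) (h : dM_95 j z1 z2 u = true) : GoodM (fa g) T MG M (cP g H) u := by
  unfold dM_95 at h
  rcases brec_true h with h | h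
  · exact dM_93_s hinv hr j z1 z2 u h
  · exact dM_94_s hinv hr j z1 z2 u h
theorem dM_96_s (hinv : ∀ x, g (inv x) = (g x)⁻¹) (hr : ∀ r ∈ rels, (r.map g).prod = 1) (j z1 z2 u : ℕ) (h : dM_96 j z1 z2 u = true) : GoodM (fa g) T MG M (cP g H) u := by
  unfold dM_96 at h
  rcases brec_true h with h | h
  · rcases brec_true h with h | h
    · rcases brec_true h with h | h
      · exact mRel_good (T := T) (by decide) [Lt.c, Lt.d, Lt.c, Lt.b, Lt.f, Lt.v, Lt.a, Lt.b, Lt.c, Lt.d, Lt.v] [Lt.b, Lt.f, Lt.a, Lt.b, Lt.c, Lt.d, Lt.f, Lt.b, Lt.c, Lt.d, Lt.c, Lt.b, Lt.f] (pair_rel hinv hr (by decide +kernel)) h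
      · exact mRel_good (T := T) (by decide) [Lt.a, Lt.b, Lt.c, Lt.d, Lt.v, Lt.f, Lt.b, Lt.c, Lt.d, Lt.c, Lt.b, Lt.f, Lt.d, Lt.c, Lt.b, Lt.a, Lt.f, Lt.b, Lt.c, Lt.d, Lt.c, Lt.b, Lt.f, Lt.v] [] (pair_rel hinv hr (by decide +kernel)) h
    · rcases brec_true h with h | h
      · exact mRel_good (T := T) (by decide) [Lt.b, Lt.c, Lt.d, Lt.c, Lt.b, Lt.f, Lt.d, Lt.c, Lt.b, Lt.a, Lt.f, Lt.b, Lt.c, Lt.d, Lt.c, Lt.b, Lt.f, Lt.v, Lt.a, Lt.b, Lt.c, Lt.d] [Lt.f, Lt.v] (pair_rel hinv hr (by decide +kernel)) h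
      · exact mRel_good (T := T) (by decide) [Lt.b, Lt.c, Lt.d, Lt.c, Lt.b, Lt.f, Lt.v] [Lt.f, Lt.d, Lt.c, Lt.b, Lt.a, Lt.f, Lt.b, Lt.c, Lt.d, Lt.c, Lt.b, Lt.f, Lt.v, Lt.a, Lt.b, Lt.c, Lt.d] (pair_rel hinv hr (by decide +kernel)) h
  · rcases brec_true h with h | h
    · rcases brec_true h with h | h
      · exact mRel_good (T := T) (by decide) [Lt.c, Lt.b] [Lt.d, Lt.c, Lt.b, Lt.f, Lt.c, Lt.f, Lt.b, Lt.c, Lt.d, Lt.c, Lt.b, Lt.f, Lt.v, Lt.c, Lt.v, Lt.f] (pair_rel hinv hr (by decide +kernel)) h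
      · exact mRel_good (T := T) (by decide) [Lt.d, Lt.f, Lt.b, Lt.c, Lt.d, Lt.c, Lt.b, Lt.f, Lt.v, Lt.d] [Lt.c, Lt.b, Lt.a, Lt.f, Lt.b, Lt.c, Lt.d, Lt.c, Lt.b, Lt.f, Lt.v, Lt.a, Lt.b, Lt.c] (pair_rel hinv hr (by decide +kernel)) h
    · rcases brec_true h with h | h
      · exact mRel_good (T := T) (by decide) [Lt.f, Lt.b, Lt.c, Lt.d, Lt.c, Lt.b, Lt.f, Lt.d, Lt.c, Lt.b, Lt.a, Lt.f, Lt.b, Lt.c, Lt.d, Lt.c, Lt.b, Lt.f] [Lt.v, Lt.d, Lt.c, Lt.b, Lt.a, Lt.v] (pair_rel hinv hr (by decide +kernel)) h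
      · exact mRel_good (T := T) (by decide) [Lt.c, Lt.b, Lt.a, Lt.v, Lt.f] [Lt.d, Lt.v, Lt.f, Lt.b, Lt.c, Lt.d, Lt.c, Lt.b, Lt.f, Lt.d, Lt.c, Lt.b, Lt.a, Lt.f, Lt.b, Lt.c, Lt.d, Lt.c, Lt.b] (pair_rel hinv hr (by decide +kernel)) h
theorem dM_97_s (hinv : ∀ x, g (inv x) = (g x)⁻¹) (hr : ∀ r ∈ rels, (r.map g).prod = 1) (j z1 z2 u : ℕ) (h : dM_97 j z1 z2 u = true) : GoodM (fa g) T MG M (cP g H) u := by
  unfold dM_97 at h
  rcases brec_true h with h | h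
  · rcases brec_true h with h | h
    · rcases brec_true h with h | h
      · exact mRel_good (T := T) (by decide) [Lt.d, Lt.c, Lt.b, Lt.a, Lt.v, Lt.f] [Lt.v, Lt.f, Lt.b, Lt.c, Lt.d, Lt.c, Lt.b, Lt.f, Lt.d, Lt.c, Lt.b, Lt.a, Lt.f, Lt.b, Lt.c, Lt.d, Lt.c, Lt.b] (pair_rel hinv hr (by decide +kernel)) h
      · exact mRel_good (T := T) (by decide) [Lt.f, Lt.e, Lt.f] [Lt.e] (pair_rel hinv hr (by decide +kernel)) h
    · rcases brec_true h with h | h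
      · exact mRel_good (T := T) (by decide) [Lt.f, Lt.b, Lt.c, Lt.d, Lt.c, Lt.b, Lt.f, Lt.a, Lt.b, Lt.c, Lt.d, Lt.f, Lt.b, Lt.c, Lt.d, Lt.c, Lt.b, Lt.f, Lt.v, Lt.d] [Lt.v, Lt.a, Lt.b, Lt.c] (pair_rel hinv hr (by decide +kernel)) h
      · exact mRel_good (T := T) (by decide) [Lt.d, Lt.c, Lt.d, Lt.c, Lt.a, Lt.d] [Lt.c, Lt.d, Lt.c] (pair_rel hinv hr (by decide +kernel)) h
  · rcases brec_true h with h | h
    · rcases brec_true h with h | h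
      · exact mRel_good (T := T) (by decide) [Lt.b, Lt.c, Lt.d, Lt.c, Lt.b, Lt.f, Lt.e, Lt.f, Lt.b, Lt.c, Lt.d, Lt.c, Lt.b, Lt.f, Lt.v] [Lt.f, Lt.v, Lt.e, Lt.f, Lt.b, Lt.c, Lt.d, Lt.c, Lt.b, Lt.e, Lt.f] (pair_rel hinv hr (by decide +kernel)) h
      · exact mRel_good (T := T) (by decide) [Lt.c, Lt.b, Lt.f, Lt.b, Lt.f, Lt.b, Lt.c, Lt.d, Lt.c, Lt.b, Lt.f, Lt.v, Lt.b, Lt.v, Lt.f, Lt.b, Lt.c] [Lt.d] (pair_rel hinv hr (by decide +kernel)) h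
    · rcases brec_true h with h | h
      · exact mRel_good (T := T) (by decide) [Lt.c, Lt.d, Lt.f, Lt.b, Lt.c, Lt.d, Lt.c, Lt.b, Lt.f, Lt.v, Lt.d] [Lt.b, Lt.a, Lt.f, Lt.b, Lt.c, Lt.d, Lt.c, Lt.b, Lt.f, Lt.v, Lt.a, Lt.b, Lt.c] (pair_rel hinv hr (by decide +kernel)) h
      · exact mRel_good (T := T) (by decide) [Lt.a, Lt.b, Lt.c, Lt.d, Lt.f, Lt.b, Lt.c, Lt.d, Lt.c, Lt.b, Lt.f] [Lt.f, Lt.b, Lt.c, Lt.d, Lt.c, Lt.b, Lt.f, Lt.v, Lt.a, Lt.b, Lt.c, Lt.d, Lt.v] (pair_rel hinv hr (by decide +kernel)) h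
theorem dM_98_s (hinv : ∀ x, g (inv x) = (g x)⁻¹) (hr : ∀ r ∈ rels, (r.map g).prod = 1) (j z1 z2 u : ℕ) (h : dM_98 j z1 z2 u = true) : GoodM (fa g) T MG M (cP g H) u := by
  unfold dM_98 at h
  rcases brec_true h with h | h
  · exact dM_96_s hinv hr j z1 z2 u h
  · exact dM_97_s hinv hr j z1 z2 u h
theorem dM_99_s (hinv : ∀ x, g (inv x) = (g x)⁻¹) (hr : ∀ r ∈ rels, (r.map g).prod = 1) (j z1 z2 u : ℕ) (h : dM_99 j z1 z2 u = true) : GoodM (fa g) T MG M (cP g H) u := by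
  unfold dM_99 at h
  rcases brec_true h with h | h
  · exact dM_95_s hinv hr j z1 z2 u h
  · exact dM_98_s hinv hr j z1 z2 u h
theorem dM_100_s (hinv : ∀ x, g (inv x) = (g x)⁻¹) (hr : ∀ r ∈ rels, (r.map g).prod = 1) (j z1 z2 u : ℕ) (h : dM_100 j z1 z2 u = true) : GoodM (fa g) T MG M (cP g H) u := by
  unfold dM_100 at h
  rcases brec_true h with h | h
  · rcases brec_true h with h | h
    · rcases brec_true h with h | h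
      · exact mRel_good (T := T) (by decide) [Lt.c, Lt.d, Lt.c, Lt.b, Lt.f, Lt.d, Lt.c, Lt.b, Lt.a, Lt.f, Lt.b, Lt.c, Lt.d, Lt.c, Lt.b, Lt.f, Lt.v, Lt.a, Lt.b] [Lt.b, Lt.f, Lt.v, Lt.d, Lt.c] (pair_rel hinv hr (by decide +kernel)) h
      · exact mRel_good (T := T) (by decide) [Lt.c, Lt.b, Lt.f, Lt.v, Lt.a, Lt.b, Lt.c, Lt.d, Lt.v, Lt.f] [Lt.d, Lt.c, Lt.b, Lt.f, Lt.a, Lt.b, Lt.c, Lt.d, Lt.f, Lt.b, Lt.c, Lt.d, Lt.c, Lt.b] (pair_rel hinv hr (by decide +kernel)) h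
    · rcases brec_true h with h | h
      · exact mRel_good (T := T) (by decide) [Lt.d, Lt.c, Lt.b, Lt.f, Lt.v, Lt.d, Lt.c, Lt.b, Lt.a, Lt.v, Lt.f, Lt.b, Lt.c, Lt.d, Lt.c, Lt.b] [Lt.c, Lt.b, Lt.f, Lt.d, Lt.c, Lt.b, Lt.a, Lt.f] (pair_rel hinv hr (by decide +kernel)) h
      · exact mRel_good (T := T) (by decide) [Lt.c, Lt.b, Lt.f, Lt.v, Lt.b, Lt.v, Lt.f, Lt.b] [Lt.d, Lt.c, Lt.b, Lt.f, Lt.b, Lt.f, Lt.b, Lt.c, Lt.d, Lt.c] (pair_rel hinv hr (by decide +kernel)) h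
  · rcases brec_true h with h | h
    · rcases brec_true h with h | h
      · exact mRel_good (T := T) (by decide) [Lt.c] [Lt.b, Lt.a, Lt.v, Lt.f, Lt.b, Lt.c, Lt.d, Lt.c, Lt.b, Lt.f, Lt.a, Lt.b, Lt.c, Lt.d, Lt.f, Lt.b, Lt.c, Lt.d, Lt.c, Lt.b, Lt.f, Lt.v, Lt.d] (pair_rel hinv hr (by decide +kernel)) h
      · exact mRel_good (T := T) (by decide) [Lt.v, Lt.d, Lt.c, Lt.b] [Lt.f, Lt.b, Lt.c, Lt.d, Lt.c, Lt.b, Lt.f, Lt.d, Lt.c, Lt.b, Lt.a, Lt.f, Lt.b, Lt.c, Lt.d, Lt.c, Lt.b, Lt.f, Lt.v, Lt.a] (pair_rel hinv hr (by decide +kernel)) h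
    · rcases brec_true h with h | h
      · exact mRel_good (T := T) (by decide) [Lt.b, Lt.c, Lt.d, Lt.v, Lt.f, Lt.b, Lt.c] [Lt.a, Lt.v, Lt.f, Lt.b, Lt.c, Lt.d, Lt.c, Lt.b, Lt.f, Lt.a, Lt.b, Lt.c, Lt.d, Lt.f, Lt.b, Lt.c, Lt.d] (pair_rel hinv hr (by decide +kernel)) h
      · exact mRel_good (T := T) (by decide) [Lt.f, Lt.a, Lt.b, Lt.c, Lt.d, Lt.f, Lt.b, Lt.c, Lt.d, Lt.c, Lt.b, Lt.f] [Lt.b, Lt.c, Lt.d, Lt.c, Lt.b, Lt.f, Lt.v, Lt.a, Lt.b, Lt.c, Lt.d, Lt.v] (pair_rel hinv hr (by decide +kernel)) h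
theorem dM_101_s (hinv : ∀ x, g (inv x) = (g x)⁻¹) (hr : ∀ r ∈ rels, (r.map g).prod = 1) (j z1 z2 u : ℕ) (h : dM_101 j z1 z2 u = true) : GoodM (fa g) T MG M (cP g H) u := by
  unfold dM_101 at h
  rcases brec_true h with h | h
  · rcases brec_true h with h | h
    · rcases brec_true h with h | h
      · exact mRel_good (T := T) (by decide) [Lt.f, Lt.b, Lt.c, Lt.d, Lt.c, Lt.b, Lt.f, Lt.a, Lt.b, Lt.c, Lt.d, Lt.f, Lt.b, Lt.c, Lt.d, Lt.c, Lt.b, Lt.f, Lt.v, Lt.d, Lt.c] [Lt.v, Lt.a, Lt.b] (pair_rel hinv hr (by decide +kernel)) h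
      · exact mRel_good (T := T) (by decide) [Lt.d, Lt.c, Lt.d, Lt.c, Lt.d] [Lt.a, Lt.c, Lt.d, Lt.c] (pair_rel hinv hr (by decide +kernel)) h
    · rcases brec_true h with h | h
      · exact mRel_good (T := T) (by decide) [Lt.b, Lt.c, Lt.d, Lt.c] [Lt.f, Lt.a, Lt.b, Lt.c, Lt.d, Lt.f, Lt.b, Lt.c, Lt.d, Lt.c, Lt.b, Lt.f, Lt.v, Lt.d, Lt.c, Lt.b, Lt.a, Lt.v, Lt.f, Lt.b] (pair_rel hinv hr (by decide +kernel)) h
      · exact mRel_good (T := T) (by decide) [Lt.f, Lt.v, Lt.c, Lt.v, Lt.f, Lt.b] [Lt.b, Lt.c, Lt.d, Lt.c, Lt.b, Lt.f, Lt.c, Lt.f, Lt.b, Lt.c, Lt.d, Lt.c] (pair_rel hinv hr (by decide +kernel)) h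
  · rcases brec_true h with h | h
    · rcases brec_true h with h | h
      · exact mRel_good (T := T) (by decide) [Lt.b, Lt.c, Lt.d, Lt.c, Lt.b, Lt.f, Lt.d, Lt.c] [Lt.f, Lt.v, Lt.d, Lt.c, Lt.b, Lt.a, Lt.v, Lt.f, Lt.b, Lt.c, Lt.d, Lt.c, Lt.b, Lt.f, Lt.a, Lt.b] (pair_rel hinv hr (by decide +kernel)) h
      · exact mRel_good (T := T) (by decide) [Lt.f, Lt.a, Lt.b, Lt.c, Lt.d, Lt.f, Lt.b] [Lt.b, Lt.c, Lt.d, Lt.c, Lt.b, Lt.f, Lt.v, Lt.a, Lt.b, Lt.c, Lt.d, Lt.v, Lt.f, Lt.b, Lt.c, Lt.d, Lt.c] (pair_rel hinv hr (by decide +kernel)) h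
    · rcases brec_true h with h | h
      · exact mRel_good (T := T) (by decide) [Lt.b, Lt.f, Lt.e, Lt.v, Lt.f, Lt.b] [Lt.c, Lt.d, Lt.c, Lt.b, Lt.e, Lt.f, Lt.v, Lt.f, Lt.b, Lt.c, Lt.d, Lt.c, Lt.b, Lt.f, Lt.e, Lt.f, Lt.b, Lt.c, Lt.d, Lt.c] (pair_rel hinv hr (by decide +kernel)) h
      · exact mRel_good (T := T) (by decide) [Lt.d, Lt.v, Lt.f, Lt.b, Lt.c, Lt.d, Lt.c, Lt.b, Lt.f, Lt.d, Lt.c, Lt.b, Lt.a, Lt.f, Lt.b, Lt.c, Lt.d, Lt.c, Lt.b, Lt.f] [Lt.c, Lt.b, Lt.a, Lt.v] (pair_rel hinv hr (by decide +kernel)) h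
theorem dM_102_s (hinv : ∀ x, g (inv x) = (g x)⁻¹) (hr : ∀ r ∈ rels, (r.map g).prod = 1) (j z1 z2 u : ℕ) (h : dM_102 j z1 z2 u = true) : GoodM (fa g) T MG M (cP g H) u := by
  unfold dM_102 at h
  rcases brec_true h with h | h
  · exact dM_100_s hinv hr j z1 z2 u h
  · exact dM_101_s hinv hr j z1 z2 u h
theorem dM_103_s (hinv : ∀ x, g (inv x) = (g x)⁻¹) (hr : ∀ r ∈ rels, (r.map g).prod = 1) (j z1 z2 u : ℕ) (h : dM_103 j z1 z2 u = true) : GoodM (fa g) T MG M (cP g H) u := by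
  unfold dM_103 at h
  rcases brec_true h with h | h
  · rcases brec_true h with h | h
    · rcases brec_true h with h | h
      · exact mRel_good (T := T) (by decide) [Lt.b, Lt.c, Lt.f, Lt.a, Lt.b, Lt.c, Lt.f, Lt.a, Lt.b, Lt.c, Lt.f, Lt.a, Lt.b] [Lt.a, Lt.f, Lt.c, Lt.b, Lt.a, Lt.f, Lt.c] (pair_rel hinv hr (by decide +kernel)) h
      · exact mRel_good (T := T) (by decide) [Lt.f, Lt.c, Lt.b, Lt.a, Lt.f, Lt.c, Lt.b] [Lt.a, Lt.b, Lt.c, Lt.f, Lt.a, Lt.b, Lt.c, Lt.f, Lt.a, Lt.b, Lt.c, Lt.f, Lt.a] (pair_rel hinv hr (by decide +kernel)) h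
    · rcases brec_true h with h | h
      · exact mRel_good (T := T) (by decide) [Lt.f, Lt.a, Lt.b, Lt.c, Lt.d, Lt.f, Lt.b, Lt.c, Lt.d, Lt.c, Lt.b, Lt.f, Lt.v, Lt.d, Lt.c] [Lt.b, Lt.c, Lt.d, Lt.c, Lt.b, Lt.f, Lt.v, Lt.a, Lt.b] (pair_rel hinv hr (by decide +kernel)) h
      · exact mRel_good (T := T) (by decide) [Lt.b, Lt.f, Lt.a, Lt.b, Lt.c, Lt.d, Lt.f, Lt.b, Lt.c, Lt.d, Lt.c, Lt.b, Lt.f, Lt.v, Lt.d, Lt.c, Lt.b, Lt.a, Lt.v] [Lt.c, Lt.d, Lt.c, Lt.b, Lt.f] (pair_rel hinv hr (by decide +kernel)) h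
  · rcases brec_true h with h | h
    · rcases brec_true h with h | h
      · exact mRel_good (T := T) (by decide) [Lt.c, Lt.d, Lt.c, Lt.b, Lt.f, Lt.e, Lt.f, Lt.b, Lt.c, Lt.d, Lt.c, Lt.b, Lt.f, Lt.v, Lt.f] [Lt.b, Lt.f, Lt.v, Lt.e, Lt.f, Lt.b, Lt.c, Lt.d, Lt.c, Lt.b, Lt.e] (pair_rel hinv hr (by decide +kernel)) h
      · exact mRel_good (T := T) (by decide) [Lt.c, Lt.d, Lt.c, Lt.b, Lt.f, Lt.d, Lt.c, Lt.b, Lt.a, Lt.f, Lt.b, Lt.c, Lt.d, Lt.c, Lt.b, Lt.f, Lt.v, Lt.a, Lt.b, Lt.c, Lt.d, Lt.v, Lt.f, Lt.b] [] (pair_rel hinv hr (by decide +kernel)) h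
    · rcases brec_true h with h | h
      · exact mRel_good (T := T) (by decide) [Lt.c, Lt.d, Lt.c, Lt.d, Lt.c, Lt.a] [Lt.d, Lt.c, Lt.d] (pair_rel hinv hr (by decide +kernel)) h
      · exact mRel_good (T := T) (by decide) [Lt.v, Lt.f, Lt.b, Lt.c, Lt.d, Lt.c, Lt.b, Lt.f, Lt.d, Lt.c, Lt.b, Lt.a, Lt.f, Lt.b, Lt.c, Lt.d, Lt.c, Lt.b] [Lt.d, Lt.c, Lt.b, Lt.a, Lt.v, Lt.f] (pair_rel hinv hr (by decide +kernel)) h
theorem dM_104_s (hinv : ∀ x, g (inv x) = (g x)⁻¹) (hr : ∀ r ∈ rels, (r.map g).prod = 1) (j z1 z2 u : ℕ) (h : dM_104 j z1 z2 u = true) : GoodM (fa g) T MG M (cP g H) u := by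
  unfold dM_104 at h
  rcases brec_true h with h | h
  · rcases brec_true h with h | h
    · rcases brec_true h with h | h
      · exact mRel_good (T := T) (by decide) [Lt.b, Lt.c, Lt.d, Lt.f, Lt.b, Lt.c, Lt.d, Lt.c] [Lt.a, Lt.f, Lt.b, Lt.c, Lt.d, Lt.c, Lt.b, Lt.f, Lt.v, Lt.a, Lt.b, Lt.c, Lt.d, Lt.v, Lt.f, Lt.b] (pair_rel hinv hr (by decide +kernel)) h
      · exact mRel_good (T := T) (by decide) [Lt.c, Lt.b, Lt.a] [Lt.d, Lt.v, Lt.f, Lt.b, Lt.c, Lt.d, Lt.c, Lt.b, Lt.f, Lt.d, Lt.c, Lt.b, Lt.a, Lt.f, Lt.b, Lt.c, Lt.d, Lt.c, Lt.b, Lt.f, Lt.v] (pair_rel hinv hr (by decide +kernel)) h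
    · rcases brec_true h with h | h
      · exact mRel_good (T := T) (by decide) [Lt.b, Lt.f, Lt.v, Lt.d, Lt.c, Lt.b, Lt.a, Lt.v, Lt.f] [Lt.c, Lt.d, Lt.c, Lt.b, Lt.f, Lt.d, Lt.c, Lt.b, Lt.a, Lt.f, Lt.b, Lt.c, Lt.d, Lt.c, Lt.b] (pair_rel hinv hr (by decide +kernel)) h
      · exact mRel_good (T := T) (by decide) [Lt.c, Lt.d, Lt.v, Lt.f, Lt.b, Lt.c, Lt.d, Lt.c, Lt.b, Lt.f, Lt.d, Lt.c, Lt.b, Lt.a, Lt.f, Lt.b, Lt.c, Lt.d, Lt.c, Lt.b, Lt.f, Lt.v] [Lt.b, Lt.a] (pair_rel hinv hr (by decide +kernel)) h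
  · rcases brec_true h with h | h
    · rcases brec_true h with h | h
      · exact mRel_good (T := T) (by decide) [Lt.b, Lt.c, Lt.d, Lt.v, Lt.f, Lt.b, Lt.c, Lt.d, Lt.c, Lt.b, Lt.f, Lt.d, Lt.c, Lt.b, Lt.a, Lt.f, Lt.b, Lt.c, Lt.d, Lt.c, Lt.b, Lt.f, Lt.v, Lt.a] [] (pair_rel hinv hr (by decide +kernel)) h
      · exact mRel_good (T := T) (by decide) [Lt.b, Lt.a, Lt.b, Lt.a, Lt.b, Lt.a, Lt.b] [Lt.a, Lt.b, Lt.a] (pair_rel hinv hr (by decide +kernel)) h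
    · rcases brec_true h with h | h
      · exact mRel_good (T := T) (by decide) [Lt.c, Lt.b, Lt.f, Lt.d, Lt.c, Lt.b, Lt.a, Lt.f, Lt.b, Lt.c, Lt.d, Lt.c, Lt.b, Lt.f, Lt.v, Lt.a, Lt.b, Lt.c, Lt.d, Lt.v, Lt.f] [Lt.d, Lt.c, Lt.b] (pair_rel hinv hr (by decide +kernel)) h
      · exact mRel_good (T := T) (by decide) [Lt.d, Lt.c, Lt.d, Lt.c, Lt.d, Lt.c, Lt.a] [Lt.c, Lt.d] (pair_rel hinv hr (by decide +kernel)) h
theorem dM_105_s (hinv : ∀ x, g (inv x) = (g x)⁻¹) (hr : ∀ r ∈ rels, (r.map g).prod = 1) (j z1 z2 u : ℕ) (h : dM_105 j z1 z2 u = true) : GoodM (fa g) T MG M (cP g H) u := by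
  unfold dM_105 at h
  rcases brec_true h with h | h
  · exact dM_103_s hinv hr j z1 z2 u h
  · exact dM_104_s hinv hr j z1 z2 u h
theorem dM_106_s (hinv : ∀ x, g (inv x) = (g x)⁻¹) (hr : ∀ r ∈ rels, (r.map g).prod = 1) (j z1 z2 u : ℕ) (h : dM_106 j z1 z2 u = true) : GoodM (fa g) T MG M (cP g H) u := by
  unfold dM_106 at h
  rcases brec_true h with h | h
  · exact dM_102_s hinv hr j z1 z2 u h
  · exact dM_105_s hinv hr j z1 z2 u h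
theorem dM_107_s (hinv : ∀ x, g (inv x) = (g x)⁻¹) (hr : ∀ r ∈ rels, (r.map g).prod = 1) (j z1 z2 u : ℕ) (h : dM_107 j z1 z2 u = true) : GoodM (fa g) T MG M (cP g H) u := by
  unfold dM_107 at h
  rcases brec_true h with h | h
  · exact dM_99_s hinv hr j z1 z2 u h
  · exact dM_106_s hinv hr j z1 z2 u h
theorem dM_108_s (hinv : ∀ x, g (inv x) = (g x)⁻¹) (hr : ∀ r ∈ rels, (r.map g).prod = 1) (j z1 z2 u : ℕ) (h : dM_108 j z1 z2 u = true) : GoodM (fa g) T MG M (cP g H) u := by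
  unfold dM_108 at h
  rcases brec_true h with h | h
  · rcases brec_true h with h | h
    · rcases brec_true h with h | h
      · exact mRel_good (T := T) (by decide) [Lt.b, Lt.f, Lt.d, Lt.c, Lt.b, Lt.a, Lt.f, Lt.b, Lt.c, Lt.d, Lt.c, Lt.b, Lt.f, Lt.v, Lt.a] [Lt.c, Lt.d, Lt.c, Lt.b, Lt.f, Lt.v, Lt.d, Lt.c, Lt.b] (pair_rel hinv hr (by decide +kernel)) h
      · exact mRel_good (T := T) (by decide) [Lt.v, Lt.f, Lt.b, Lt.c, Lt.d, Lt.c, Lt.b, Lt.f, Lt.v, Lt.f, Lt.b, Lt.c, Lt.d, Lt.c, Lt.b, Lt.f, Lt.v] [Lt.f, Lt.b, Lt.c, Lt.d, Lt.c, Lt.b, Lt.f] (pair_rel hinv hr (by decide +kernel)) h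
    · rcases brec_true h with h | h
      · exact mRel_good (T := T) (by decide) [Lt.c, Lt.d, Lt.c, Lt.d, Lt.c, Lt.d, Lt.a] [Lt.d, Lt.c] (pair_rel hinv hr (by decide +kernel)) h
      · exact mRel_good (T := T) (by decide) [Lt.c, Lt.b, Lt.f, Lt.v, Lt.a] [Lt.d, Lt.c, Lt.b, Lt.f, Lt.a, Lt.b, Lt.c, Lt.d, Lt.f, Lt.b, Lt.c, Lt.d, Lt.c, Lt.b, Lt.f, Lt.v, Lt.d, Lt.c, Lt.b] (pair_rel hinv hr (by decide +kernel)) h
  · rcases brec_true h with h | h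
    · rcases brec_true h with h | h
      · exact mRel_good (T := T) (by decide) [Lt.c, Lt.d, Lt.c, Lt.b, Lt.f] [Lt.b, Lt.f, Lt.d, Lt.c, Lt.b, Lt.a, Lt.f, Lt.b, Lt.c, Lt.d, Lt.c, Lt.b, Lt.f, Lt.v, Lt.a, Lt.b, Lt.c, Lt.d, Lt.v] (pair_rel hinv hr (by decide +kernel)) h
      · exact mRel_good (T := T) (by decide) [Lt.a, Lt.b] [Lt.b, Lt.a, Lt.b, Lt.a, Lt.b, Lt.a, Lt.b, Lt.a] (pair_rel hinv hr (by decide +kernel)) h
    · rcases brec_true h with h | h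
      · exact mRel_good (T := T) (by decide) [Lt.a, Lt.d, Lt.a, Lt.d] [] (pair_rel hinv hr (by decide +kernel)) h
      · exact mRel_good (T := T) (by decide) [Lt.e, Lt.f, Lt.b, Lt.c, Lt.d, Lt.c, Lt.b, Lt.e, Lt.f, Lt.v, Lt.f, Lt.b, Lt.c, Lt.d, Lt.c, Lt.b, Lt.f, Lt.e, Lt.f, Lt.b] [Lt.v, Lt.f, Lt.b, Lt.c, Lt.d, Lt.c] (pair_rel hinv hr (by decide +kernel)) h
theorem dM_109_s (hinv : ∀ x, g (inv x) = (g x)⁻¹) (hr : ∀ r ∈ rels, (r.map g).prod = 1) (j z1 z2 u : ℕ) (h : dM_109 j z1 z2 u = true) : GoodM (fa g) T MG M (cP g H) u := by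
  unfold dM_109 at h
  rcases brec_true h with h | h
  · rcases brec_true h with h | h
    · rcases brec_true h with h | h
      · exact mRel_good (T := T) (by decide) [Lt.v, Lt.f, Lt.b, Lt.c, Lt.d, Lt.c, Lt.b, Lt.f, Lt.a, Lt.b, Lt.c, Lt.d, Lt.f, Lt.b, Lt.c, Lt.d, Lt.c, Lt.b, Lt.f] [Lt.a, Lt.b, Lt.c, Lt.d, Lt.v] (pair_rel hinv hr (by decide +kernel)) h
      · exact mRel_good (T := T) (by decide) [Lt.d, Lt.c, Lt.b, Lt.f, Lt.v, Lt.f] [Lt.c, Lt.b, Lt.f, Lt.v, Lt.f, Lt.b, Lt.c, Lt.d, Lt.c, Lt.b, Lt.f, Lt.v, Lt.f, Lt.b, Lt.c, Lt.d, Lt.c, Lt.b] (pair_rel hinv hr (by decide +kernel)) h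
    · rcases brec_true h with h | h
      · exact mRel_good (T := T) (by decide) [Lt.c, Lt.d, Lt.c, Lt.b, Lt.f, Lt.e, Lt.v, Lt.f, Lt.b, Lt.c, Lt.d, Lt.c, Lt.b, Lt.f, Lt.e, Lt.f, Lt.b, Lt.c, Lt.d, Lt.c, Lt.b, Lt.f, Lt.v] [Lt.b, Lt.e, Lt.f] (pair_rel hinv hr (by decide +kernel)) h
      · exact mRel_good (T := T) (by decide) [Lt.b, Lt.c, Lt.d, Lt.c, Lt.b, Lt.f, Lt.a, Lt.b, Lt.c, Lt.d, Lt.f, Lt.b, Lt.c, Lt.d, Lt.c, Lt.b, Lt.f, Lt.v] [Lt.f, Lt.v, Lt.a, Lt.b, Lt.c, Lt.d] (pair_rel hinv hr (by decide +kernel)) h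
  · rcases brec_true h with h | h
    · rcases brec_true h with h | h
      · exact mRel_good (T := T) (by decide) [Lt.b, Lt.c, Lt.d, Lt.c, Lt.b, Lt.f, Lt.d, Lt.c, Lt.b, Lt.a, Lt.f, Lt.b, Lt.c, Lt.d, Lt.c, Lt.b, Lt.f, Lt.v] [Lt.f, Lt.v, Lt.d, Lt.c, Lt.b, Lt.a] (pair_rel hinv hr (by decide +kernel)) h
      · exact mRel_good (T := T) (by decide) [Lt.f] [Lt.b, Lt.c, Lt.d, Lt.c, Lt.b, Lt.f, Lt.b, Lt.f, Lt.b, Lt.c, Lt.d, Lt.c, Lt.b, Lt.f, Lt.v, Lt.b, Lt.v] (pair_rel hinv hr (by decide +kernel)) h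
    · rcases brec_true h with h | h
      · exact mRel_good (T := T) (by decide) [Lt.c, Lt.d, Lt.c, Lt.b, Lt.f, Lt.a] [Lt.b, Lt.f, Lt.v, Lt.a, Lt.b, Lt.c, Lt.d, Lt.v, Lt.f, Lt.b, Lt.c, Lt.d, Lt.c, Lt.b, Lt.f, Lt.d, Lt.c, Lt.b] (pair_rel hinv hr (by decide +kernel)) h
      · exact mRel_good (T := T) (by decide) [Lt.f] [Lt.b, Lt.c, Lt.d, Lt.c, Lt.b, Lt.f, Lt.v, Lt.f, Lt.b, Lt.c, Lt.d, Lt.c, Lt.b, Lt.f, Lt.v, Lt.f, Lt.b, Lt.c, Lt.d, Lt.c, Lt.b, Lt.f, Lt.v] (pair_rel hinv hr (by decide +kernel)) h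
theorem dM_110_s (hinv : ∀ x, g (inv x) = (g x)⁻¹) (hr : ∀ r ∈ rels, (r.map g).prod = 1) (j z1 z2 u : ℕ) (h : dM_110 j z1 z2 u = true) : GoodM (fa g) T MG M (cP g H) u := by
  unfold dM_110 at h
  rcases brec_true h with h | h
  · exact dM_108_s hinv hr j z1 z2 u h
  · exact dM_109_s hinv hr j z1 z2 u h
theorem dM_111_s (hinv : ∀ x, g (inv x) = (g x)⁻¹) (hr : ∀ r ∈ rels, (r.map g).prod = 1) (j z1 z2 u : ℕ) (h : dM_111 j z1 z2 u = true) : GoodM (fa g) T MG M (cP g H) u := by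
  unfold dM_111 at h
  rcases brec_true h with h | h
  · rcases brec_true h with h | h
    · rcases brec_true h with h | h
      · exact mRel_good (T := T) (by decide) [Lt.f, Lt.b, Lt.c] [Lt.v, Lt.a, Lt.b, Lt.c, Lt.d, Lt.v, Lt.f, Lt.b, Lt.c, Lt.d, Lt.c, Lt.b, Lt.f, Lt.d, Lt.c, Lt.b, Lt.a, Lt.f, Lt.b, Lt.c, Lt.d] (pair_rel hinv hr (by decide +kernel)) h
      · exact mRel_good (T := T) (by decide) [Lt.c, Lt.d, Lt.f, Lt.b, Lt.c, Lt.d, Lt.c, Lt.b, Lt.f, Lt.v, Lt.d, Lt.c, Lt.b, Lt.a, Lt.v] [Lt.b, Lt.a, Lt.f, Lt.b, Lt.c, Lt.d, Lt.c, Lt.b, Lt.f] (pair_rel hinv hr (by decide +kernel)) h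
    · rcases brec_true h with h | h
      · exact mRel_good (T := T) (by decide) [Lt.v, Lt.c, Lt.v, Lt.f] [Lt.f, Lt.b, Lt.c, Lt.d, Lt.c, Lt.b, Lt.f, Lt.c, Lt.f, Lt.b, Lt.c, Lt.d, Lt.c, Lt.b] (pair_rel hinv hr (by decide +kernel)) h
      · exact mRel_good (T := T) (by decide) [Lt.f, Lt.a, Lt.f] [Lt.a] (pair_rel hinv hr (by decide +kernel)) h
  · rcases brec_true h with h | h
    · rcases brec_true h with h | h
      · exact mRel_good (T := T) (by decide) [Lt.b, Lt.c, Lt.d, Lt.v, Lt.f, Lt.b, Lt.c, Lt.d, Lt.c, Lt.b, Lt.f, Lt.d, Lt.c, Lt.b, Lt.a, Lt.f, Lt.b, Lt.c, Lt.d, Lt.c, Lt.b, Lt.f] [Lt.a, Lt.v] (pair_rel hinv hr (by decide +kernel)) h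
      · exact mRel_good (T := T) (by decide) [Lt.c, Lt.d, Lt.v, Lt.f, Lt.b, Lt.c, Lt.d, Lt.c, Lt.b, Lt.f, Lt.d, Lt.c, Lt.b, Lt.a, Lt.f, Lt.b, Lt.c, Lt.d, Lt.c, Lt.b, Lt.f] [Lt.b, Lt.a, Lt.v] (pair_rel hinv hr (by decide +kernel)) h
    · rcases brec_true h with h | h
      · exact mRel_good (T := T) (by decide) [Lt.d, Lt.c, Lt.d, Lt.c, Lt.d, Lt.c] [Lt.a, Lt.c, Lt.d] (pair_rel hinv hr (by decide +kernel)) h
      · exact mRel_good (T := T) (by decide) [Lt.c, Lt.b, Lt.f, Lt.a] [Lt.d, Lt.c, Lt.b, Lt.f, Lt.v, Lt.a, Lt.b, Lt.c, Lt.d, Lt.v, Lt.f, Lt.b, Lt.c, Lt.d, Lt.c, Lt.b, Lt.f, Lt.d, Lt.c, Lt.b] (pair_rel hinv hr (by decide +kernel)) h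
theorem dM_112_s (hinv : ∀ x, g (inv x) = (g x)⁻¹) (hr : ∀ r ∈ rels, (r.map g).prod = 1) (j z1 z2 u : ℕ) (h : dM_112 j z1 z2 u = true) : GoodM (fa g) T MG M (cP g H) u := by
  unfold dM_112 at h
  rcases brec_true h with h | h
  · rcases brec_true h with h | h
    · rcases brec_true h with h | h
      · exact mRel_good (T := T) (by decide) [Lt.b, Lt.c, Lt.d, Lt.c, Lt.b, Lt.f, Lt.a, Lt.b, Lt.c, Lt.d, Lt.f, Lt.b, Lt.c, Lt.d, Lt.c, Lt.b, Lt.f, Lt.v, Lt.d, Lt.c, Lt.b, Lt.a, Lt.v] [Lt.f] (pair_rel hinv hr (by decide +kernel)) h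
      · exact mRel_good (T := T) (by decide) [Lt.c, Lt.d, Lt.c, Lt.b, Lt.f, Lt.d, Lt.c, Lt.b, Lt.a, Lt.f, Lt.b, Lt.c, Lt.d, Lt.c, Lt.b, Lt.f, Lt.v, Lt.a, Lt.b, Lt.c, Lt.d] [Lt.b, Lt.f, Lt.v] (pair_rel hinv hr (by decide +kernel)) h
    · rcases brec_true h with h | h
      · exact mRel_good (T := T) (by decide) [Lt.c, Lt.b, Lt.f, Lt.v, Lt.a, Lt.b, Lt.c, Lt.d, Lt.v] [Lt.d, Lt.c, Lt.b, Lt.f, Lt.a, Lt.b, Lt.c, Lt.d, Lt.f, Lt.b, Lt.c, Lt.d, Lt.c, Lt.b, Lt.f] (pair_rel hinv hr (by decide +kernel)) h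
      · exact mRel_good (T := T) (by decide) [Lt.d, Lt.c, Lt.b, Lt.a, Lt.v, Lt.f, Lt.b, Lt.c, Lt.d, Lt.c, Lt.b, Lt.f, Lt.a, Lt.b, Lt.c, Lt.d, Lt.f, Lt.b, Lt.c, Lt.d, Lt.c, Lt.b, Lt.f, Lt.v] [] (pair_rel hinv hr (by decide +kernel)) h
  · rcases brec_true h with h | h
    · rcases brec_true h with h | h
      · exact mRel_good (T := T) (by decide) [Lt.f, Lt.a, Lt.b, Lt.c, Lt.d, Lt.f, Lt.b, Lt.c, Lt.d, Lt.c, Lt.b, Lt.f, Lt.v, Lt.d, Lt.c, Lt.b, Lt.a, Lt.v, Lt.f] [Lt.b, Lt.c, Lt.d, Lt.c, Lt.b] (pair_rel hinv hr (by decide +kernel)) h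
      · exact mRel_good (T := T) (by decide) [Lt.b, Lt.c, Lt.d, Lt.f, Lt.b, Lt.c, Lt.d, Lt.c, Lt.b, Lt.f] [Lt.a, Lt.f, Lt.b, Lt.c, Lt.d, Lt.c, Lt.b, Lt.f, Lt.v, Lt.a, Lt.b, Lt.c, Lt.d, Lt.v] (pair_rel hinv hr (by decide +kernel)) h
    · rcases brec_true h with h | h
      · exact mRel_good (T := T) (by decide) [Lt.d, Lt.c, Lt.d, Lt.c, Lt.d, Lt.c, Lt.a, Lt.d] [Lt.c] (pair_rel hinv hr (by decide +kernel)) h
      · exact mRel_good (T := T) (by decide) [Lt.b, Lt.c, Lt.d, Lt.c, Lt.b, Lt.f, Lt.e, Lt.v] [Lt.e, Lt.f, Lt.v, Lt.f, Lt.b, Lt.c, Lt.d, Lt.c, Lt.b, Lt.f, Lt.e, Lt.f, Lt.b, Lt.c, Lt.d, Lt.c, Lt.b, Lt.f] (pair_rel hinv hr (by decide +kernel)) h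
theorem dM_113_s (hinv : ∀ x, g (inv x) = (g x)⁻¹) (hr : ∀ r ∈ rels, (r.map g).prod = 1) (j z1 z2 u : ℕ) (h : dM_113 j z1 z2 u = true) : GoodM (fa g) T MG M (cP g H) u := by
  unfold dM_113 at h
  rcases brec_true h with h | h
  · exact dM_111_s hinv hr j z1 z2 u h
  · exact dM_112_s hinv hr j z1 z2 u h
theorem dM_114_s (hinv : ∀ x, g (inv x) = (g x)⁻¹) (hr : ∀ r ∈ rels, (r.map g).prod = 1) (j z1 z2 u : ℕ) (h : dM_114 j z1 z2 u = true) : GoodM (fa g) T MG M (cP g H) u := by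
  unfold dM_114 at h
  rcases brec_true h with h | h
  · exact dM_110_s hinv hr j z1 z2 u h
  · exact dM_113_s hinv hr j z1 z2 u h
theorem dM_115_s (hinv : ∀ x, g (inv x) = (g x)⁻¹) (hr : ∀ r ∈ rels, (r.map g).prod = 1) (j z1 z2 u : ℕ) (h : dM_115 j z1 z2 u = true) : GoodM (fa g) T MG M (cP g H) u := by
  unfold dM_115 at h
  rcases brec_true h with h | h
  · rcases brec_true h with h | h
    · rcases brec_true h with h | h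
      · exact mRel_good (T := T) (by decide) [Lt.v, Lt.a, Lt.b, Lt.c, Lt.d, Lt.v, Lt.f] [Lt.f, Lt.b, Lt.c, Lt.d, Lt.c, Lt.b, Lt.f, Lt.a, Lt.b, Lt.c, Lt.d, Lt.f, Lt.b, Lt.c, Lt.d, Lt.c, Lt.b] (pair_rel hinv hr (by decide +kernel)) h
      · exact mRel_good (T := T) (by decide) [Lt.c, Lt.b, Lt.a, Lt.f, Lt.b, Lt.c, Lt.d, Lt.c, Lt.b, Lt.f, Lt.v, Lt.a, Lt.b, Lt.c, Lt.d] [Lt.d, Lt.f, Lt.b, Lt.c, Lt.d, Lt.c, Lt.b, Lt.f, Lt.v] (pair_rel hinv hr (by decide +kernel)) h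
    · rcases brec_true h with h | h
      · exact mRel_good (T := T) (by decide) [Lt.b, Lt.c, Lt.d, Lt.c, Lt.b, Lt.f, Lt.v, Lt.f, Lt.b, Lt.c, Lt.d, Lt.c, Lt.b, Lt.f, Lt.v, Lt.f, Lt.b, Lt.c, Lt.d, Lt.c, Lt.b, Lt.f, Lt.v] [Lt.f] (pair_rel hinv hr (by decide +kernel)) h
      · exact mRel_good (T := T) (by decide) [Lt.b, Lt.f, Lt.d, Lt.c, Lt.b, Lt.a, Lt.f, Lt.b, Lt.c, Lt.d, Lt.c, Lt.b, Lt.f, Lt.v, Lt.a, Lt.b, Lt.c, Lt.d, Lt.v, Lt.f] [Lt.c, Lt.d, Lt.c, Lt.b] (pair_rel hinv hr (by decide +kernel)) h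
  · rcases brec_true h with h | h
    · rcases brec_true h with h | h
      · exact mRel_good (T := T) (by decide) [Lt.a, Lt.b, Lt.c, Lt.d, Lt.f, Lt.b, Lt.c, Lt.d, Lt.c, Lt.b, Lt.f, Lt.v, Lt.d] [Lt.f, Lt.b, Lt.c, Lt.d, Lt.c, Lt.b, Lt.f, Lt.v, Lt.a, Lt.b, Lt.c] (pair_rel hinv hr (by decide +kernel)) h
      · exact mRel_good (T := T) (by decide) [Lt.a, Lt.b, Lt.c, Lt.d] [Lt.v, Lt.f, Lt.b, Lt.c, Lt.d, Lt.c, Lt.b, Lt.f, Lt.a, Lt.b, Lt.c, Lt.d, Lt.f, Lt.b, Lt.c, Lt.d, Lt.c, Lt.b, Lt.f, Lt.v] (pair_rel hinv hr (by decide +kernel)) h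
    · rcases brec_true h with h | h
      · exact mRel_good (T := T) (by decide) [Lt.d, Lt.c, Lt.b, Lt.f, Lt.v, Lt.b, Lt.v, Lt.f, Lt.b, Lt.c, Lt.d, Lt.c, Lt.b, Lt.f, Lt.b] [Lt.c, Lt.b, Lt.f] (pair_rel hinv hr (by decide +kernel)) h
      · exact mRel_good (T := T) (by decide) [Lt.b, Lt.f, Lt.v, Lt.d] [Lt.c, Lt.d, Lt.c, Lt.b, Lt.f, Lt.d, Lt.c, Lt.b, Lt.a, Lt.f, Lt.b, Lt.c, Lt.d, Lt.c, Lt.b, Lt.f, Lt.v, Lt.a, Lt.b, Lt.c] (pair_rel hinv hr (by decide +kernel)) h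
theorem dM_116_s (hinv : ∀ x, g (inv x) = (g x)⁻¹) (hr : ∀ r ∈ rels, (r.map g).prod = 1) (j z1 z2 u : ℕ) (h : dM_116 j z1 z2 u = true) : GoodM (fa g) T MG M (cP g H) u := by
  unfold dM_116 at h
  rcases brec_true h with h | h
  · rcases brec_true h with h | h
    · rcases brec_true h with h | h
      · exact mRel_good (T := T) (by decide) [Lt.b, Lt.f, Lt.v, Lt.c, Lt.v, Lt.f, Lt.b] [Lt.c, Lt.d, Lt.c, Lt.b, Lt.f, Lt.c, Lt.f, Lt.b, Lt.c, Lt.d, Lt.c] (pair_rel hinv hr (by decide +kernel)) h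
      · exact mRel_good (T := T) (by decide) [Lt.f, Lt.v, Lt.f, Lt.b, Lt.c] [Lt.e, Lt.b, Lt.c, Lt.d, Lt.c, Lt.b, Lt.f, Lt.e, Lt.v, Lt.f, Lt.b, Lt.c, Lt.d, Lt.c, Lt.b, Lt.f, Lt.e, Lt.f, Lt.b, Lt.c, Lt.d] (pair_rel hinv hr (by decide +kernel)) h
    · rcases brec_true h with h | h
      · exact mRel_good (T := T) (by decide) [Lt.d, Lt.c, Lt.a] [Lt.c, Lt.d, Lt.c, Lt.d, Lt.c, Lt.d] (pair_rel hinv hr (by decide +kernel)) h
      · exact mRel_good (T := T) (by decide) [Lt.c, Lt.b, Lt.a, Lt.f, Lt.b, Lt.c, Lt.d, Lt.c, Lt.b, Lt.f, Lt.v, Lt.a, Lt.b, Lt.c, Lt.d, Lt.v] [Lt.d, Lt.f, Lt.b, Lt.c, Lt.d, Lt.c, Lt.b, Lt.f] (pair_rel hinv hr (by decide +kernel)) h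
  · rcases brec_true h with h | h
    · rcases brec_true h with h | h
      · exact mRel_good (T := T) (by decide) [Lt.b, Lt.f, Lt.e, Lt.f, Lt.b, Lt.c, Lt.d, Lt.c, Lt.b, Lt.f, Lt.v, Lt.f, Lt.e, Lt.b, Lt.c, Lt.d, Lt.c, Lt.b, Lt.f, Lt.e, Lt.v, Lt.f] [Lt.c, Lt.d, Lt.c, Lt.b] (pair_rel hinv hr (by decide +kernel)) h
      · exact mRel_good (T := T) (by decide) [Lt.a, Lt.b, Lt.c, Lt.d, Lt.v, Lt.f] [Lt.v, Lt.f, Lt.b, Lt.c, Lt.d, Lt.c, Lt.b, Lt.f, Lt.a, Lt.b, Lt.c, Lt.d, Lt.f, Lt.b, Lt.c, Lt.d, Lt.c, Lt.b] (pair_rel hinv hr (by decide +kernel)) h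
    · rcases brec_true h with h | h
      · exact mRel_good (T := T) (by decide) [Lt.b, Lt.f, Lt.e, Lt.f, Lt.b, Lt.c, Lt.d, Lt.c, Lt.b, Lt.f] [Lt.c, Lt.d, Lt.c, Lt.b, Lt.f, Lt.v, Lt.e, Lt.f, Lt.b, Lt.c, Lt.d, Lt.c, Lt.b, Lt.e, Lt.f, Lt.v] (pair_rel hinv hr (by decide +kernel)) h
      · exact mRel_good (T := T) (by decide) [Lt.b, Lt.f, Lt.v, Lt.b, Lt.v, Lt.f, Lt.b, Lt.c, Lt.d, Lt.c, Lt.b, Lt.f, Lt.b, Lt.f] [Lt.c, Lt.d, Lt.c, Lt.b] (pair_rel hinv hr (by decide +kernel)) h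
theorem dM_117_s (hinv : ∀ x, g (inv x) = (g x)⁻¹) (hr : ∀ r ∈ rels, (r.map g).prod = 1) (j z1 z2 u : ℕ) (h : dM_117 j z1 z2 u = true) : GoodM (fa g) T MG M (cP g H) u := by
  unfold dM_117 at h
  rcases brec_true h with h | h
  · exact dM_115_s hinv hr j z1 z2 u h
  · exact dM_116_s hinv hr j z1 z2 u h
theorem dM_118_s (hinv : ∀ x, g (inv x) = (g x)⁻¹) (hr : ∀ r ∈ rels, (r.map g).prod = 1) (j z1 z2 u : ℕ) (h : dM_118 j z1 z2 u = true) : GoodM (fa g) T MG M (cP g H) u := by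
  unfold dM_118 at h
  rcases brec_true h with h | h
  · rcases brec_true h with h | h
    · rcases brec_true h with h | h
      · exact mRel_good (T := T) (by decide) [Lt.f, Lt.b, Lt.f] [Lt.b, Lt.f, Lt.b] (pair_rel hinv hr (by decide +kernel)) h
      · exact mRel_good (T := T) (by decide) [Lt.a, Lt.b, Lt.c, Lt.d, Lt.f, Lt.b, Lt.c, Lt.d, Lt.c, Lt.b, Lt.f, Lt.v, Lt.d, Lt.c] [Lt.f, Lt.b, Lt.c, Lt.d, Lt.c, Lt.b, Lt.f, Lt.v, Lt.a, Lt.b] (pair_rel hinv hr (by decide +kernel)) h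
    · rcases brec_true h with h | h
      · exact mRel_good (T := T) (by decide) [Lt.c, Lt.d, Lt.v] [Lt.b, Lt.a, Lt.v, Lt.f, Lt.b, Lt.c, Lt.d, Lt.c, Lt.b, Lt.f, Lt.a, Lt.b, Lt.c, Lt.d, Lt.f, Lt.b, Lt.c, Lt.d, Lt.c, Lt.b, Lt.f] (pair_rel hinv hr (by decide +kernel)) h
      · exact mRel_good (T := T) (by decide) [Lt.d, Lt.e, Lt.d, Lt.e] [Lt.e, Lt.d] (pair_rel hinv hr (by decide +kernel)) h
  · rcases brec_true h with h | h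
    · rcases brec_true h with h | h
      · exact mRel_good (T := T) (by decide) [Lt.b] [Lt.c, Lt.f, Lt.a, Lt.b, Lt.c, Lt.f, Lt.a, Lt.b, Lt.c, Lt.f, Lt.a, Lt.b, Lt.c, Lt.f, Lt.a, Lt.b, Lt.c, Lt.f, Lt.a] (pair_rel hinv hr (by decide +kernel)) h
      · exact mRel_good (T := T) (by decide) [Lt.f, Lt.b, Lt.c, Lt.d, Lt.c, Lt.b, Lt.f, Lt.v, Lt.b, Lt.v, Lt.f, Lt.b, Lt.c, Lt.d, Lt.c, Lt.b, Lt.f, Lt.b] [] (pair_rel hinv hr (by decide +kernel)) h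
    · rcases brec_true h with h | h
      · exact mRel_good (T := T) (by decide) [Lt.b, Lt.d, Lt.b, Lt.d] [] (pair_rel hinv hr (by decide +kernel)) h
      · exact mRel_good (T := T) (by decide) [Lt.a, Lt.v, Lt.f, Lt.b, Lt.c, Lt.d, Lt.c, Lt.b, Lt.f, Lt.a, Lt.b, Lt.c, Lt.d, Lt.f, Lt.b, Lt.c, Lt.d, Lt.c, Lt.b, Lt.f, Lt.v] [Lt.b, Lt.c, Lt.d] (pair_rel hinv hr (by decide +kernel)) h
theorem dM_119_s (hinv : ∀ x, g (inv x) = (g x)⁻¹) (hr : ∀ r ∈ rels, (r.map g).prod = 1) (j z1 z2 u : ℕ) (h : dM_119 j z1 z2 u = true) : GoodM (fa g) T MG M (cP g H) u := by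
  unfold dM_119 at h
  rcases brec_true h with h | h
  · rcases brec_true h with h | h
    · rcases brec_true h with h | h
      · exact mRel_good (T := T) (by decide) [Lt.d, Lt.c, Lt.b, Lt.f, Lt.b, Lt.f, Lt.b, Lt.c, Lt.d, Lt.c, Lt.b, Lt.f] [Lt.c, Lt.b, Lt.f, Lt.v, Lt.b, Lt.v] (pair_rel hinv hr (by decide +kernel)) h
      · exact mRel_good (T := T) (by decide) [Lt.f, Lt.b, Lt.c, Lt.d, Lt.c, Lt.b, Lt.f, Lt.d, Lt.c, Lt.b, Lt.a, Lt.f, Lt.b, Lt.c, Lt.d, Lt.c, Lt.b, Lt.f, Lt.v, Lt.a, Lt.b, Lt.c, Lt.d, Lt.v] [] (pair_rel hinv hr (by decide +kernel)) h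
    · rcases brec_true h with h | h
      · exact mRel_good (T := T) (by decide) [Lt.b, Lt.c, Lt.d, Lt.c, Lt.b, Lt.f, Lt.a, Lt.b, Lt.c, Lt.d, Lt.f, Lt.b, Lt.c, Lt.d, Lt.c, Lt.b, Lt.f] [Lt.f, Lt.v, Lt.a, Lt.b, Lt.c, Lt.d, Lt.v] (pair_rel hinv hr (by decide +kernel)) h
      · exact mRel_good (T := T) (by decide) [Lt.f, Lt.b, Lt.c, Lt.d, Lt.c, Lt.b, Lt.f, Lt.v] [Lt.v, Lt.f, Lt.b, Lt.c, Lt.d, Lt.c, Lt.b, Lt.f, Lt.v, Lt.f, Lt.b, Lt.c, Lt.d, Lt.c, Lt.b, Lt.f] (pair_rel hinv hr (by decide +kernel)) h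
  · rcases brec_true h with h | h
    · rcases brec_true h with h | h
      · exact mRel_good (T := T) (by decide) [Lt.f, Lt.b, Lt.c, Lt.d, Lt.c, Lt.b, Lt.f, Lt.d, Lt.c, Lt.b, Lt.a, Lt.f, Lt.b, Lt.c, Lt.d, Lt.c, Lt.b, Lt.f, Lt.v, Lt.a, Lt.b, Lt.c, Lt.d] [Lt.v] (pair_rel hinv hr (by decide +kernel)) h
      · exact mRel_good (T := T) (by decide) [Lt.b] [Lt.v, Lt.f, Lt.b, Lt.c, Lt.d, Lt.c, Lt.b, Lt.f, Lt.b, Lt.f, Lt.b, Lt.c, Lt.d, Lt.c, Lt.b, Lt.f, Lt.v] (pair_rel hinv hr (by decide +kernel)) h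
    · rcases brec_true h with h | h
      · exact mRel_good (T := T) (by decide) [Lt.b, Lt.c, Lt.d, Lt.c, Lt.b, Lt.f, Lt.v, Lt.b, Lt.v, Lt.f, Lt.b, Lt.c, Lt.d, Lt.c, Lt.b, Lt.f, Lt.b] [Lt.f] (pair_rel hinv hr (by decide +kernel)) h
      · rcases brec_true h with h | h
        · exact mRel_good (T := T) (by decide) [Lt.f, Lt.b, Lt.c, Lt.d, Lt.c, Lt.b, Lt.f] [Lt.c, Lt.f, Lt.b, Lt.c, Lt.d, Lt.c, Lt.b, Lt.f, Lt.v, Lt.c, Lt.v] (pair_rel hinv hr (by decide +kernel)) h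
        · exact mRel_good (T := T) (by decide) [Lt.f, Lt.b, Lt.c, Lt.d, Lt.c, Lt.b, Lt.f, Lt.v, Lt.d, Lt.c, Lt.b, Lt.a] [Lt.d, Lt.c, Lt.b, Lt.a, Lt.f, Lt.b, Lt.c, Lt.d, Lt.c, Lt.b, Lt.f, Lt.v] (pair_rel hinv hr (by decide +kernel)) h
theorem dM_120_s (hinv : ∀ x, g (inv x) = (g x)⁻¹) (hr : ∀ r ∈ rels, (r.map g).prod = 1) (j z1 z2 u : ℕ) (h : dM_120 j z1 z2 u = true) : GoodM (fa g) T MG M (cP g H) u := by
  unfold dM_120 at h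
  rcases brec_true h with h | h
  · exact dM_118_s hinv hr j z1 z2 u h
  · exact dM_119_s hinv hr j z1 z2 u h
theorem dM_121_s (hinv : ∀ x, g (inv x) = (g x)⁻¹) (hr : ∀ r ∈ rels, (r.map g).prod = 1) (j z1 z2 u : ℕ) (h : dM_121 j z1 z2 u = true) : GoodM (fa g) T MG M (cP g H) u := by
  unfold dM_121 at h
  rcases brec_true h with h | h
  · exact dM_117_s hinv hr j z1 z2 u h
  · exact dM_120_s hinv hr j z1 z2 u h
theorem dM_122_s (hinv : ∀ x, g (inv x) = (g x)⁻¹) (hr : ∀ r ∈ rels, (r.map g).prod = 1) (j z1 z2 u : ℕ) (h : dM_122 j z1 z2 u = true) : GoodM (fa g) T MG M (cP g H) u := by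
  unfold dM_122 at h
  rcases brec_true h with h | h
  · exact dM_114_s hinv hr j z1 z2 u h
  · exact dM_121_s hinv hr j z1 z2 u h
theorem dM_123_s (hinv : ∀ x, g (inv x) = (g x)⁻¹) (hr : ∀ r ∈ rels, (r.map g).prod = 1) (j z1 z2 u : ℕ) (h : dM_123 j z1 z2 u = true) : GoodM (fa g) T MG M (cP g H) u := by
  unfold dM_123 at h
  rcases brec_true h with h | h
  · exact dM_107_s hinv hr j z1 z2 u h
  · exact dM_122_s hinv hr j z1 z2 u h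
theorem dM_124_s (hinv : ∀ x, g (inv x) = (g x)⁻¹) (hr : ∀ r ∈ rels, (r.map g).prod = 1) (j z1 z2 u : ℕ) (h : dM_124 j z1 z2 u = true) : GoodM (fa g) T MG M (cP g H) u := by
  unfold dM_124 at h
  rcases brec_true h with h | h
  · exact dM_92_s hinv hr j z1 z2 u h
  · exact dM_123_s hinv hr j z1 z2 u h
theorem dM_125_s (hinv : ∀ x, g (inv x) = (g x)⁻¹) (hr : ∀ r ∈ rels, (r.map g).prod = 1) (j z1 z2 u : ℕ) (h : dM_125 j z1 z2 u = true) : GoodM (fa g) T MG M (cP g H) u := by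
  unfold dM_125 at h
  rcases brec_true h with h | h
  · exact dM_63_s hinv hr j z1 z2 u h
  · exact dM_124_s hinv hr j z1 z2 u h
theorem dM_126_s (hinv : ∀ x, g (inv x) = (g x)⁻¹) (hr : ∀ r ∈ rels, (r.map g).prod = 1) (j z1 z2 u : ℕ) (h : dM_126 j z1 z2 u = true) : GoodM (fa g) T MG M (cP g H) u := by
  unfold dM_126 at h
  rcases brec_true h with h | h
  · exact dM_36_s hinv hr j z1 z2 u h
  · exact dM_125_s hinv hr j z1 z2 u h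
theorem dM_127_s (hinv : ∀ x, g (inv x) = (g x)⁻¹) (hr : ∀ r ∈ rels, (r.map g).prod = 1) (j z1 z2 u : ℕ) (h : dM_127 j z1 z2 u = true) : GoodM (fa g) T MG M (cP g H) u := by
  unfold dM_127 at h
  rcases brec_true h with h | h
  · exact dM_17_s hinv hr j z1 z2 u h
  · exact dM_126_s hinv hr j z1 z2 u h
theorem dM_128_s (hinv : ∀ x, g (inv x) = (g x)⁻¹) (hr : ∀ r ∈ rels, (r.map g).prod = 1) (j z1 z2 u : ℕ) (h : dM_128 j z1 z2 u = true) : GoodM (fa g) T MG M (cP g H) u := by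
  unfold dM_128 at h
  rcases brec_true h with h | h
  · exact dM_2_s hinv hr j z1 z2 u h
  · exact dM_127_s hinv hr j z1 z2 u h
theorem dM_129_s (hinv : ∀ x, g (inv x) = (g x)⁻¹) (hr : ∀ r ∈ rels, (r.map g).prod = 1) (j z1 z2 u : ℕ) (h : dM_129 j z1 z2 u = true) : GoodM (fa g) T MG M (cP g H) u := by
  unfold dM_129 at h
  rcases brec_true h with h | h
  · exact dM_1_s hinv hr j z1 z2 u h
  · exact dM_128_s hinv hr j z1 z2 u h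
theorem dM_130_s (hinv : ∀ x, g (inv x) = (g x)⁻¹) (hr : ∀ r ∈ rels, (r.map g).prod = 1) (j z1 z2 u : ℕ) (h : dM_130 j z1 z2 u = true) : GoodM (fa g) T MG M (cP g H) u := by
  unfold dM_130 at h
  rcases brec_true h with h | h
  · exact dM_0_s hinv hr j z1 z2 u h
  · exact dM_129_s hinv hr j z1 z2 u h
theorem sndM (hinv : ∀ x, g (inv x) = (g x)⁻¹) (hr : ∀ r ∈ rels, (r.map g).prod = 1) (u : ℕ) (h : chkM u = true) :
    MG u < A → MG u % M < u ∧ GoodM (fa g) T MG M (cP g H) u := by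
  intro hA
  unfold chkM at h
  cases hb : Nat.ble A (MG u) with
  | true => exact absurd (le_of_ble hb) (by omega)
  | false =>
    rw [hb] at h
    obtain ⟨h1, h2⟩ := band_eq_true.1 h
    exact ⟨le_of_ble h1, dM_130_s hinv hr _ _ _ _ h2⟩
theorem sndN (hinv : ∀ x, g (inv x) = (g x)⁻¹) (hr : ∀ r ∈ rels, (r.map g).prod = 1) (hH : ∀ r ∈ subs, (r.map g).prod ∈ H)
    (u : ℕ) (hu : u < M) (h : chkP u = true) : (∀ x, (T x u < A ∧ Good (fa g) T MG M (cP g H) x u) ∨ (A ≤ T x u ∧ MG u < A)) ∧ (MG u < A → MG u % M < u ∧ GoodM (fa g) T MG M (cP g H) u) := by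
  unfold chkP at h
  cases hb : Nat.ble M u with
  | true => exact absurd (le_of_ble hb) (by omega)
  | false =>
    rw [hb] at h
    change chkN u = true at h
    unfold chkN at h
    obtain ⟨h0, h⟩ := band_eq_true.1 h
    obtain ⟨h1, h⟩ := band_eq_true.1 h
    obtain ⟨h2, h⟩ := band_eq_true.1 h
    obtain ⟨h3, h⟩ := band_eq_true.1 h
    obtain ⟨h4, h⟩ := band_eq_true.1 h
    obtain ⟨h5, h⟩ := band_eq_true.1 h
    obtain ⟨h6, h⟩ := band_eq_true.1 h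
    refine ⟨?_, sndM hinv hr u h⟩
    intro x
    cases x
    · exact snc_a hinv hr hH _ u hu h0
    · exact snc_b hinv hr hH _ u hu h1
    · exact snc_c hinv hr hH _ u hu h2
    · exact snc_d hinv hr hH _ u hu h3
    · exact snc_e hinv hr hH _ u hu h4
    · exact snc_f hinv hr hH _ u hu h5
    · exact snc_v hinv hr hH _ u hu h6
theorem final (hinv : ∀ x, g (inv x) = (g x)⁻¹) (hr : ∀ r ∈ rels, (r.map g).prod = 1) (hH : ∀ r ∈ subs, (r.map g).prod ∈ H)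
    (hall : ∀ u, u < M → chkP u = true) (hc : cntB liveP 15 0 = 5346) :
    H.relIndex (Subgroup.closure (Set.range g)) ≤ 5346 ∧ H.relIndex (Subgroup.closure (Set.range g)) ≠ 0 := by
  have hn := fun u hu => sndN hinv hr hH u hu (hall u hu)
  have h1 : ∀ x u, u < M → T x u < A → Good (fa g) T MG M (cP g H) x u := by
    intro x u hu hx
    rcases (hn u hu).1 x with h | h
    · exact h.2
    · exact absurd h.1 (by omega)
  have h2 : ∀ u, u < M → MG u < A → GoodM (fa g) T MG M (cP g H) u := fun u hu h => ((hn u hu).2 h).2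
  refine relIndex_le (M := M) (A := A) (T := T) (MG := MG) (c := cP g H) (by decide) cc_zero (sound_of_good h1 h2) ?_ ?_ ?_
  · intro u hu h
    exact ((hn u hu).2 h).1
  · intro x u hu h
    rcases (hn u hu).1 x with h' | h'
    · exact h'.1
    · exact absurd h'.2 (by omega)
  · rw [← hc, ← cntB_spec]
    apply Finset.card_le_card
    intro u
    simp only [Finset.mem_filter, Finset.mem_Ico]
    rintro ⟨⟨_, h3⟩, h4⟩
    refine ⟨⟨Nat.zero_le _, lt_of_lt_of_le h3 (by decide)⟩, ?_⟩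
    unfold liveP
    cases hb : Nat.ble M u with
    | true => exact absurd (le_of_ble hb) (by omega)
    | false => exact h4
end
end H17.TCSV
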